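import Cfsg.Agent.Helper2.Transfer
import Mathlib.GroupTheory.SchurZassenhaus
import Mathlib.GroupTheory.GroupAction.ConjAct
import Mathlib.GroupTheory.Commutator.Basic
import Mathlib.Tactic.Group

set_option autoImplicit false

namespace Cfsg.Agent.Helper2

open Subgroup
open scoped commutatorElement

open scoped IsMulCommutative in
/-- Coprime action on an abelian normal Hall subgroup `A` of `G`: every element of `A` is a
product of an element of `A ∩ Z(G)` and an element of `[A, G]`. -/
theorem exists_center_mul_commutator {G : Type*} [Group G] [Finite G] (A : Subgroup G)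
    [hAn : A.Normal] [IsMulCommutative A] (hHall : Nat.Coprime (Nat.card A) A.index) (a : G)
    (ha : a ∈ A) : ∃ z ∈ A ⊓ center G, ∃ c ∈ ⁅A, (⊤ : Subgroup G)⁆, a = z * c := by
  classical
  obtain ⟨K, hK⟩ := exists_right_complement'_of_coprime hHall
  have hcardK : A.index = Nat.card K := hK.symm.index_eq_card
  rw [hcardK] at hHall
  obtain ⟨b, hb⟩ := (powCoprime hHall).surjective ⟨a, ha⟩
  have hb' : b ^ Nat.card K = ⟨a, ha⟩ := hb
  letI : Fintype K := Fintype.ofFinite K
  set N : A := ∏ k : K, MulAut.conjNormal (k : G) b with hN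
  set C : A := ∏ k : K, (b * (MulAut.conjNormal (k : G) b)⁻¹) with hC
  have hNC : N * C = ⟨a, ha⟩ := by
    rw [hN, hC, ← Finset.prod_mul_distrib, ← hb']
    have : ∀ k : K, MulAut.conjNormal (k : G) b * (b * (MulAut.conjNormal (k : G) b)⁻¹) = b := by
      intro k
      rw [mul_comm b, mul_inv_cancel_left]
    simp only [this, Finset.prod_const, Finset.card_univ, Nat.card_eq_fintype_card]
  have hNK : ∀ k₀ : K, MulAut.conjNormal (k₀ : G) N = N := by
    intro k₀
    rw [hN, map_prod]
    have : ∀ k : K, MulAut.conjNormal (k₀ : G) (MulAut.conjNormal (k : G) b) =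
        MulAut.conjNormal ((k₀ * k : K) : G) b := by
      intro k
      rw [Subgroup.coe_mul, map_mul, MulAut.mul_apply]
    simp only [this]
    exact Fintype.prod_equiv (Equiv.mulLeft k₀) _ _ (fun k => rfl)
  have hNcenter : (N : G) ∈ center G := by
    rw [mem_center_iff]
    intro g
    obtain ⟨⟨x, k⟩, hxk⟩ := hK.2 g
    have hxk' : (x : G) * (k : G) = g := hxk
    have h1 : (k : G) * (N : G) * (k : G)⁻¹ = (N : G) := by
      have := congrArg Subtype.val (hNK k)
      rwa [MulAut.conjNormal_apply] at this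
    have h2 : (x : G) * (N : G) = (N : G) * (x : G) := by
      have := mul_comm x N
      exact congrArg Subtype.val this
    have h3 : (k : G) * (N : G) = (N : G) * (k : G) := by
      calc (k : G) * (N : G) = (k : G) * (N : G) * (k : G)⁻¹ * (k : G) := by group
        _ = (N : G) * (k : G) := by rw [h1]
    rw [← hxk']
    calc (x : G) * (k : G) * (N : G) = (x : G) * ((k : G) * (N : G)) := by group
      _ = (x : G) * ((N : G) * (k : G)) := by rw [h3]
      _ = ((x : G) * (N : G)) * (k : G) := by group
      _ = (N : G) * (x : G) * (k : G) := by rw [h2]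
      _ = (N : G) * ((x : G) * (k : G)) := by group
  have hCmem : C ∈ (⁅A, (⊤ : Subgroup G)⁆).subgroupOf A := by
    rw [hC]
    apply Subgroup.prod_mem
    intro k _
    rw [mem_subgroupOf]
    have e : ((b * (MulAut.conjNormal (k : G) b)⁻¹ : A) : G) = ⁅(b : G), (k : G)⁆ := by
      rw [Subgroup.coe_mul, Subgroup.coe_inv, MulAut.conjNormal_apply, commutatorElement_def]
      group
    rw [e]
    exact commutator_mem_commutator b.2 (mem_top _)
  refine ⟨(N : G), mem_inf.mpr ⟨N.2, hNcenter⟩, (C : G), mem_subgroupOf.mp hCmem, ?_⟩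
  have := congrArg Subtype.val hNC
  simpa using this.symm

/-- Relative version: `A ≤ M`, `M` normalises the abelian subgroup `A`, and `|A|` is coprime to
`|M : A|`. Then every element of `A` is a product of an element of `A ∩ C_G(M)` and an element
of `[A, M]`. -/
theorem exists_centralizer_mul_commutator_of_le {G : Type*} [Group G] [Finite G]
    (A M : Subgroup G) (hAM : A ≤ M) (hnorm : M ≤ normalizer (A : Set G)) [hc : IsMulCommutative A]
    (hHall : Nat.Coprime (Nat.card A) (A.relIndex M)) (a : G) (ha : a ∈ A) :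
    ∃ z ∈ A ⊓ centralizer (M : Set G), ∃ c ∈ ⁅A, M⁆, a = z * c := by
  haveI : (A.subgroupOf M).Normal := normal_subgroupOf_of_le_normalizer hnorm
  haveI : IsMulCommutative (A.subgroupOf M) := ⟨⟨fun x y => by
    apply Subtype.ext
    apply Subtype.ext
    have hx : ((x : M) : G) ∈ A := mem_subgroupOf.mp x.2
    have hy : ((y : M) : G) ∈ A := mem_subgroupOf.mp y.2
    have h := mul_comm' (⟨_, hx⟩ : A) ⟨_, hy⟩
    have h' : ((x : M) : G) * ((y : M) : G) = ((y : M) : G) * ((x : M) : G) :=
      congrArg Subtype.val h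
    exact h'⟩⟩
  have hcard : Nat.card (A.subgroupOf M) = Nat.card A :=
    Nat.card_congr (subgroupOfEquivOfLe hAM).toEquiv
  have hHall' : Nat.Coprime (Nat.card (A.subgroupOf M)) (A.subgroupOf M).index := by
    rw [hcard]; exact hHall
  obtain ⟨z', hz', c', hc', hzc⟩ := exists_center_mul_commutator (A.subgroupOf M) hHall'
    (⟨a, hAM ha⟩ : M) (mem_subgroupOf.mpr ha)
  refine ⟨(z' : G), mem_inf.mpr ⟨mem_subgroupOf.mp hz'.1, ?_⟩, (c' : G), ?_, ?_⟩
  · rw [mem_centralizer_iff]
    intro m hm
    have := mem_center_iff.mp hz'.2 ⟨m, hm⟩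
    exact congrArg Subtype.val this
  · have h1 : (c' : G) ∈ (⁅A.subgroupOf M, (⊤ : Subgroup M)⁆).map M.subtype := ⟨c', hc', rfl⟩
    rw [map_commutator, subgroupOf_map_subtype, ← MonoidHom.range_eq_map, range_subtype] at h1
    exact commutator_mono inf_le_left le_rfl h1
  · have := congrArg Subtype.val hzc
    simpa using this

end Cfsg.Agent.Helper2
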