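import Cfsg.Agent.Helper2.AbelianHall
import Cfsg.Agent.Helper2.Focal
import Mathlib.GroupTheory.SpecificGroups.Cyclic

set_option autoImplicit false

namespace Cfsg.Agent.Helper2

open Subgroup
open scoped commutatorElement

/-- For a commutative Sylow `p`-subgroup `P` with normaliser `N`: every element of `P` is a
product of an element of `P ∩ C_G(N)` and an element of `[P, N]`. -/
theorem sylow_exists_centralizer_mul_commutator {G : Type*} [Group G] [Finite G] {p : ℕ}
    [Fact p.Prime] (P : Sylow p G) [IsMulCommutative P] (a : G) (ha : a ∈ (P : Subgroup G)) :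
    ∃ z ∈ (P : Subgroup G) ⊓ centralizer (normalizer (P : Set G) : Set G),
      ∃ c ∈ ⁅(P : Subgroup G), normalizer (P : Set G)⁆, a = z * c := by
  have hHall : Nat.Coprime (Nat.card (P : Subgroup G))
      ((P : Subgroup G).relIndex (normalizer (P : Set G))) :=
    Nat.Coprime.coprime_dvd_right (relIndex_dvd_index_of_le le_normalizer) P.card_coprime_index
  exact exists_centralizer_mul_commutator_of_le (P : Subgroup G) (normalizer (P : Set G))
    le_normalizer le_rfl hHall a ha

open scoped IsMulCommutative in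
/-- For a commutative Sylow `p`-subgroup `P`: an element of `P ∩ C_G(N_G(P)) ∩ G'` is trivial. -/
theorem sylow_eq_one_of_mem_centralizer_normalizer {G : Type*} [Group G] [Finite G] {p : ℕ}
    [Fact p.Prime] (P : Sylow p G) [IsMulCommutative P] (z : G) (hzP : z ∈ (P : Subgroup G))
    (hzN : z ∈ centralizer (normalizer (P : Set G) : Set G)) (hz' : z ∈ commutator G) : z = 1 := by
  have key : ∀ (k : ℕ) (g₀ : G), g₀⁻¹ * z ^ k * g₀ ∈ (P : Subgroup G) →
      g₀⁻¹ * z ^ k * g₀ = z ^ k := by
    intro k g₀ hk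
    obtain ⟨n, hn, hne⟩ := P.conj_eq_normalizer_conj_of_mem (z ^ k) g₀
      ((P : Subgroup G).pow_mem hzP k) hk
    rw [hne]
    have hzk : z ^ k ∈ centralizer (normalizer (P : Set G) : Set G) := Subgroup.pow_mem _ hzN k
    have h1 : n * z ^ k = z ^ k * n := (mem_centralizer_iff.mp hzk) n hn
    calc n⁻¹ * z ^ k * n = n⁻¹ * (z ^ k * n) := by group
      _ = n⁻¹ * (n * z ^ k) := by rw [h1]
      _ = z ^ k := by group
  have h1 := MonoidHom.transfer_eq_pow (MonoidHom.id (P : Subgroup G)) z key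
  have h2 : MonoidHom.transfer (MonoidHom.id (P : Subgroup G)) z = 1 :=
    Abelianization.commutator_subset_ker _ hz'
  rw [h2] at h1
  have h3 : z ^ (P : Subgroup G).index = 1 := by
    have := congrArg Subtype.val h1
    simpa using this.symm
  obtain ⟨k, hk⟩ := P.2 ⟨z, hzP⟩
  have hk' : z ^ (p ^ k) = 1 := by
    have := congrArg Subtype.val hk
    simpa using this
  have h4 : orderOf z ∣ Nat.gcd (p ^ k) (P : Subgroup G).index :=
    Nat.dvd_gcd (orderOf_dvd_of_pow_eq_one hk') (orderOf_dvd_of_pow_eq_one h3)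
  have h5 : Nat.Coprime (p ^ k) (P : Subgroup G).index :=
    Nat.Coprime.pow_left k ((Nat.Prime.coprime_iff_not_dvd Fact.out).mpr P.not_dvd_index)
  rw [h5.gcd_eq_one, Nat.dvd_one] at h4
  exact orderOf_eq_one_iff.mp h4

/-- `(P ∩ C_G(N_G(P))) ∩ [P, N_G(P)] = 1` for a commutative Sylow subgroup `P`. -/
theorem sylow_centralizer_inf_commutator_eq_bot {G : Type*} [Group G] [Finite G] {p : ℕ}
    [Fact p.Prime] (P : Sylow p G) [IsMulCommutative P] :
    ((P : Subgroup G) ⊓ centralizer (normalizer (P : Set G) : Set G)) ⊓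
      ⁅(P : Subgroup G), normalizer (P : Set G)⁆ = ⊥ := by
  rw [eq_bot_iff]
  rintro z ⟨⟨hzP, hzN⟩, hzc⟩
  rw [mem_bot]
  apply sylow_eq_one_of_mem_centralizer_normalizer P z hzP hzN
  rw [← commutator_inf_sylow_eq P] at hzc
  exact hzc.1

open scoped IsMulCommutative in
/-- In a cyclic `p`-group `T ≤ G`, two subgroups with trivial intersection cannot both be
nontrivial. -/
theorem eq_bot_or_eq_bot_of_isCyclic {G : Type*} [Group G] [Finite G] {p : ℕ} [Fact p.Prime]
    (T : Subgroup G) (hT : IsPGroup p T) [hcyc : IsCyclic T] (A B : Subgroup G) (hA : A ≤ T)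
    (hB : B ≤ T) (hAB : A ⊓ B = ⊥) : A = ⊥ ∨ B = ⊥ := by
  haveI : IsMulCommutative T := IsCyclic.isMulCommutative
  let φ : A × B →* T := MonoidHom.coprod (inclusion hA) (inclusion hB)
  have hφ : Function.Injective φ := by
    rw [injective_iff_map_eq_one]
    rintro ⟨a, b⟩ hab
    have h1 : (a : G) * (b : G) = 1 := by
      have := congrArg Subtype.val hab
      simpa [φ] using this
    have h2 : (a : G) ∈ A ⊓ B := by
      refine mem_inf.mpr ⟨a.2, ?_⟩
      have e : (a : G) = (b : G)⁻¹ := eq_inv_of_mul_eq_one_left h1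
      rw [e]
      exact inv_mem b.2
    rw [hAB, mem_bot] at h2
    have h3 : (b : G) = 1 := by rwa [h2, one_mul] at h1
    exact Prod.ext (Subtype.ext h2) (Subtype.ext h3)
  haveI : IsCyclic (A × B) := isCyclic_of_injective φ hφ
  have hcop : (Nat.card A).Coprime (Nat.card B) := (Group.isCyclic_prod_iff.mp inferInstance).2.2
  obtain ⟨i, hi⟩ := (IsPGroup.iff_card).mp (hT.to_le hA)
  obtain ⟨j, hj⟩ := (IsPGroup.iff_card).mp (hT.to_le hB)
  have hp : p.Prime := Fact.out
  by_cases hi0 : i = 0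
  · left
    apply eq_bot_of_card_eq
    rw [hi, hi0, pow_zero]
  · right
    apply eq_bot_of_card_eq
    rw [hj]
    by_contra hj0
    have hj0' : j ≠ 0 := by
      rintro rfl
      exact hj0 (pow_zero p)
    rw [hi, hj] at hcop
    have h1 : p ∣ Nat.gcd (p ^ i) (p ^ j) :=
      Nat.dvd_gcd (dvd_pow_self p hi0) (dvd_pow_self p hj0')
    rw [hcop.gcd_eq_one] at h1
    exact hp.one_lt.ne' (Nat.dvd_one.mp h1)

end Cfsg.Agent.Helper2
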