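/-
helper2: B&G Theorem 13.4 (row S1428), shared definitions for the CALL.
`T1Ctx` packages the data of PROP A (insight 3428); `PropA G` and `Claim1218 G` are the two
statements that the blocks prove and the swap argument consumes.
-/
import Cfsg.Prelude.Def_OddOrderLocal

set_option autoImplicit false

namespace Cfsg.Agent.Helper2

open Cfsg Subgroup

universe u

variable {G : Type u} [Group G]

/-- The data of PROP A: `p ∈ τ₁(M)`, `P ≤ E` of order `p`, `R ≤ C_E(P)` of prime order `r ≠ p`,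
`H` a maximal subgroup over `N_G(P)`, and `Q ≠ 1` an `R`-invariant `q`-subgroup of `C_{M_σ}(P)`
with `C_Q(R) = 1`. -/
structure T1Ctx (M E P R H Q : Subgroup G) (p r q : ℕ) : Prop where
  hM : IsCoatom M
  hE : IsComplIn E (sigmaCore M) M
  hp : p ∈ tau1 M
  hPE : P ≤ E
  hP : Nat.card P = p
  hRE : R ≤ E
  hRP : R ≤ centralizer (P : Set G)
  hr : r.Prime
  hR : Nat.card R = r
  hrp : r ≠ p
  hH : IsCoatom H
  hNP : normalizer (P : Set G) ≤ H
  hq : q.Prime
  hQq : IsPGroup q Q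
  hQ1 : Q ≠ ⊥
  hQM : Q ≤ sigmaCore M
  hQP : Q ≤ centralizer (P : Set G)
  hRQ : R ≤ normalizer (Q : Set G)
  hCQ : Q ⊓ centralizer (R : Set G) = ⊥

/-- PROP A: in the situation `T1Ctx`, `p ∈ σ(H)` and `H` is the unique maximal subgroup
containing `N_G(Q)`. -/
def PropA (G : Type u) [Group G] : Prop :=
  ∀ (M E P R H Q : Subgroup G) (p r q : ℕ), T1Ctx M E P R H Q p r q →
    p ∈ sigma H ∧ normalizer (Q : Set G) ≤ H ∧
      ∀ L : Subgroup G, IsCoatom L → normalizer (Q : Set G) ≤ L → L = H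

/-- The needed part of B&G 12.18: `r ∈ τ₁(H)`, `R ≤ H` of order `r`, `Q ≠ 1` an `R`-invariant
`q`-subgroup of `H` with `q ∉ α(H)`, `q ≠ r`, `C_Q(R) = 1`, and `H` not the unique maximal
subgroup over `N_G(Q)`; then `C_{H_α}(QR) = 1`. -/
def Claim1218 (G : Type u) [Group G] : Prop :=
  ∀ (H R Q : Subgroup G) (r q : ℕ), IsCoatom H → r ∈ tau1 H → R ≤ H → Nat.card R = r →
    q.Prime → q ∉ alpha H → q ≠ r → IsPGroup q Q → Q ≠ ⊥ → Q ≤ H →
    R ≤ normalizer (Q : Set G) → Q ⊓ centralizer (R : Set G) = ⊥ →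
    ¬ (normalizer (Q : Set G) ≤ H ∧
        ∀ L : Subgroup G, IsCoatom L → normalizer (Q : Set G) ≤ L → L = H) →
    alphaCore H ⊓ centralizer (Q : Set G) ⊓ centralizer (R : Set G) = ⊥

/-- The data of BLOCK NB (case `p ∈ σ(H) \ β(H)`): `p ∈ τ₁(M)`, `P ≤ M` of order `p`,
`H` a maximal subgroup over `N_G(P)` with `p ∈ σ(H)`, `p ∉ β(H)`. -/
structure NBCtx (M P H : Subgroup G) (p : ℕ) : Prop where
  hM : IsCoatom M
  hp : p ∈ tau1 M
  hPM : P ≤ M
  hP : Nat.card P = p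
  hH : IsCoatom H
  hNP : normalizer (P : Set G) ≤ H
  hpσ : p ∈ sigma H
  hpβ : p ∉ beta H

/-- Step (5) of BLOCK NB as a hypothesis: no nontrivial subgroup of prime power order of
`T = [M_σ ∩ H, M ∩ H]` has its centralizer inside `M`. -/
def NBFive (M H : Subgroup G) : Prop :=
  ∀ (q : ℕ) (Y : Subgroup G), q.Prime → IsPGroup q Y → Y ≠ ⊥ →
    Y ≤ ⁅sigmaCore M ⊓ H, M ⊓ H⁆ → ¬ centralizer (Y : Set G) ≤ M

end Cfsg.Agent.Helper2
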