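/-
helper2: CALL BG36 piece I3 (kernel argument).
-/
import Mathlib
import Cfsg.Prelude.Def_OddOrderLocal

set_option autoImplicit false

namespace Cfsg.Agent.Helper2

open Cfsg Subgroup

universe u

variable {G : Type u} [Group G] [Finite G]

/-- PIECE I3 (kernel argument): `a ↦ z a z⁻¹ a⁻¹` maps the finite abelian group `A` into the proper
subgroup `A ⊓ C`, so it is not injective, and then some `a₁ ≠ 1` in `A` commutes with `z`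
(`z a₁ z⁻¹ a₁⁻¹ = z a₂ z⁻¹ a₂⁻¹` with `a₁ ≠ a₂` gives `z (a₂⁻¹ a₁) z⁻¹ = a₂⁻¹ a₁`, `A` abelian). -/
theorem bg36_kernel {A C : Subgroup G} {p : ℕ} {z : G} (hAel : IsElementaryAbelian p A)
    (hz : z ∈ normalizer (A : Set G)) (hcx : ∀ a ∈ A, z * a * z⁻¹ * a⁻¹ ∈ C)
    (hAC : ¬ A ≤ C) : ∃ a₁ ∈ A, a₁ ≠ 1 ∧ z * a₁ = a₁ * z := by
  classical
  have hzA : ∀ a ∈ A, z * a * z⁻¹ ∈ A := fun a ha => (mem_normalizer_iff.mp hz a).mp ha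
  -- the map `φ : A → A`
  let φ : A → A := fun a => ⟨z * a * z⁻¹ * (a : G)⁻¹, A.mul_mem (hzA a a.2) (A.inv_mem a.2)⟩
  have hninj : ¬ Function.Injective φ := by
    intro hinj
    have hsurj : Function.Surjective φ := Finite.surjective_of_injective hinj
    apply hAC
    intro a ha
    obtain ⟨b, hb⟩ := hsurj ⟨a, ha⟩
    have : z * b * z⁻¹ * (b : G)⁻¹ = a := congrArg Subtype.val hb
    rw [← this]
    exact hcx b b.2
  rw [Function.Injective] at hninj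
  push Not at hninj
  obtain ⟨a₁, a₂, heq, hne⟩ := hninj
  have heq' : z * a₁ * z⁻¹ * (a₁ : G)⁻¹ = z * a₂ * z⁻¹ * (a₂ : G)⁻¹ := congrArg Subtype.val heq
  refine ⟨(a₂ : G)⁻¹ * a₁, A.mul_mem (A.inv_mem a₂.2) a₁.2, ?_, ?_⟩
  · intro h
    apply hne
    apply Subtype.ext
    have : (a₁ : G) = a₂ * ((a₂ : G)⁻¹ * a₁) := by group
    rw [this, h, mul_one]
  · -- z (a₂⁻¹ a₁) z⁻¹ = a₂⁻¹ a₁
    have h1 : z * a₁ * z⁻¹ = (z * a₂ * z⁻¹) * ((a₂ : G)⁻¹ * a₁) := by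
      have e1 : z * a₁ * z⁻¹ = (z * a₁ * z⁻¹ * (a₁ : G)⁻¹) * a₁ := by group
      rw [e1, heq']
      group
    have h3 : z * ((a₂ : G)⁻¹ * a₁) * z⁻¹ = (z * a₂ * z⁻¹)⁻¹ * (z * a₁ * z⁻¹) := by group
    have h4 : z * ((a₂ : G)⁻¹ * a₁) * z⁻¹ = (a₂ : G)⁻¹ * a₁ := by
      rw [h3, h1]
      group
    calc z * ((a₂ : G)⁻¹ * a₁) = (z * ((a₂ : G)⁻¹ * a₁) * z⁻¹) * z := by group
      _ = (a₂ : G)⁻¹ * a₁ * z := by rw [h4]

end Cfsg.Agent.Helper2
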