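/-
helper2: CALL BG36 piece KE0.
-/
import Mathlib
import Cfsg.Agent.Helper23.Trans
import Cfsg.Prelude.Def_OddOrderLocal

set_option autoImplicit false

namespace Cfsg.Agent.Helper2

open Cfsg Subgroup

universe u

variable {G : Type u} [Group G] [Finite G]

/-- PIECE KE0: primes of the order of an element of `M_σ` lie in `σ(M)`. -/
theorem bg36_sigma_elt {M : Subgroup G} {y : G} (hy : y ∈ sigmaCore M) {s : ℕ} (hs : s.Prime)
    (hsy : s ∣ orderOf y) : s ∈ sigma M := by
  have h1 : orderOf y ∣ Nat.card ↥(sigmaCore M) := by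
    have := orderOf_dvd_natCard (⟨y, hy⟩ : ↥(sigmaCore M))
    rwa [Subgroup.orderOf_mk] at this
  exact Cfsg.Agent.Helper23.mem_of_dvd_card_piCoreOf (sigma M) M hs (hsy.trans h1)

end Cfsg.Agent.Helper2
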