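import Mathlib.GroupTheory.Sylow

set_option autoImplicit false

namespace Cfsg.Agent.Helper2

open Subgroup

/-- `MulAut.conj (a * b) '' X = MulAut.conj a '' (MulAut.conj b '' X)`. -/
theorem conj_image_mul {G : Type*} [Group G] (a b : G) (X : Set G) :
    MulAut.conj (a * b) '' X = MulAut.conj a '' (MulAut.conj b '' X) := by
  rw [Set.image_image]
  congr 1
  funext x
  simp

theorem conj_image_one {G : Type*} [Group G] (X : Set G) :
    MulAut.conj (1 : G) '' X = X := by
  simp

/-- Burnside's fusion lemma for subsets: if `X` and `g X g⁻¹` are both normalised by the Sylow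
subgroup `P`, then they are conjugate under `N_G(P)`. -/
theorem exists_mem_normalizer_conj_image_eq {G : Type*} [Group G] {p : ℕ} [Fact p.Prime]
    [Finite (Sylow p G)] (P : Sylow p G) (X : Set G)
    (hX : (P : Subgroup G) ≤ normalizer X) (g : G)
    (hY : (P : Subgroup G) ≤ normalizer (MulAut.conj g '' X)) :
    ∃ n ∈ normalizer (P : Set G), MulAut.conj n '' X = MulAut.conj g '' X := by
  have h2 : ↑(g⁻¹ • P) ≤ normalizer X := by
    intro w hw
    rw [Sylow.coe_subgroup_smul, Subgroup.mem_pointwise_smul_iff_inv_smul_mem] at hw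
    have hz' := hY hw
    rw [mem_normalizer_iff_conj_image_eq] at hz' ⊢
    have e : (MulAut.conj g⁻¹)⁻¹ • w = g * w * g⁻¹ := by
      simp [MulAut.smul_def, MulAut.conj_apply]
    rw [e] at hz'
    have e2 : w = g⁻¹ * (g * w * g⁻¹) * g := by group
    rw [e2, conj_image_mul, conj_image_mul, hz', ← conj_image_mul, inv_mul_cancel, conj_image_one]
  obtain ⟨h, hh⟩ := MulAction.exists_smul_eq (normalizer X) ((g⁻¹ • P).subtype h2) (P.subtype hX)
  simp_rw [Sylow.smul_subtype, Subgroup.smul_def, smul_smul] at hh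
  have hn : (h : G) * g⁻¹ ∈ normalizer (P : Set G) :=
    Sylow.smul_eq_iff_mem_normalizer.mp (Sylow.subtype_injective hh)
  refine ⟨((h : G) * g⁻¹)⁻¹, Subgroup.inv_mem _ hn, ?_⟩
  have hh' : (h : G)⁻¹ ∈ normalizer X := Subgroup.inv_mem _ h.2
  rw [mem_normalizer_iff_conj_image_eq] at hh'
  rw [mul_inv_rev, inv_inv, conj_image_mul, hh']

end Cfsg.Agent.Helper2
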