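import Mathlib.GroupTheory.Frattini
import Mathlib.GroupTheory.Sylow
import Mathlib.GroupTheory.Nilpotent
import Mathlib.Tactic.Group
import Cfsg.Agent.Helper2.SylowLe

set_option autoImplicit false

namespace Cfsg.Agent.Helper2

open Subgroup

/-- Gaschütz: if `K` is a normal subgroup of the finite group `G` containing `Φ(G)` and
`K / Φ(G)` is nilpotent, then `K` is nilpotent. -/
theorem isNilpotent_of_isNilpotent_map_frattini {G : Type*} [Group G] [Finite G]
    (K : Subgroup G) [hKn : K.Normal]
    (hnil : Group.IsNilpotent (K.map (QuotientGroup.mk' (frattini G)))) :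
    Group.IsNilpotent K := by
  have q := (Group.isNilpotent_of_finite_tfae (G := K)).out 0 3
  rw [q]; clear q
  intro p p_prime P
  have hf : Function.Surjective ((QuotientGroup.mk' (frattini G)).subgroupMap K) :=
    (QuotientGroup.mk' (frattini G)).subgroupMap_surjective K
  haveI : Subsingleton (Sylow p (K.map (QuotientGroup.mk' (frattini G)))) := by
    have S : Sylow p (K.map (QuotientGroup.mk' (frattini G))) := P.mapSurjective hf
    exact (Sylow.unique_of_normal S inferInstance).instSubsingleton
  have step1 : ∀ g : G, ∀ y : K, y ∈ ((MulAut.conjNormal g : MulAut K) • P : Sylow p K) →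
      (y : G) ∈ (P : Subgroup K).map K.subtype ⊔ frattini G := by
    intro g y hy
    have heq : (((MulAut.conjNormal g : MulAut K) • P : Sylow p K).mapSurjective hf) =
        P.mapSurjective hf := Subsingleton.elim _ _
    have h1 : ((QuotientGroup.mk' (frattini G)).subgroupMap K) y ∈
        (((MulAut.conjNormal g : MulAut K) • P : Sylow p K).mapSurjective hf : Sylow p _) :=
      ⟨y, hy, rfl⟩
    rw [heq] at h1
    obtain ⟨x, hx, hxy⟩ := h1
    have h2 : (QuotientGroup.mk' (frattini G)) (x : G) = (QuotientGroup.mk' (frattini G)) (y : G) :=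
      congrArg Subtype.val hxy
    have h3 : (x : G)⁻¹ * (y : G) ∈ frattini G := QuotientGroup.eq.mp h2
    have e : (y : G) = (x : G) * ((x : G)⁻¹ * (y : G)) := by group
    rw [e]
    exact mul_mem (mem_sup_left ⟨x, hx, rfl⟩) (mem_sup_right h3)
  have hsup : normalizer (((P : Subgroup K).map K.subtype : Subgroup G) : Set G) ⊔ frattini G
      = ⊤ := by
    refine top_le_iff.mp fun g _ => ?_
    have hP : (P : Subgroup K) ≤
        ((P : Subgroup K).map K.subtype ⊔ frattini G).subgroupOf K :=
      fun x hx => mem_subgroupOf.mpr (mem_sup_left ⟨x, hx, rfl⟩)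
    have hQ : (((MulAut.conjNormal g : MulAut K) • P : Sylow p K) : Subgroup K) ≤
        ((P : Subgroup K).map K.subtype ⊔ frattini G).subgroupOf K :=
      fun y hy => mem_subgroupOf.mpr (step1 g y hy)
    obtain ⟨n, hnL, hn⟩ := exists_mem_smul_eq_of_le P ((MulAut.conjNormal g : MulAut K) • P)
      _ hP hQ
    rw [← inv_mul_cancel_left (↑n) g]
    apply mul_mem
    · have h1 : (n : G) ∈ (P : Subgroup K).map K.subtype ⊔ frattini G := mem_subgroupOf.mp hnL
      exact inv_mem ((sup_le_sup_right le_normalizer _) h1)
    · apply mem_sup_left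
      have H : ∀ y : K, y ∈ (P : Subgroup K) ↔
          (MulAut.conjNormal g : MulAut K)⁻¹ (n⁻¹ * y * n) ∈ (P : Subgroup K) := by
        intro y
        have h1 : y ∈ (P : Subgroup K) ↔
            y ∈ ((n • ((MulAut.conjNormal g : MulAut K) • P) : Sylow p K) : Subgroup K) := by
          rw [hn]
        rw [h1, mem_smul_sylow_iff, Sylow.pointwise_smul_def,
          Subgroup.mem_pointwise_smul_iff_inv_smul_mem]
        rfl
      rw [mem_set_normalizer_iff]
      intro h
      constructor
      · rintro ⟨x, hx, rfl⟩
        refine ⟨MulAut.conjNormal ((n : G) * g) x, ?_, ?_⟩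
        · rw [SetLike.mem_coe, H]
          have e : (MulAut.conjNormal g : MulAut K)⁻¹
              (n⁻¹ * (MulAut.conjNormal ((n : G) * g) x) * n) = x := by
            apply Subtype.ext
            rw [MulAut.conjNormal_inv_apply, Subgroup.coe_mul, Subgroup.coe_mul, Subgroup.coe_inv,
              MulAut.conjNormal_apply]
            group
          rw [e]
          exact hx
        · rw [Subgroup.coe_subtype, MulAut.conjNormal_apply]
      · rintro ⟨y, hy, hyh⟩
        have hy' := (H y).mp hy
        refine ⟨_, hy', ?_⟩
        have hyh' : (y : G) = (n : G) * g * h * ((n : G) * g)⁻¹ := hyh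
        rw [Subgroup.coe_subtype, MulAut.conjNormal_inv_apply, Subgroup.coe_mul, Subgroup.coe_mul,
          Subgroup.coe_inv, hyh']
        group
  have normalizer_P := frattini_nongenerating hsup
  have P_normal_in_G : (map K.subtype (P : Subgroup K)).Normal :=
    normalizer_eq_top_iff.mp normalizer_P
  exact P_normal_in_G.of_map_subtype

end Cfsg.Agent.Helper2
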