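import Cfsg.Prelude.Def_Transfer
import Cfsg.Agent.Helper2.SylowLe
import Mathlib.Tactic.Group

set_option autoImplicit false

namespace Cfsg.Agent.Helper2

open Subgroup

/-- If `Z` is weakly closed in `P` and `g Z g⁻¹ ⊆ P` then `g` normalises `Z`. -/
theorem mem_normalizer_of_weaklyClosed {G : Type*} [Group G] {Z P : Subgroup G}
    (hW : Cfsg.IsWeaklyClosed Z P) (g : G) (h : ∀ z ∈ Z, g * z * g⁻¹ ∈ P) :
    g ∈ normalizer (Z : Set G) := by
  rw [mem_normalizer_iff_map_conj_toMonoidHom_eq]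
  apply hW.2
  rintro x ⟨z, hz, rfl⟩
  simpa [MulAut.conj_apply] using h z hz

/-- Two `p`-subgroups `A`, `B` of a subgroup `C` of `G`: some `C`-conjugate of `B` lies together
with `A` in a Sylow `p`-subgroup of `G`. -/
theorem exists_sylow_le_and_conj_le {G : Type*} [Group G] [Finite G] {p : ℕ} [Fact p.Prime]
    (C A B : Subgroup G) (hA : IsPGroup p A) (hB : IsPGroup p B) (hAC : A ≤ C) (hBC : B ≤ C) :
    ∃ c ∈ C, ∃ R : Sylow p G, A ≤ (R : Subgroup G) ∧ ∀ b ∈ B, c * b * c⁻¹ ∈ (R : Subgroup G) := by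
  have hA' : IsPGroup p (A.subgroupOf C) :=
    hA.comap_of_injective C.subtype C.subtype_injective
  have hB' : IsPGroup p (B.subgroupOf C) :=
    hB.comap_of_injective C.subtype C.subtype_injective
  obtain ⟨S₁, hS₁⟩ := hA'.exists_le_sylow
  obtain ⟨S₂, hS₂⟩ := hB'.exists_le_sylow
  obtain ⟨c, hc⟩ := MulAction.exists_smul_eq C S₂ S₁
  have hS₁G : IsPGroup p ((S₁ : Subgroup C).map C.subtype) := S₁.2.map C.subtype
  obtain ⟨R, hR⟩ := hS₁G.exists_le_sylow
  refine ⟨c, c.2, R, ?_, ?_⟩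
  · intro a ha
    apply hR
    exact ⟨⟨a, hAC ha⟩, hS₁ (by simpa [Subgroup.mem_subgroupOf] using ha), rfl⟩
  · intro b hb
    apply hR
    have hb' : (⟨b, hBC hb⟩ : C) ∈ (S₂ : Subgroup C) :=
      hS₂ (by simpa [Subgroup.mem_subgroupOf] using hb)
    have hcb : c * ⟨b, hBC hb⟩ * c⁻¹ ∈ ((c • S₂ : Sylow p C) : Subgroup C) := by
      rw [mem_smul_sylow_iff]
      have e : c⁻¹ * (c * ⟨b, hBC hb⟩ * c⁻¹) * c = ⟨b, hBC hb⟩ := by group
      rw [e]
      exact hb'
    rw [hc] at hcb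
    exact ⟨c * ⟨b, hBC hb⟩ * c⁻¹, hcb, rfl⟩

/-- Grün-type fusion lemma: if `Z ≤ Z(P)`-ish (i.e. `Z` centralises `P`) is weakly closed in the
Sylow subgroup `P`, then two elements of `P` conjugate in `G` are conjugate under `N_G(Z)`. -/
theorem exists_mem_normalizer_conj_eq_of_weaklyClosed {G : Type*} [Group G] [Finite G] {p : ℕ}
    [Fact p.Prime] (P : Sylow p G) (Z : Subgroup G) (hZ : Z ≤ centralizer (P : Set G))
    (hW : Cfsg.IsWeaklyClosed Z P) (x u : G) (hx : x ∈ (P : Subgroup G))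
    (hw : u * x * u⁻¹ ∈ (P : Subgroup G)) :
    ∃ n ∈ normalizer (Z : Set G), n * x * n⁻¹ = u * x * u⁻¹ := by
  have hZp : IsPGroup p Z := P.2.to_le hW.1
  have hZu : IsPGroup p (Z.map (MulAut.conj u).toMonoidHom) := hZp.map _
  have hAC : Z ≤ centralizer {u * x * u⁻¹} := by
    intro z hz
    rw [mem_centralizer_iff]
    intro y hy
    rw [Set.mem_singleton_iff] at hy
    subst hy
    exact (mem_centralizer_iff.mp (hZ hz)) _ hw
  have hBC : Z.map (MulAut.conj u).toMonoidHom ≤ centralizer {u * x * u⁻¹} := by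
    rintro _ ⟨z, hz, rfl⟩
    rw [mem_centralizer_iff]
    intro y hy
    rw [Set.mem_singleton_iff] at hy
    subst hy
    have h1 : x * z = z * x := (mem_centralizer_iff.mp (hZ hz)) _ hx
    simp only [MulEquiv.coe_toMonoidHom, MulAut.conj_apply]
    calc u * x * u⁻¹ * (u * z * u⁻¹) = u * (x * z) * u⁻¹ := by group
      _ = u * (z * x) * u⁻¹ := by rw [h1]
      _ = u * z * u⁻¹ * (u * x * u⁻¹) := by group
  obtain ⟨c, hc, R, hAR, hBR⟩ :=
    exists_sylow_le_and_conj_le (centralizer {u * x * u⁻¹}) Z _ hZp hZu hAC hBC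
  obtain ⟨a, rfl⟩ := MulAction.exists_smul_eq G P R
  have ha : a⁻¹ ∈ normalizer (Z : Set G) := by
    apply mem_normalizer_of_weaklyClosed hW
    intro z hz
    have := hAR hz
    rw [mem_smul_sylow_iff] at this
    simpa using this
  have hacu : a⁻¹ * (c * u) ∈ normalizer (Z : Set G) := by
    apply mem_normalizer_of_weaklyClosed hW
    intro z hz
    have := hBR _ ⟨z, hz, rfl⟩
    rw [mem_smul_sylow_iff] at this
    simp only [MulEquiv.coe_toMonoidHom, MulAut.conj_apply] at this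
    have e : a⁻¹ * (c * u) * z * (a⁻¹ * (c * u))⁻¹ = a⁻¹ * (c * (u * z * u⁻¹) * c⁻¹) * a := by
      group
    rw [e]
    exact this
  have hcu : c * u ∈ normalizer (Z : Set G) := by
    have e : c * u = a⁻¹⁻¹ * (a⁻¹ * (c * u)) := by group
    rw [e]
    exact mul_mem (inv_mem ha) hacu
  refine ⟨c * u, hcu, ?_⟩
  have hcc : (u * x * u⁻¹) * c = c * (u * x * u⁻¹) :=
    (mem_centralizer_iff.mp hc) _ (Set.mem_singleton _)
  calc c * u * x * (c * u)⁻¹ = c * (u * x * u⁻¹) * c⁻¹ := by group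
    _ = (u * x * u⁻¹) * c * c⁻¹ := by rw [hcc]
    _ = u * x * u⁻¹ := by group

end Cfsg.Agent.Helper2
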