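import Mathlib
import Cfsg.Agent.Helper10.Conj
import Cfsg.Agent.Helper10.Basic
import Cfsg.Agent.Helper50.CD
import Cfsg.Agent.Helper53.PGroup

/-!
Helper library of seat helper2: basic tools for the Kegel–Wielandt theorem
(products of two nilpotent groups).  Everything lives in `Cfsg.Agent.Helper2`, prefix `kw`.
-/

set_option autoImplicit false
open Pointwise

namespace Cfsg.Agent.Helper2

/-- An element lies in every subgroup containing all its powers of prime power order. -/
theorem kw_mem_of_primary_powers {G : Type*} [Group G] (K : Subgroup G) :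
    ∀ (n : ℕ) (b : G), orderOf b = n → 0 < n →
      (∀ c ∈ Subgroup.zpowers b, (∃ p k : ℕ, p.Prime ∧ c ^ p ^ k = 1) → c ∈ K) → b ∈ K := by
  intro n
  induction n using Nat.strong_induction_on with
  | _ n ih =>
    intro b hb hn h
    by_cases h1 : n = 1
    · have : b = 1 := orderOf_eq_one_iff.mp (hb.trans h1)
      rw [this]; exact K.one_mem
    · have hp : n.minFac.Prime := Nat.minFac_prime h1
      obtain ⟨p, hpdef⟩ : ∃ p, p = n.minFac := ⟨_, rfl⟩
      rw [← hpdef] at hp
      obtain ⟨v, hvdef⟩ : ∃ v, v = n.factorization p := ⟨_, rfl⟩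
      have hdvd : p ^ v ∣ n := hvdef ▸ Nat.ordProj_dvd n p
      obtain ⟨m, hm⟩ := hdvd
      have hn0 : n ≠ 0 := by omega
      have hv : 0 < v := by
        rw [hvdef]
        exact hp.factorization_pos_of_dvd hn0 (hpdef ▸ Nat.minFac_dvd n)
      have hmdef : m = n / p ^ v := by
        rw [hm, Nat.mul_div_cancel_left _ (pow_pos hp.pos v)]
      have hcop : (p ^ v).Coprime m := by
        apply Nat.Coprime.pow_left
        rw [hmdef, hvdef]
        exact Nat.coprime_ordCompl hp hn0
      have hm0 : 0 < m := by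
        rcases Nat.eq_zero_or_pos m with h0 | h0
        · rw [h0, mul_zero] at hm; omega
        · exact h0
      have hpv : 2 ≤ p ^ v := by
        calc 2 ≤ p := hp.two_le
          _ = p ^ 1 := (pow_one p).symm
          _ ≤ p ^ v := Nat.pow_le_pow_right hp.pos hv
      have hmn : m < n := by
        rw [hm]; nlinarith
      have hbn : b ^ n = 1 := hb ▸ pow_orderOf_eq_one b
      have hc1 : b ^ m ∈ K := by
        apply h _ (Subgroup.pow_mem _ (Subgroup.mem_zpowers b) m)
        refine ⟨p, v, hp, ?_⟩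
        rw [← pow_mul, mul_comm, ← hm, hbn]
      have hc2 : b ^ (p ^ v) ∈ K := by
        have hord : orderOf (b ^ (p ^ v)) ∣ m := by
          apply orderOf_dvd_of_pow_eq_one
          rw [← pow_mul, ← hm, hbn]
        have hpos : 0 < orderOf (b ^ (p ^ v)) := Nat.pos_of_dvd_of_pos hord hm0
        have hlt : orderOf (b ^ (p ^ v)) < n := lt_of_le_of_lt (Nat.le_of_dvd hm0 hord) hmn
        apply ih _ hlt _ rfl hpos
        intro c hc hpk
        apply h c _ hpk
        exact (Subgroup.zpowers_le.mpr (Subgroup.pow_mem _ (Subgroup.mem_zpowers b) _)) hc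
      have hbez := Nat.gcd_eq_gcd_ab (p ^ v) m
      rw [hcop.gcd_eq_one] at hbez
      have hb1 : b = (b ^ (p ^ v)) ^ (Nat.gcdA (p ^ v) m) * (b ^ m) ^ (Nat.gcdB (p ^ v) m) := by
        rw [← zpow_natCast, ← zpow_natCast, ← zpow_mul, ← zpow_mul, ← zpow_add, ← hbez]
        simp
      rw [hb1]
      exact K.mul_mem (K.zpow_mem hc2 _) (K.zpow_mem hc1 _)

/-- Elements of order coprime to the index of `A` which normalize `A` lie in `A`. -/
theorem kw_mem_of_normalizer {G : Type*} [Group G] [Finite G] (A : Subgroup G) {m : G}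
    (hm : m ∈ Subgroup.normalizer (A : Set G)) (hc : (orderOf m).Coprime A.index) : m ∈ A := by
  obtain ⟨M, hMdef⟩ : ∃ M : Subgroup G, M = Subgroup.normalizer (A : Set G) := ⟨_, rfl⟩
  have hAM : A ≤ M := hMdef ▸ Subgroup.le_normalizer
  have hmM : m ∈ M := hMdef ▸ hm
  haveI hn : (A.subgroupOf M).Normal := by
    rw [hMdef]; exact Subgroup.normal_in_normalizer
  have h1 : orderOf (QuotientGroup.mk' (A.subgroupOf M) ⟨m, hmM⟩) ∣ orderOf m := by
    have := orderOf_map_dvd (QuotientGroup.mk' (A.subgroupOf M)) (⟨m, hmM⟩ : M)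
    rwa [Subgroup.orderOf_mk] at this
  have h2 : orderOf (QuotientGroup.mk' (A.subgroupOf M) ⟨m, hmM⟩) ∣ A.index := by
    have h3 := orderOf_dvd_natCard (QuotientGroup.mk' (A.subgroupOf M) ⟨m, hmM⟩)
    have h4 : Nat.card (M ⧸ A.subgroupOf M) = A.relIndex M := rfl
    rw [h4] at h3
    exact h3.trans (Dvd.intro _ (Subgroup.relIndex_mul_index hAM))
  have h5 : orderOf (QuotientGroup.mk' (A.subgroupOf M) ⟨m, hmM⟩) = 1 :=
    Nat.eq_one_of_dvd_coprimes hc h1 h2
  rw [orderOf_eq_one_iff, QuotientGroup.mk'_apply, QuotientGroup.eq_one_iff,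
    Subgroup.mem_subgroupOf] at h5
  exact h5

/-- A `p`-subgroup `P` of `H` of index prime to `p` in `H`, whose normalizer lies in `H`,
has index prime to `p` in the whole group. -/
theorem kw_sylow_of_normalizer_le {X : Type*} [Group X] [Finite X] {p : ℕ} [Fact p.Prime]
    (H P : Subgroup X) (hPH : P ≤ H) (hP : IsPGroup p P) (hPs : ¬ p ∣ P.relIndex H)
    (hN : Subgroup.normalizer (P : Set X) ≤ H) : ¬ p ∣ P.index := by
  obtain ⟨Q, hQ⟩ := hP.exists_le_sylow
  rcases eq_or_lt_of_le hQ with heq | hlt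
  · rw [heq]; exact Q.not_dvd_index
  · exfalso
    obtain ⟨x, hxQ, hxP, hxN⟩ := Cfsg.Agent.Helper53.exists_mem_normalizer_not_mem Q.2 hlt
    have hxH : x ∈ H := hN hxN
    have hT : IsPGroup p (P ⊔ Subgroup.zpowers x : Subgroup X) := by
      apply Q.2.to_le
      exact sup_le hQ (Subgroup.zpowers_le.mpr hxQ)
    have hlt2 : P < P ⊔ Subgroup.zpowers x := by
      refine lt_of_le_of_ne le_sup_left ?_
      intro h
      apply hxP
      rw [h]
      exact (le_sup_right : Subgroup.zpowers x ≤ _) (Subgroup.mem_zpowers x)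
    exact hPs (Cfsg.Agent.Helper53.dvd_relIndex_of_lt_isPGroup hT hlt2
      (sup_le hPH (Subgroup.zpowers_le.mpr hxH)))

end Cfsg.Agent.Helper2
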