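import Cfsg.Agent.Helper2.KWSyl
import Cfsg.Agent.Helper53.PCenter
import Cfsg.Agent.S0561
import Cfsg.Agent.S0562
import Cfsg.Agent.S0566

/-!
Helper library of seat helper2: the Kegel–Wielandt theorem, coprime case (Wielandt 1958).
Part 1: the configuration `G = AB` with `A`, `B` nilpotent of coprime orders, basic facts,
permutability of Hall subgroups inside proper factorized subgroups, and the first consequences
in a minimal (simple) counterexample.  Everything lives in `Cfsg.Agent.Helper2`, prefix `kw`.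
-/

set_option autoImplicit false
open Pointwise

namespace Cfsg.Agent.Helper2

universe u

/-- `G = AB` with `A`, `B` nilpotent of coprime orders. -/
structure KWC {G : Type u} [Group G] (A B : Subgroup G) : Prop where
  nilA : Group.IsNilpotent A
  nilB : Group.IsNilpotent B
  cop : (Nat.card A).Coprime (Nat.card B)
  fac : ∀ g : G, ∃ a ∈ A, ∃ b ∈ B, g = a * b

/-- `X` is factorized: `X = (A ∩ X)(B ∩ X)`. -/
def KWFac {G : Type u} [Group G] (A B X : Subgroup G) : Prop :=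
  ∀ g ∈ X, ∃ a ∈ A, a ∈ X ∧ ∃ b ∈ B, b ∈ X ∧ g = a * b

section basic

variable {G : Type u} [Group G]

theorem kw_fac_symm {A B : Subgroup G}
    (h : ∀ g : G, ∃ a ∈ A, ∃ b ∈ B, g = a * b) : ∀ g : G, ∃ b ∈ B, ∃ a ∈ A, g = b * a := by
  intro g
  obtain ⟨a, ha, b, hb, hg⟩ := h g⁻¹
  refine ⟨b⁻¹, B.inv_mem hb, a⁻¹, A.inv_mem ha, ?_⟩
  rw [← mul_inv_rev, ← hg, inv_inv]

theorem KWC.symm {A B : Subgroup G} (h : KWC A B) : KWC B A :=
  ⟨h.nilB, h.nilA, h.cop.symm, kw_fac_symm h.fac⟩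

theorem KWFac.symm {A B X : Subgroup G} (h : KWFac A B X) : KWFac B A X := by
  intro g hg
  obtain ⟨a, ha, haX, b, hb, hbX, e⟩ := h g⁻¹ (X.inv_mem hg)
  refine ⟨b⁻¹, B.inv_mem hb, X.inv_mem hbX, a⁻¹, A.inv_mem ha, X.inv_mem haX, ?_⟩
  rw [← mul_inv_rev, ← e, inv_inv]

theorem KWC.inf_eq_bot {A B : Subgroup G} (h : KWC A B) : A ⊓ B = ⊥ := by
  rw [← Subgroup.card_eq_one]
  have h1 : Nat.card (A ⊓ B : Subgroup G) ∣ Nat.card A := Subgroup.card_dvd_of_le inf_le_left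
  have h2 : Nat.card (A ⊓ B : Subgroup G) ∣ Nat.card B := Subgroup.card_dvd_of_le inf_le_right
  exact Nat.eq_one_of_dvd_coprimes h.cop h1 h2

theorem KWC.eq_one_of_mem {A B : Subgroup G} (h : KWC A B) {x : G} (hA : x ∈ A) (hB : x ∈ B) :
    x = 1 := by
  have : x ∈ A ⊓ B := ⟨hA, hB⟩
  rw [h.inf_eq_bot] at this
  exact Subgroup.mem_bot.mp this

theorem KWC.card_mul [Finite G] {A B : Subgroup G} (h : KWC A B) :
    Nat.card A * Nat.card B = Nat.card G := by
  have e := Cfsg.Agent.Helper50.card_mul_card_eq_card_mulSet A B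
  rw [h.inf_eq_bot, Subgroup.card_bot, mul_one] at e
  rw [e]
  have : ((A : Set G) * (B : Set G)) = Set.univ := by
    ext g
    simp only [Set.mem_univ, iff_true]
    obtain ⟨a, ha, b, hb, e⟩ := h.fac g
    exact e ▸ Set.mul_mem_mul ha hb
  rw [this, Nat.card_univ]

theorem KWC.index_eq [Finite G] {A B : Subgroup G} (h : KWC A B) : A.index = Nat.card B := by
  have h1 := Subgroup.card_mul_index A
  have h2 := h.card_mul
  have : Nat.card A * A.index = Nat.card A * Nat.card B := by rw [h1, h2]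
  exact Nat.eq_of_mul_eq_mul_left Nat.card_pos this

theorem KWC.hall [Finite G] {A B : Subgroup G} (h : KWC A B) : (Nat.card A).Coprime A.index := by
  rw [h.index_eq]; exact h.cop

theorem kw_conj_mul_right (x : G) {a : G} {A : Subgroup G} (ha : a ∈ A) :
    MulAut.conj (x * a) • A = MulAut.conj x • A := by
  rw [← Cfsg.Agent.Helper10.conj_smul_smul,
    Cfsg.Agent.Helper10.conj_smul_eq_of_mem_normalizer (Subgroup.le_normalizer ha)]

theorem kw_fac_conj {A B : Subgroup G} (h : ∀ g : G, ∃ a ∈ A, ∃ b ∈ B, g = a * b) (x y : G) :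
    ∀ g : G, ∃ a ∈ MulAut.conj x • A, ∃ b ∈ MulAut.conj y • B, g = a * b := by
  obtain ⟨a₀, ha₀, b₀, hb₀, e⟩ := h (x⁻¹ * y)
  have hy : y = x * a₀ * b₀ := by rw [mul_assoc, ← e]; group
  have e1 : MulAut.conj y • B = MulAut.conj (x * a₀) • B := by rw [hy, kw_conj_mul_right _ hb₀]
  have e2 : MulAut.conj x • A = MulAut.conj (x * a₀) • A := (kw_conj_mul_right _ ha₀).symm
  rw [e1, e2]
  intro g
  obtain ⟨a, ha, b, hb, e'⟩ := h ((x * a₀)⁻¹ * g * (x * a₀))
  refine ⟨(x * a₀) * a * (x * a₀)⁻¹, Cfsg.Agent.Helper10.conj_mem_conj_smul _ _ _ ha,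
    (x * a₀) * b * (x * a₀)⁻¹, Cfsg.Agent.Helper10.conj_mem_conj_smul _ _ _ hb, ?_⟩
  have : (x * a₀) * a * (x * a₀)⁻¹ * ((x * a₀) * b * (x * a₀)⁻¹)
      = (x * a₀) * (a * b) * (x * a₀)⁻¹ := by group
  rw [this, ← e']; group

theorem kw_nilpotent_conj {A : Subgroup G} (hA : Group.IsNilpotent A) (x : G) :
    Group.IsNilpotent (MulAut.conj x • A : Subgroup G) :=
  Group.nilpotent_of_mulEquiv (Subgroup.equivSMul (MulAut.conj x) A)

theorem KWC.conj {A B : Subgroup G} (h : KWC A B) (x y : G) :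
    KWC (MulAut.conj x • A) (MulAut.conj y • B) := by
  refine ⟨kw_nilpotent_conj h.nilA x, kw_nilpotent_conj h.nilB y, ?_, kw_fac_conj h.fac x y⟩
  rw [Cfsg.Agent.Helper10.card_conj_smul, Cfsg.Agent.Helper10.card_conj_smul]
  exact h.cop

theorem kw_nilpotent_of_le {A K : Subgroup G} (hA : Group.IsNilpotent A) (h : K ≤ A) :
    Group.IsNilpotent K :=
  Group.nilpotent_of_mulEquiv (Subgroup.subgroupOfEquivOfLe h)

theorem kw_nilpotent_subgroupOf {A : Subgroup G} (hA : Group.IsNilpotent A) (X : Subgroup G) :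
    Group.IsNilpotent (A.subgroupOf X) := by
  rw [← Subgroup.inf_subgroupOf_right]
  haveI := kw_nilpotent_of_le hA (inf_le_left : A ⊓ X ≤ A)
  exact Group.nilpotent_of_mulEquiv (Subgroup.subgroupOfEquivOfLe (inf_le_right : A ⊓ X ≤ X)).symm

theorem kw_card_subgroupOf (A X : Subgroup G) :
    Nat.card (A.subgroupOf X) = Nat.card (A ⊓ X : Subgroup G) := by
  rw [← Subgroup.inf_subgroupOf_right]
  exact Nat.card_congr (Subgroup.subgroupOfEquivOfLe (inf_le_right : A ⊓ X ≤ X)).toEquiv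

theorem kw_card_subgroupOf_le {A X : Subgroup G} (h : A ≤ X) :
    Nat.card (A.subgroupOf X) = Nat.card A :=
  Nat.card_congr (Subgroup.subgroupOfEquivOfLe h).toEquiv

theorem KWC.sub {A B : Subgroup G} (h : KWC A B) {X : Subgroup G} (hX : KWFac A B X) :
    KWC (A.subgroupOf X) (B.subgroupOf X) := by
  refine ⟨kw_nilpotent_subgroupOf h.nilA X, kw_nilpotent_subgroupOf h.nilB X, ?_, ?_⟩
  · rw [kw_card_subgroupOf, kw_card_subgroupOf]
    exact Nat.Coprime.coprime_dvd_left (Subgroup.card_dvd_of_le inf_le_left)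
      (Nat.Coprime.coprime_dvd_right (Subgroup.card_dvd_of_le inf_le_left) h.cop)
  · rintro ⟨g, hg⟩
    obtain ⟨a, ha, haX, b, hb, hbX, e⟩ := hX g hg
    exact ⟨⟨a, haX⟩, Subgroup.mem_subgroupOf.mpr ha, ⟨b, hbX⟩, Subgroup.mem_subgroupOf.mpr hb,
      Subtype.ext e⟩

theorem KWC.relIndex_fac [Finite G] {A B : Subgroup G} (h : KWC A B) {X : Subgroup G}
    (hX : KWFac A B X) : A.relIndex X = Nat.card (B ⊓ X : Subgroup G) := by
  have := (h.sub hX).index_eq
  rw [kw_card_subgroupOf] at this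
  exact this

theorem kw_conj_mem {A₀ : Subgroup G} {x : G} (h : MulAut.conj x • A₀ = A₀) {a : G}
    (ha : a ∈ A₀) : x * a * x⁻¹ ∈ A₀ := by
  have := Cfsg.Agent.Helper10.conj_mem_conj_smul x a A₀ ha
  rwa [h] at this

theorem kw_normal_subgroupOf {A₀ A : Subgroup G} (hle : A₀ ≤ A)
    (hn : ∀ x ∈ A, MulAut.conj x • A₀ = A₀) : (A₀.subgroupOf A).Normal :=
  (Subgroup.normal_subgroupOf_iff hle).mpr (fun _ k hh hk => kw_conj_mem (hn k hk) hh)

theorem kw_conj_mul_set {S A₀ B₀ : Subgroup G}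
    (hS : (S : Set G) = (A₀ : Set G) * (B₀ : Set G)) (g : G) :
    ((MulAut.conj g • S : Subgroup G) : Set G)
      = ((MulAut.conj g • A₀ : Subgroup G) : Set G) * ((MulAut.conj g • B₀ : Subgroup G) : Set G) := by
  ext y
  constructor
  · intro hy
    have hy' : g⁻¹ * y * g ∈ S := (Cfsg.Agent.Helper10.mem_conj_smul_iff g y S).mp hy
    have hy2 : g⁻¹ * y * g ∈ (S : Set G) := hy'
    rw [hS] at hy2
    obtain ⟨a, ha, b, hb, e⟩ := Set.mem_mul.mp hy2
    have e2 : y = (g * a * g⁻¹) * (g * b * g⁻¹) := by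
      have : g * a * g⁻¹ * (g * b * g⁻¹) = g * (a * b) * g⁻¹ := by group
      rw [this, e]; group
    rw [e2]
    exact Set.mul_mem_mul (Cfsg.Agent.Helper10.conj_mem_conj_smul g a A₀ ha)
      (Cfsg.Agent.Helper10.conj_mem_conj_smul g b B₀ hb)
  · rintro ⟨a, ha, b, hb, rfl⟩
    have ha' := (Cfsg.Agent.Helper10.mem_conj_smul_iff g a A₀).mp ha
    have hb' := (Cfsg.Agent.Helper10.mem_conj_smul_iff g b B₀).mp hb
    show a * b ∈ MulAut.conj g • S
    rw [Cfsg.Agent.Helper10.mem_conj_smul_iff]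
    have e : g⁻¹ * (a * b) * g = (g⁻¹ * a * g) * (g⁻¹ * b * g) := by group
    rw [e]
    have h2 : (g⁻¹ * a * g) * (g⁻¹ * b * g) ∈ (S : Set G) := by
      rw [hS]; exact Set.mul_mem_mul ha' hb'
    exact h2

end basic

/-- The standing hypotheses on a minimal counterexample: `G` is simple, nonabelian, and every
proper factorized subgroup is solvable. -/
structure KWS (G : Type u) [Group G] : Prop where
  simple : IsSimpleGroup G
  nonab : ¬ ∀ a b : G, a * b = b * a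
  sub : ∀ (A B : Subgroup G), KWC A B → ∀ X : Subgroup G, X ≠ ⊤ → KWFac A B X →
    Group.IsSolvable X

/-- A factorization in which neither factor has prime power order. -/
structure KWD {G : Type u} [Group G] (A B : Subgroup G) : Prop where
  c : KWC A B
  twoA : ∀ p : ℕ, ∃ r : ℕ, r.Prime ∧ r ≠ p ∧ r ∣ Nat.card A
  twoB : ∀ p : ℕ, ∃ r : ℕ, r.Prime ∧ r ≠ p ∧ r ∣ Nat.card B

section conf

variable {G : Type u} [Group G]

theorem KWD.symm {A B : Subgroup G} (h : KWD A B) : KWD B A := ⟨h.c.symm, h.twoB, h.twoA⟩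

theorem KWD.conj {A B : Subgroup G} (h : KWD A B) (x y : G) :
    KWD (MulAut.conj x • A) (MulAut.conj y • B) := by
  refine ⟨h.c.conj x y, ?_, ?_⟩
  · rw [Cfsg.Agent.Helper10.card_conj_smul]; exact h.twoA
  · rw [Cfsg.Agent.Helper10.card_conj_smul]; exact h.twoB

theorem KWS.center (hS : KWS G) {z : G} (hz : ∀ g : G, g * z = z * g) : z = 1 := by
  haveI := hS.simple
  have hzc : z ∈ Subgroup.center G := Subgroup.mem_center_iff.mpr hz
  rcases (inferInstance : (Subgroup.center G).Normal).eq_bot_or_eq_top with h0 | h1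
  · rw [h0] at hzc; exact Subgroup.mem_bot.mp hzc
  · exfalso
    apply hS.nonab
    intro a b
    have hb : b ∈ Subgroup.center G := by rw [h1]; exact Subgroup.mem_top b
    exact Subgroup.mem_center_iff.mp hb a

theorem KWS.centralizer_ne_top (hS : KWS G) {y : G} (hy : y ≠ 1) :
    Subgroup.centralizer ({y} : Set G) ≠ ⊤ := by
  intro h
  apply hy
  apply hS.center
  intro g
  have hg : g ∈ Subgroup.centralizer ({y} : Set G) := by rw [h]; exact Subgroup.mem_top g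
  exact (Subgroup.mem_centralizer_singleton_iff.mp hg)

theorem KWS.normalizer_ne_top (hS : KWS G) {J : Subgroup G} (h0 : J ≠ ⊥) (h1 : J ≠ ⊤) :
    Subgroup.normalizer (J : Set G) ≠ ⊤ := by
  intro hL
  haveI := hS.simple
  have hn : J.Normal := Subgroup.normalizer_eq_top_iff.mp hL
  rcases hn.eq_bot_or_eq_top with h | h
  · exact h0 h
  · exact h1 h

end conf

section perm

variable {G : Type u} [Group G] [Finite G]

/-- Inside a proper factorized subgroup `X`, Hall subgroups of `X` which are normal in `A ∩ X`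
resp. `B ∩ X` permute. -/
theorem kws_perm (hS : KWS G) {A B : Subgroup G} (h : KWC A B)
    {X : Subgroup G} (hX : X ≠ ⊤) (hfac : KWFac A B X) {A₀ B₀ : Subgroup G}
    (hA₀ : A₀ ≤ A) (hA₀X : A₀ ≤ X) (hA₀n : ∀ x ∈ A, x ∈ X → ∀ a ∈ A₀, x * a * x⁻¹ ∈ A₀)
    (hA₀h : (Nat.card A₀).Coprime (A₀.relIndex X))
    (hB₀ : B₀ ≤ B) (hB₀X : B₀ ≤ X) (hB₀n : ∀ x ∈ B, x ∈ X → ∀ b ∈ B₀, x * b * x⁻¹ ∈ B₀)
    (hB₀h : (Nat.card B₀).Coprime (B₀.relIndex X)) :
    ∃ S : Subgroup G, (S : Set G) = (A₀ : Set G) * (B₀ : Set G) ∧ S ≤ X ∧ Group.IsSolvable S := by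
  haveI : Group.IsSolvable X := hS.sub A B h X hX hfac
  have hleA : A₀.subgroupOf X ≤ A.subgroupOf X := fun x hx =>
    Subgroup.mem_subgroupOf.mpr (hA₀ (Subgroup.mem_subgroupOf.mp hx))
  have hleB : B₀.subgroupOf X ≤ B.subgroupOf X := fun x hx =>
    Subgroup.mem_subgroupOf.mpr (hB₀ (Subgroup.mem_subgroupOf.mp hx))
  have hnA : ((A₀.subgroupOf X).subgroupOf (A.subgroupOf X)).Normal := by
    refine (Subgroup.normal_subgroupOf_iff hleA).mpr (fun a k ha hk => ?_)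
    exact Subgroup.mem_subgroupOf.mpr
      (hA₀n k.1 (Subgroup.mem_subgroupOf.mp hk) k.2 a.1 (Subgroup.mem_subgroupOf.mp ha))
  have hnB : ((B₀.subgroupOf X).subgroupOf (B.subgroupOf X)).Normal := by
    refine (Subgroup.normal_subgroupOf_iff hleB).mpr (fun a k ha hk => ?_)
    exact Subgroup.mem_subgroupOf.mpr
      (hB₀n k.1 (Subgroup.mem_subgroupOf.mp hk) k.2 a.1 (Subgroup.mem_subgroupOf.mp ha))
  have hhA : (Nat.card (A₀.subgroupOf X)).Coprime (A₀.subgroupOf X).index := by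
    rw [kw_card_subgroupOf_le hA₀X]; exact hA₀h
  have hhB : (Nat.card (B₀.subgroupOf X)).Coprime (B₀.subgroupOf X).index := by
    rw [kw_card_subgroupOf_le hB₀X]; exact hB₀h
  obtain ⟨S', hS'⟩ := Cfsg.Agent.S0561.result (G := X) (A.subgroupOf X) (B.subgroupOf X)
    (A₀.subgroupOf X) (B₀.subgroupOf X) (h.sub hfac).fac hleA hnA hleB hnB hhA hhB 1 1
  rw [map_one, one_smul, one_smul] at hS'
  refine ⟨S'.map X.subtype, ?_, Subgroup.map_subtype_le S', ?_⟩
  · ext g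
    constructor
    · rintro ⟨s, hs, rfl⟩
      have hs2 : s ∈ (S' : Set X) := hs
      rw [hS'] at hs2
      obtain ⟨a, ha, b, hb, rfl⟩ := Set.mem_mul.mp hs2
      exact Set.mul_mem_mul (Subgroup.mem_subgroupOf.mp ha) (Subgroup.mem_subgroupOf.mp hb)
    · rintro ⟨a, ha, b, hb, rfl⟩
      refine ⟨⟨a, hA₀X ha⟩ * ⟨b, hB₀X hb⟩, ?_, rfl⟩
      show _ ∈ (S' : Set X)
      rw [hS']
      exact Set.mul_mem_mul (Subgroup.mem_subgroupOf.mpr ha) (Subgroup.mem_subgroupOf.mpr hb)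
  · exact Group.isSolvable_of_isSolvable_injective
      (Subgroup.inclusion_injective (Subgroup.map_subtype_le S'))

/-- Kegel's lemma in a simple group: nontrivial normal subgroups of `A` and `B` never have a
proper subgroup as product. -/
theorem kws_kegel (hS : KWS G) {A B : Subgroup G} (h : KWC A B) {A₀ B₀ S : Subgroup G}
    (hA₀n : ∀ x ∈ A, MulAut.conj x • A₀ = A₀) (hB₀n : ∀ x ∈ B, MulAut.conj x • B₀ = B₀)
    (hA₀ : A₀ ≠ ⊥) (hB₀ : B₀ ≠ ⊥) (hST : S ≠ ⊤)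
    (hSe : (S : Set G) = (A₀ : Set G) * (B₀ : Set G)) : False := by
  haveI := hS.simple
  obtain ⟨N, hN, hNT, hle⟩ := Cfsg.Agent.S0566.result A₀ B₀ hA₀ hB₀ (by
    intro x
    obtain ⟨a, ha, b, hb, e⟩ := h.fac x
    refine ⟨MulAut.conj a • S, ?_, ?_⟩
    · intro hT
      apply hST
      apply Subgroup.eq_top_of_card_eq
      rw [← Cfsg.Agent.Helper10.card_conj_smul a S, hT, Subgroup.card_top]
    · rw [kw_conj_mul_set hSe a, hA₀n a ha, e, ← Cfsg.Agent.Helper10.conj_smul_smul, hB₀n b hb])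
  rcases hN.eq_bot_or_eq_top with h0 | h1
  · rcases hle with h | h
    · exact hA₀ (le_bot_iff.mp (h0 ▸ h))
    · exact hB₀ (le_bot_iff.mp (h0 ▸ h))
  · exact hNT h1

/-- Nontrivial normal Hall subgroups of `A` and `B` generate `G`. -/
theorem kws_hall_sup (hS : KWS G) {A B : Subgroup G} (h : KWC A B) {A₀ B₀ : Subgroup G}
    (hA₀ : A₀ ≤ A) (hA₀n : ∀ x ∈ A, MulAut.conj x • A₀ = A₀)
    (hA₀h : (Nat.card A₀).Coprime A₀.index)
    (hB₀ : B₀ ≤ B) (hB₀n : ∀ x ∈ B, MulAut.conj x • B₀ = B₀)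
    (hB₀h : (Nat.card B₀).Coprime B₀.index)
    (hA₀0 : A₀ ≠ ⊥) (hB₀0 : B₀ ≠ ⊥) : A₀ ⊔ B₀ = ⊤ := by
  by_contra hJ
  have hJ0 : A₀ ⊔ B₀ ≠ ⊥ := fun h0 => hA₀0 (le_bot_iff.mp (h0 ▸ le_sup_left))
  have hL : Subgroup.normalizer ((A₀ ⊔ B₀ : Subgroup G) : Set G) ≠ ⊤ :=
    hS.normalizer_ne_top hJ0 hJ
  have hAn : (A₀.subgroupOf A).Normal := kw_normal_subgroupOf hA₀ hA₀n
  have hBn : (B₀.subgroupOf B).Normal := kw_normal_subgroupOf hB₀ hB₀n
  have hfac : KWFac A B (Subgroup.normalizer ((A₀ ⊔ B₀ : Subgroup G) : Set G)) := by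
    intro g hg
    obtain ⟨a, ha, b, hb, e⟩ := Cfsg.Agent.S0562.result A B A₀ B₀ h.fac hA₀ hAn hB₀ hBn g hg
    exact ⟨a, ha.2, ha.1, b, hb.2, hb.1, e⟩
  have hle : A₀ ⊔ B₀ ≤ Subgroup.normalizer ((A₀ ⊔ B₀ : Subgroup G) : Set G) :=
    Subgroup.le_normalizer
  obtain ⟨S, hSe, hSX, -⟩ := kws_perm hS h hL hfac hA₀ (le_sup_left.trans hle)
    (fun x hx _ a ha => kw_conj_mem (hA₀n x hx) ha)
    (Nat.Coprime.coprime_dvd_right (Subgroup.relIndex_dvd_index_of_le (le_sup_left.trans hle)) hA₀h)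
    hB₀ (le_sup_right.trans hle)
    (fun x hx _ a ha => kw_conj_mem (hB₀n x hx) ha)
    (Nat.Coprime.coprime_dvd_right (Subgroup.relIndex_dvd_index_of_le (le_sup_right.trans hle)) hB₀h)
  exact kws_kegel hS h hA₀n hB₀n hA₀0 hB₀0 (fun hT => hL (top_le_iff.mp (hT ▸ hSX))) hSe

/-- Nontrivial Sylow subgroups of `A` and `B` generate `G`. -/
theorem kws_syl_sup (hS : KWS G) {A B : Subgroup G} (h : KWC A B) {p q : ℕ} [Fact p.Prime]
    [Fact q.Prime] (hp : kwSyl p A ≠ ⊥) (hq : kwSyl q B ≠ ⊥) : kwSyl p A ⊔ kwSyl q B = ⊤ :=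
  kws_hall_sup hS h (kwSyl_le p A) (fun _ hx => kwSyl_normal h.nilA hx) (kwSyl_hall A h.hall)
    (kwSyl_le q B) (fun _ hx => kwSyl_normal h.nilB hx) (kwSyl_hall B h.symm.hall) hp hq

end perm

end Cfsg.Agent.Helper2
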