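import Cfsg.Agent.Helper2.KWConf1

/-!
Helper library of seat helper2: the Kegel–Wielandt theorem, coprime case.
Part 2: centralizers of central elements of `A` lie in `A`; strong closure.
Everything lives in `Cfsg.Agent.Helper2`, prefix `kw`.
-/

set_option autoImplicit false
open Pointwise

namespace Cfsg.Agent.Helper2

universe u

section tools

variable {G : Type u} [Group G]

theorem kw_exists_prime_order [Finite G] {x : G} (hx : x ≠ 1) :
    ∃ (q m : ℕ), q.Prime ∧ orderOf (x ^ m) = q := by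
  have h1 : orderOf x ≠ 1 := fun h => hx (orderOf_eq_one_iff.mp h)
  exact ⟨(orderOf x).minFac, orderOf x / (orderOf x).minFac, Nat.minFac_prime h1,
    orderOf_pow_orderOf_div (orderOf_pos x).ne' (Nat.minFac_dvd _)⟩

theorem kw_ne_one_of_orderOf {x : G} {q : ℕ} (hq : q.Prime) (h : orderOf x = q) : x ≠ 1 := by
  intro h1
  rw [h1, orderOf_one] at h
  exact hq.one_lt.ne h

theorem kw_orderOf_dvd_card {a : G} {A : Subgroup G} (ha : a ∈ A) : orderOf a ∣ Nat.card A := by
  have := orderOf_dvd_natCard (⟨a, ha⟩ : A)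
  rwa [Subgroup.orderOf_mk] at this

theorem kw_le_of_mul_left {R T U : Subgroup G} (hR : (R : Set G) = (T : Set G) * (U : Set G)) :
    T ≤ R := by
  intro t ht
  have : t ∈ (R : Set G) := by
    rw [hR]; exact ⟨t, ht, 1, U.one_mem, mul_one t⟩
  exact this

theorem kw_le_of_mul_right {R T U : Subgroup G} (hR : (R : Set G) = (T : Set G) * (U : Set G)) :
    U ≤ R := by
  intro t ht
  have : t ∈ (R : Set G) := by
    rw [hR]; exact ⟨1, T.one_mem, t, ht, one_mul t⟩
  exact this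

theorem kw_card_of_mul {R T U : Subgroup G} (hR : (R : Set G) = (T : Set G) * (U : Set G))
    (hTU : T ⊓ U = ⊥) : Nat.card R = Nat.card T * Nat.card U := by
  have e := Cfsg.Agent.Helper50.card_mul_card_eq_card_mulSet T U
  rw [hTU, Subgroup.card_bot, mul_one] at e
  rw [e]
  exact Nat.card_congr (Equiv.setCongr hR)

theorem kw_relIndex_of_mul_left [Finite G] {R T U : Subgroup G}
    (hR : (R : Set G) = (T : Set G) * (U : Set G)) (hTU : T ⊓ U = ⊥) :
    T.relIndex R = Nat.card U := by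
  have h1 := Subgroup.card_mul_index (T.subgroupOf R)
  rw [kw_card_subgroupOf_le (kw_le_of_mul_left hR), kw_card_of_mul hR hTU] at h1
  exact Nat.eq_of_mul_eq_mul_left Nat.card_pos h1

theorem kw_relIndex_of_mul_right [Finite G] {R T U : Subgroup G}
    (hR : (R : Set G) = (T : Set G) * (U : Set G)) (hTU : T ⊓ U = ⊥) :
    U.relIndex R = Nat.card T := by
  have h1 := Subgroup.card_mul_index (U.subgroupOf R)
  rw [kw_card_subgroupOf_le (kw_le_of_mul_right hR), kw_card_of_mul hR hTU, mul_comm] at h1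
  exact Nat.eq_of_mul_eq_mul_right Nat.card_pos h1

theorem kw_exists_normal_pgroup [Finite G] {R : Subgroup G} (hsol : Group.IsSolvable R)
    (hne : R ≠ ⊥) :
    ∃ (ℓ : ℕ) (_ : Fact ℓ.Prime) (N : Subgroup G), N ≤ R ∧ N ≠ ⊥ ∧ IsPGroup ℓ N ∧
      R ≤ Subgroup.normalizer (N : Set G) := by
  haveI : Nontrivial R := (Subgroup.nontrivial_iff_ne_bot R).mpr hne
  obtain ⟨ℓ, hℓ, N', hN'n, hN'0, hN'p, -⟩ := Cfsg.Agent.Helper10.exists_normal_pgroup (G := R)
  refine ⟨ℓ, hℓ, N'.map R.subtype, Subgroup.map_subtype_le N', ?_, hN'p.map _, ?_⟩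
  · exact fun h => hN'0 ((Subgroup.map_eq_bot_iff_of_injective _ R.subtype_injective).mp h)
  · rw [Subgroup.le_normalizer_iff]
    rintro x hx _ ⟨k, hk, rfl⟩
    exact ⟨⟨x, hx⟩ * k * ⟨x, hx⟩⁻¹, hN'n.conj_mem k hk ⟨x, hx⟩, rfl⟩

theorem kw_prime_dvd_pgroup [Finite G] {ℓ r : ℕ} [hℓ : Fact ℓ.Prime] [Fact r.Prime]
    {T : Subgroup G} (hT : IsPGroup r T) (h : ℓ ∣ Nat.card T) : ℓ = r := by
  obtain ⟨n, hn⟩ := IsPGroup.iff_card.mp hT
  rw [hn] at h
  exact (Nat.prime_dvd_prime_iff_eq hℓ.out Fact.out).mp (Nat.Prime.dvd_of_dvd_pow hℓ.out h)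

theorem kw_normal_le_sylow [Finite G] {r : ℕ} [Fact r.Prime] {R N T : Subgroup G}
    (hN : IsPGroup r N) (hT : IsPGroup r T) (hTR : T ≤ R) (hNR : N ≤ R)
    (hnorm : R ≤ Subgroup.normalizer (N : Set G)) (hcard : ¬ r ∣ T.relIndex R) : N ≤ T := by
  have hsup : IsPGroup r (T ⊔ N : Subgroup G) :=
    IsPGroup.to_sup_of_normal_right' hT hN (hTR.trans hnorm)
  rcases eq_or_lt_of_le (le_sup_left : T ≤ T ⊔ N) with heq | hlt
  · rw [heq]; exact le_sup_right
  · exact absurd (Cfsg.Agent.Helper53.dvd_relIndex_of_lt_isPGroup hsup hlt (sup_le hTR hNR)) hcard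

theorem kw_le_normalizer_of_commute {K N : Subgroup G}
    (h : ∀ k ∈ K, ∀ n ∈ N, k * n = n * k) : K ≤ Subgroup.normalizer (N : Set G) := by
  rw [Subgroup.le_normalizer_iff]
  intro k hk n hn
  rw [h k hk n hn, mul_inv_cancel_right]
  exact hn

theorem kw_conj_eq_of_commute {x : G} {K : Subgroup G} (h : ∀ c ∈ K, c * x = x * c) :
    MulAut.conj x • K = K := by
  ext y
  rw [Cfsg.Agent.Helper10.mem_conj_smul_iff]
  constructor
  · intro hy
    have h1 := h _ hy
    have h2 : x⁻¹ * y * x = y := by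
      have : x⁻¹ * y * x * x = y * x := by rw [h1]; group
      exact mul_right_cancel this
    rwa [h2] at hy
  · intro hy
    have h1 := h _ hy
    have h2 : x⁻¹ * y * x = y := by rw [mul_assoc, h1]; group
    rwa [h2]

theorem kw_le_kwSyl [Finite G] {p : ℕ} [Fact p.Prime] {N A : Subgroup G}
    (hA : Group.IsNilpotent A) (hNA : N ≤ A) (hN : IsPGroup p N) : N ≤ kwSyl p A := by
  intro x hx
  rw [mem_kwSyl_iff hA]
  refine ⟨hNA hx, ?_⟩
  obtain ⟨k, hk⟩ := hN ⟨x, hx⟩
  exact ⟨k, by simpa using congrArg Subtype.val hk⟩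

theorem kw_mem_kwSyl_of_orderOf [Finite G] {r : ℕ} [Fact r.Prime] {a : G} {A : Subgroup G}
    (hA : Group.IsNilpotent A) (ha : a ∈ A) (ho : orderOf a = r) : a ∈ kwSyl r A := by
  rw [mem_kwSyl_iff hA]
  exact ⟨ha, 1, by rw [pow_one, ← ho]; exact pow_orderOf_eq_one a⟩

theorem kwSyl_relIndex_coprime [Finite G] {p : ℕ} [Fact p.Prime] (A : Subgroup G) :
    (Nat.card (kwSyl p A)).Coprime ((kwSyl p A).relIndex A) := by
  have h1 : (kwSyl p A).index = ((default : Sylow p A) : Subgroup A).index * A.index :=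
    Subgroup.index_map_subtype _
  have h2 : Nat.card (kwSyl p A) = Nat.card ((default : Sylow p A) : Subgroup A) :=
    Subgroup.card_map_of_injective A.subtype_injective
  have h3 := Subgroup.relIndex_mul_index (kwSyl_le p A)
  rw [h1] at h3
  have h4 : (kwSyl p A).relIndex A = ((default : Sylow p A) : Subgroup A).index :=
    Nat.eq_of_mul_eq_mul_right (Nat.pos_of_ne_zero A.index_ne_zero_of_finite) h3
  rw [h4, h2]
  exact Sylow.card_coprime_index _

theorem KWC.prime_ne {A B : Subgroup G} (h : KWC A B) {r s : ℕ} (hr : r.Prime)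
    (hrA : r ∣ Nat.card A) (hsB : s ∣ Nat.card B) : r ≠ s := by
  intro e
  subst e
  exact hr.one_lt.ne' (Nat.eq_one_of_dvd_coprimes h.cop hrA hsB)

/-- The Sylow subgroups of `A ∩ X` are Hall subgroups of a factorized `X`. -/
theorem kw_syl_sub_hall [Finite G] {A B : Subgroup G} (h : KWC A B) {X : Subgroup G}
    (hfac : KWFac A B X) (r : ℕ) [Fact r.Prime] :
    (Nat.card (kwSyl r (A ⊓ X))).Coprime ((kwSyl r (A ⊓ X)).relIndex X) := by
  rw [← Subgroup.relIndex_mul_relIndex _ (A ⊓ X) X (kwSyl_le r _) inf_le_right,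
    Subgroup.inf_relIndex_right, h.relIndex_fac hfac]
  apply Nat.Coprime.mul_right (kwSyl_relIndex_coprime _)
  exact Nat.Coprime.coprime_dvd_left
    (Subgroup.card_dvd_of_le ((kwSyl_le r (A ⊓ X)).trans inf_le_left))
    (Nat.Coprime.coprime_dvd_right (Subgroup.card_dvd_of_le inf_le_left) h.cop)

theorem KWD.neA {A B : Subgroup G} (h : KWD A B) : A ≠ ⊥ := by
  intro h0
  obtain ⟨r, hr, -, hd⟩ := h.twoA 0
  rw [h0, Subgroup.card_bot] at hd
  exact hr.one_lt.ne' (Nat.dvd_one.mp hd)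

theorem KWD.neB {A B : Subgroup G} (h : KWD A B) : B ≠ ⊥ := h.symm.neA

/-- A nontrivial subgroup of `A` is not normal in `G`. -/
theorem kws_no_normal_le [Finite G] (hS : KWS G) {A B : Subgroup G} (h : KWC A B) (hB : B ≠ ⊥)
    {N : Subgroup G} (hN0 : N ≠ ⊥) (hNA : N ≤ A)
    (hnorm : Subgroup.normalizer (N : Set G) = ⊤) : False := by
  haveI := hS.simple
  have hn : N.Normal := Subgroup.normalizer_eq_top_iff.mp hnorm
  rcases hn.eq_bot_or_eq_top with h0 | h1
  · exact hN0 h0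
  · apply hB
    have hA : A = ⊤ := top_le_iff.mp (h1 ▸ hNA)
    have hc := h.card_mul
    rw [hA, Subgroup.card_top] at hc
    have : Nat.card B = 1 := by
      have h2 : Nat.card G * Nat.card B = Nat.card G * 1 := by rw [hc, mul_one]
      exact Nat.eq_of_mul_eq_mul_left Nat.card_pos h2
    exact Subgroup.card_eq_one.mp this

end tools

section cent

variable {G : Type u} [Group G] [Finite G]

/-- Centralizers of central elements of `A` of prime order lie in `A`. -/
theorem kws_cent_le_prime (hS : KWS G) {A B : Subgroup G} (h : KWD A B) {a : G} {r : ℕ}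
    [Fact r.Prime] (ha : a ∈ A) (hr : orderOf a = r) (hc : ∀ x ∈ A, a * x = x * a) :
    Subgroup.centralizer ({a} : Set G) ≤ A := by
  have ha1 : a ≠ 1 := kw_ne_one_of_orderOf Fact.out hr
  by_contra hnot
  have hex : ∃ y ∈ B, y ≠ 1 ∧ y * a = a * y := by
    by_contra hno
    apply hnot
    intro g hg
    obtain ⟨x, hx, b, hb, e⟩ := h.c.fac g
    have hbc : b * a = a * b := by
      have hg' := Subgroup.mem_centralizer_singleton_iff.mp hg
      have hx' := hc x hx
      have eb : b = x⁻¹ * g := by rw [e]; group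
      rw [eb]
      calc x⁻¹ * g * a = x⁻¹ * (g * a) := by group
        _ = x⁻¹ * (a * g) := by rw [hg']
        _ = x⁻¹ * (a * x) * x⁻¹ * g := by group
        _ = x⁻¹ * (x * a) * x⁻¹ * g := by rw [hx']
        _ = a * (x⁻¹ * g) := by group
    by_cases hb1 : b = 1
    · rw [e, hb1, mul_one]; exact hx
    · exact absurd ⟨b, hb, hb1, hbc⟩ hno
  obtain ⟨y₀, hy₀B, hy₀1, hy₀c⟩ := hex
  obtain ⟨q, m, hq, hqo⟩ := kw_exists_prime_order hy₀1
  haveI : Fact q.Prime := ⟨hq⟩
  have hyB : y₀ ^ m ∈ B := B.pow_mem hy₀B m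
  have hyc : y₀ ^ m * a = a * y₀ ^ m := ((show Commute y₀ a from hy₀c).pow_left m).eq
  have hy1 : y₀ ^ m ≠ 1 := kw_ne_one_of_orderOf hq hqo
  have hyq : y₀ ^ m ∈ kwSyl q B := kw_mem_kwSyl_of_orderOf h.c.nilB hyB hqo
  obtain ⟨s, hs, hsq, hsB⟩ := h.twoB q
  haveI : Fact s.Prime := ⟨hs⟩
  have hrs : r ≠ s := h.c.prime_ne Fact.out (hr ▸ kw_orderOf_dvd_card ha) hsB
  have hBs0 : kwSyl s B ≠ ⊥ := kwSyl_ne_bot B hsB
  have hJle : Subgroup.zpowers a ⊔ kwSyl s B ≤ Subgroup.centralizer ({y₀ ^ m} : Set G) := by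
    apply sup_le
    · rw [Subgroup.zpowers_le]; exact Subgroup.mem_centralizer_singleton_iff.mpr hyc.symm
    · intro x hx
      rw [Subgroup.mem_centralizer_singleton_iff]
      exact kwSyl_commute hsq h.c.nilB hx hyq
  have hCy : Subgroup.centralizer ({y₀ ^ m} : Set G) ≠ ⊤ := hS.centralizer_ne_top hy1
  have hJT : Subgroup.zpowers a ⊔ kwSyl s B ≠ ⊤ := fun hT => hCy (top_le_iff.mp (hT ▸ hJle))
  have hJ0 : Subgroup.zpowers a ⊔ kwSyl s B ≠ ⊥ :=
    fun h0 => hBs0 (le_bot_iff.mp (h0 ▸ le_sup_right))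
  have hL := hS.normalizer_ne_top hJ0 hJT
  have hzA : Subgroup.zpowers a ≤ A := Subgroup.zpowers_le.mpr ha
  have hzn : ∀ x ∈ A, MulAut.conj x • Subgroup.zpowers a = Subgroup.zpowers a := by
    intro x hx
    apply kw_conj_eq_of_commute
    intro c hc'
    have hle : Subgroup.zpowers a ≤ Subgroup.centralizer ({x} : Set G) := by
      rw [Subgroup.zpowers_le]; exact Subgroup.mem_centralizer_singleton_iff.mpr (hc x hx)
    exact Subgroup.mem_centralizer_singleton_iff.mp (hle hc')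
  have hBsn : ∀ x ∈ B, MulAut.conj x • kwSyl s B = kwSyl s B :=
    fun _ hx => kwSyl_normal h.c.nilB hx
  obtain ⟨L, hLdef⟩ : ∃ L : Subgroup G,
      L = Subgroup.normalizer ((Subgroup.zpowers a ⊔ kwSyl s B : Subgroup G) : Set G) := ⟨_, rfl⟩
  rw [← hLdef] at hL
  have hfac : KWFac A B L := by
    intro g hg
    rw [hLdef] at hg
    obtain ⟨a', ha', b', hb', e⟩ := Cfsg.Agent.S0562.result A B (Subgroup.zpowers a) (kwSyl s B)
      h.c.fac hzA (kw_normal_subgroupOf hzA hzn) (kwSyl_le s B)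
      (kw_normal_subgroupOf (kwSyl_le s B) hBsn) g hg
    rw [← hLdef] at ha' hb'
    exact ⟨a', ha'.2, ha'.1, b', hb'.2, hb'.1, e⟩
  have hJL : Subgroup.zpowers a ⊔ kwSyl s B ≤ L := hLdef ▸ Subgroup.le_normalizer
  have haL : a ∈ L := hJL ((le_sup_left : Subgroup.zpowers a ≤ _) (Subgroup.mem_zpowers a))
  have hBsL : kwSyl s B ≤ L := le_sup_right.trans hJL
  have hnilLA : Group.IsNilpotent (A ⊓ L : Subgroup G) := kw_nilpotent_of_le h.c.nilA inf_le_left
  obtain ⟨T, hTdef⟩ : ∃ T : Subgroup G, T = kwSyl r (A ⊓ L) := ⟨_, rfl⟩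
  have hTp : IsPGroup r T := hTdef ▸ kwSyl_isPGroup r _
  have haT : a ∈ T := hTdef ▸ kw_mem_kwSyl_of_orderOf hnilLA ⟨ha, haL⟩ hr
  have hTA : T ≤ A := hTdef ▸ (kwSyl_le r (A ⊓ L)).trans inf_le_left
  have hTL : T ≤ L := hTdef ▸ (kwSyl_le r (A ⊓ L)).trans inf_le_right
  have hTn : ∀ x ∈ A, x ∈ L → ∀ t ∈ T, x * t * x⁻¹ ∈ T := by
    intro x hx hxL t ht
    rw [hTdef] at ht ⊢
    exact kw_conj_mem (kwSyl_normal hnilLA ⟨hx, hxL⟩) ht
  have hTh : (Nat.card T).Coprime (T.relIndex L) := hTdef ▸ kw_syl_sub_hall h.c hfac r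
  have hBsh : (Nat.card (kwSyl s B)).Coprime ((kwSyl s B).relIndex L) :=
    Nat.Coprime.coprime_dvd_right (Subgroup.relIndex_dvd_index_of_le hBsL)
      (kwSyl_hall B h.c.symm.hall)
  obtain ⟨R, hRe, hRL, hRsol⟩ := kws_perm hS h.c hL hfac hTA hTL hTn hTh (kwSyl_le s B) hBsL
    (fun x hx _ b hb => kw_conj_mem (hBsn x hx) hb) hBsh
  have hTR : T ≤ R := kw_le_of_mul_left hRe
  have hBsR : kwSyl s B ≤ R := kw_le_of_mul_right hRe
  have hTBs : T ⊓ kwSyl s B = ⊥ := by
    rw [eq_bot_iff]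
    intro x hx
    exact Subgroup.mem_bot.mpr (h.c.eq_one_of_mem (hTA hx.1) (kwSyl_le s B hx.2))
  have hR0 : R ≠ ⊥ := fun h0 => ha1 (Subgroup.mem_bot.mp (h0 ▸ hTR haT))
  obtain ⟨ℓ, hℓ, N, hNR, hN0, hNp, hNn⟩ := kw_exists_normal_pgroup hRsol hR0
  have hcardR : Nat.card R = Nat.card T * Nat.card (kwSyl s B) := kw_card_of_mul hRe hTBs
  have hℓ2 : ℓ = r ∨ ℓ = s := by
    have h1 : ℓ ∣ Nat.card N := by
      rcases hNp.card_eq_or_dvd with h | h
      · exact absurd (Subgroup.card_eq_one.mp h) hN0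
      · exact h
    have h2 : ℓ ∣ Nat.card T * Nat.card (kwSyl s B) :=
      hcardR ▸ h1.trans (Subgroup.card_dvd_of_le hNR)
    rcases (Nat.Prime.dvd_mul hℓ.out).mp h2 with h3 | h3
    · exact Or.inl (kw_prime_dvd_pgroup hTp h3)
    · exact Or.inr (kw_prime_dvd_pgroup (kwSyl_isPGroup s B) h3)
  rcases hℓ2 with hℓr | hℓs
  · have hNr : IsPGroup r N := hℓr ▸ hNp
    have hrel : T.relIndex R = Nat.card (kwSyl s B) := kw_relIndex_of_mul_left hRe hTBs
    have hnd : ¬ r ∣ T.relIndex R := by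
      rw [hrel]; intro hd
      exact hrs (kw_prime_dvd_pgroup (kwSyl_isPGroup s B) hd)
    have hNT : N ≤ T := kw_normal_le_sylow hNr hTp hTR hNR hNn hnd
    have hNA : N ≤ A := hNT.trans hTA
    have hNAr : N ≤ kwSyl r A := kw_le_kwSyl h.c.nilA hNA hNr
    obtain ⟨p, hp, hpr, hpA⟩ := h.twoA r
    haveI : Fact p.Prime := ⟨hp⟩
    have hsup := kws_syl_sup hS h.c (kwSyl_ne_bot A hpA) hBs0
    have hnorm : Subgroup.normalizer (N : Set G) = ⊤ := by
      rw [eq_top_iff, ← hsup]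
      apply sup_le
      · apply kw_le_normalizer_of_commute
        intro k hk n hn
        exact kwSyl_commute hpr h.c.nilA hk (hNAr hn)
      · exact hBsR.trans hNn
    exact kws_no_normal_le hS h.c h.neB hN0 hNA hnorm
  · have hNs : IsPGroup s N := hℓs ▸ hNp
    have hrel : (kwSyl s B).relIndex R = Nat.card T := kw_relIndex_of_mul_right hRe hTBs
    have hnd : ¬ s ∣ (kwSyl s B).relIndex R := by
      rw [hrel]; intro hd
      exact hrs (kw_prime_dvd_pgroup hTp hd).symm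
    have hNBs : N ≤ kwSyl s B := kw_normal_le_sylow hNs (kwSyl_isPGroup s B) hBsR hNR hNn hnd
    have hBN : B ≤ Subgroup.normalizer (N : Set G) := by
      apply kwSyl_gen h.c.nilB
      intro p' _
      by_cases hp's : p' = s
      · rw [hp's]; exact hBsR.trans hNn
      · apply kw_le_normalizer_of_commute
        intro k hk n hn
        exact kwSyl_commute hp's h.c.nilB hk (hNBs hn)
    have hNn' : ∀ x ∈ B, MulAut.conj x • N = N :=
      fun x hx => Cfsg.Agent.Helper10.conj_smul_eq_of_mem_normalizer (hBN hx)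
    have hzN : Subgroup.zpowers a ≤ Subgroup.normalizer (N : Set G) :=
      (Subgroup.zpowers_le.mpr (hTR haT)).trans hNn
    have hSe := Subgroup.coe_mul_of_left_le_normalizer_right (Subgroup.zpowers a) N hzN
    have hST : Subgroup.zpowers a ⊔ N ≠ ⊤ := by
      intro hT
      apply hL
      rw [eq_top_iff, ← hT]
      exact sup_le (Subgroup.zpowers_le.mpr haL) (hNR.trans hRL)
    have hz0 : Subgroup.zpowers a ≠ ⊥ := fun h0 => ha1 (Subgroup.zpowers_eq_bot.mp h0)
    exact kws_kegel hS h.c hzn hNn' hz0 hN0 hST hSe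

/-- Centralizers of nontrivial central elements of `A` lie in `A`. -/
theorem kws_cent_le (hS : KWS G) {A B : Subgroup G} (h : KWD A B) {a : G} (ha : a ∈ A)
    (ha1 : a ≠ 1) (hc : ∀ x ∈ A, a * x = x * a) : Subgroup.centralizer ({a} : Set G) ≤ A := by
  obtain ⟨r, m, hr, hro⟩ := kw_exists_prime_order ha1
  haveI : Fact r.Prime := ⟨hr⟩
  have h1 := kws_cent_le_prime hS h (A.pow_mem ha m) hro
    (fun x hx => ((show Commute a x from hc x hx).pow_left m).eq)
  refine le_trans ?_ h1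
  intro g hg
  rw [Subgroup.mem_centralizer_singleton_iff] at hg ⊢
  exact ((show Commute g a from hg).pow_right m).eq

end cent

end Cfsg.Agent.Helper2
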