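import Cfsg.Agent.Helper2.KWConf2

/-!
Helper library of seat helper2: the Kegel–Wielandt theorem, coprime case.
Part 3: strong closure of central elements; factorized subgroups containing a Sylow subgroup of
`A`; centralizers of elements normalizing `A`.
Everything lives in `Cfsg.Agent.Helper2`, prefix `kw`.
-/

set_option autoImplicit false
open Pointwise

namespace Cfsg.Agent.Helper2

universe u

section closure

variable {G : Type u} [Group G] [Finite G]

theorem kws_closure_aux (hS : KWS G) {A B : Subgroup G} (h : KWD A B) {a g : G} {r : ℕ}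
    [Fact r.Prime] (ha : a ∈ A) (hr : orderOf a = r) (hc : ∀ x ∈ A, a * x = x * a)
    (hg : g * a * g⁻¹ ∈ A) {p : ℕ} [Fact p.Prime] (hpr : p ≠ r) :
    MulAut.conj g • kwSyl p A = kwSyl p A := by
  have h' : KWD (MulAut.conj g • A) B := by
    have := h.conj g 1
    rwa [map_one, one_smul] at this
  have ha'A' : g * a * g⁻¹ ∈ MulAut.conj g • A := Cfsg.Agent.Helper10.conj_mem_conj_smul g a A ha
  have hc' : ∀ x ∈ MulAut.conj g • A, (g * a * g⁻¹) * x = x * (g * a * g⁻¹) := by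
    intro x hx
    rw [Cfsg.Agent.Helper10.mem_conj_smul_iff] at hx
    have := hc _ hx
    calc g * a * g⁻¹ * x = g * (a * (g⁻¹ * x * g)) * g⁻¹ := by group
      _ = g * ((g⁻¹ * x * g) * a) * g⁻¹ := by rw [this]
      _ = x * (g * a * g⁻¹) := by group
  have ha'1 : g * a * g⁻¹ ≠ 1 := by
    intro h1
    apply kw_ne_one_of_orderOf (Fact.out : r.Prime) hr
    have : a = g⁻¹ * (g * a * g⁻¹) * g := by group
    rw [this, h1]; group
  have hcent := kws_cent_le hS h' ha'A' ha'1 hc'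
  have ha'r : g * a * g⁻¹ ∈ kwSyl r A := by
    rw [mem_kwSyl_iff h.c.nilA]
    refine ⟨hg, 1, ?_⟩
    rw [pow_one, conj_pow, ← hr, pow_orderOf_eq_one]; group
  have hle : kwSyl p A ≤ MulAut.conj g • A := by
    intro x hx
    apply hcent
    rw [Subgroup.mem_centralizer_singleton_iff]
    exact kwSyl_commute hpr h.c.nilA hx ha'r
  have hle2 : kwSyl p A ≤ MulAut.conj g • kwSyl p A := by
    rw [← kwSyl_conj h.c.nilA]
    exact kw_le_kwSyl h'.c.nilA hle (kwSyl_isPGroup p A)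
  exact Cfsg.Agent.Helper10.conj_smul_eq_of_le hle2

theorem kws_closure_prime (hS : KWS G) {A B : Subgroup G} (h : KWD A B) {a g : G} {r : ℕ}
    [Fact r.Prime] (ha : a ∈ A) (hr : orderOf a = r) (hc : ∀ x ∈ A, a * x = x * a)
    (hg : g * a * g⁻¹ ∈ A) : MulAut.conj g • A = A := by
  obtain ⟨p, hp, hpr, hpA⟩ := h.twoA r
  haveI : Fact p.Prime := ⟨hp⟩
  obtain ⟨c, hcp, hco, hcc⟩ := kwSyl_exists_central h.c.nilA (kwSyl_ne_bot A hpA)
  have h1 : MulAut.conj g • kwSyl p A = kwSyl p A := kws_closure_aux hS h ha hr hc hg hpr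
  have hgc : g * c * g⁻¹ ∈ A := kwSyl_le p A (kw_conj_mem h1 hcp)
  have hall : ∀ (p' : ℕ) [Fact p'.Prime], MulAut.conj g • kwSyl p' A = kwSyl p' A := by
    intro p' _
    by_cases hp' : p' = r
    · have hp'p : p' ≠ p := by rw [hp']; exact hpr.symm
      exact kws_closure_aux hS h (kwSyl_le p A hcp) hco hcc hgc hp'p
    · exact kws_closure_aux hS h ha hr hc hg hp'
  apply Cfsg.Agent.Helper10.conj_smul_eq_of_le
  apply kwSyl_gen h.c.nilA
  intro p' _
  rw [← hall p', ← kwSyl_conj h.c.nilA]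
  exact kwSyl_le p' _

/-- Strong closure: if a conjugate of a nontrivial central element of `A` lies in `A`, the
conjugating element normalizes `A`. -/
theorem kws_closure (hS : KWS G) {A B : Subgroup G} (h : KWD A B) {a g : G} (ha : a ∈ A)
    (ha1 : a ≠ 1) (hc : ∀ x ∈ A, a * x = x * a) (hg : g * a * g⁻¹ ∈ A) :
    MulAut.conj g • A = A := by
  obtain ⟨r, m, hr, hro⟩ := kw_exists_prime_order ha1
  haveI : Fact r.Prime := ⟨hr⟩
  refine kws_closure_prime hS h (A.pow_mem ha m) hro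
    (fun x hx => ((show Commute a x from hc x hx).pow_left m).eq) ?_
  rw [← conj_pow]; exact A.pow_mem hg m

/-- A proper factorized subgroup containing a nontrivial Sylow subgroup of `A`: its
`B`-part normalizes `A`. -/
theorem kws_fac_normalizes (hS : KWS G) {A B : Subgroup G} (h : KWD A B) {X : Subgroup G}
    (hX : X ≠ ⊤) (hfac : KWFac A B X) {r : ℕ} [Fact r.Prime] (hr0 : kwSyl r A ≠ ⊥)
    (hrX : kwSyl r A ≤ X) : B ⊓ X ≤ Subgroup.normalizer (A : Set G) := by
  intro b hb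
  apply kw_mem_of_primary_powers _ (orderOf b) b rfl (orderOf_pos b)
  rintro c hc ⟨s, k, hs, hk⟩
  haveI : Fact s.Prime := ⟨hs⟩
  have hcBX : c ∈ B ⊓ X := (Subgroup.zpowers_le.mpr hb) hc
  by_cases hc1 : c = 1
  · rw [hc1]; exact Subgroup.one_mem _
  have hnilBX : Group.IsNilpotent (B ⊓ X : Subgroup G) := kw_nilpotent_of_le h.c.nilB inf_le_left
  obtain ⟨T, hTdef⟩ : ∃ T : Subgroup G, T = kwSyl s (B ⊓ X) := ⟨_, rfl⟩
  have hTp : IsPGroup s T := hTdef ▸ kwSyl_isPGroup s _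
  have hcT : c ∈ T := by rw [hTdef, mem_kwSyl_iff hnilBX]; exact ⟨hcBX, k, hk⟩
  have hTB : T ≤ B := hTdef ▸ (kwSyl_le s (B ⊓ X)).trans inf_le_left
  have hTX : T ≤ X := hTdef ▸ (kwSyl_le s (B ⊓ X)).trans inf_le_right
  have hTn : ∀ x ∈ B, x ∈ X → ∀ t ∈ T, x * t * x⁻¹ ∈ T := by
    intro x hx hxX t ht
    rw [hTdef] at ht ⊢
    exact kw_conj_mem (kwSyl_normal hnilBX ⟨hx, hxX⟩) ht
  have hTh : (Nat.card T).Coprime (T.relIndex X) := hTdef ▸ kw_syl_sub_hall h.c.symm hfac.symm s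
  have hArn : ∀ x ∈ A, MulAut.conj x • kwSyl r A = kwSyl r A :=
    fun _ hx => kwSyl_normal h.c.nilA hx
  have hArh : (Nat.card (kwSyl r A)).Coprime ((kwSyl r A).relIndex X) :=
    Nat.Coprime.coprime_dvd_right (Subgroup.relIndex_dvd_index_of_le hrX) (kwSyl_hall A h.c.hall)
  obtain ⟨R, hRe, hRX, hRsol⟩ := kws_perm hS h.c hX hfac (kwSyl_le r A) hrX
    (fun x hx _ a ha => kw_conj_mem (hArn x hx) ha) hArh hTB hTX hTn hTh
  have hArR : kwSyl r A ≤ R := kw_le_of_mul_left hRe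
  have hTR : T ≤ R := kw_le_of_mul_right hRe
  have hAT : kwSyl r A ⊓ T = ⊥ := by
    rw [eq_bot_iff]
    intro x hx
    exact Subgroup.mem_bot.mpr (h.c.eq_one_of_mem (kwSyl_le r A hx.1) (hTB hx.2))
  have hT0 : T ≠ ⊥ := fun h0 => hc1 (Subgroup.mem_bot.mp (h0 ▸ hcT))
  have hR0 : R ≠ ⊥ := fun h0 => hc1 (Subgroup.mem_bot.mp (h0 ▸ hTR hcT))
  obtain ⟨ℓ, hℓ, N, hNR, hN0, hNp, hNn⟩ := kw_exists_normal_pgroup hRsol hR0
  have hcardR : Nat.card R = Nat.card (kwSyl r A) * Nat.card T := kw_card_of_mul hRe hAT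
  have hsB : s ∣ Nat.card B := by
    have h1 : s ∣ Nat.card T := by
      rcases hTp.card_eq_or_dvd with h | h
      · exact absurd (Subgroup.card_eq_one.mp h) hT0
      · exact h
    exact h1.trans (Subgroup.card_dvd_of_le hTB)
  have hrA : r ∣ Nat.card A := kwSyl_dvd_of_ne_bot A hr0
  have hrs : r ≠ s := h.c.prime_ne Fact.out hrA hsB
  have hℓ2 : ℓ = r ∨ ℓ = s := by
    have h1 : ℓ ∣ Nat.card N := by
      rcases hNp.card_eq_or_dvd with h | h
      · exact absurd (Subgroup.card_eq_one.mp h) hN0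
      · exact h
    have h2 : ℓ ∣ Nat.card (kwSyl r A) * Nat.card T :=
      hcardR ▸ h1.trans (Subgroup.card_dvd_of_le hNR)
    rcases (Nat.Prime.dvd_mul hℓ.out).mp h2 with h3 | h3
    · exact Or.inl (kw_prime_dvd_pgroup (kwSyl_isPGroup r A) h3)
    · exact Or.inr (kw_prime_dvd_pgroup hTp h3)
  rcases hℓ2 with hℓr | hℓs
  · have hNr : IsPGroup r N := hℓr ▸ hNp
    have hrel : (kwSyl r A).relIndex R = Nat.card T := kw_relIndex_of_mul_left hRe hAT
    have hnd : ¬ r ∣ (kwSyl r A).relIndex R := by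
      rw [hrel]; intro hd
      exact hrs (kw_prime_dvd_pgroup hTp hd)
    have hNAr : N ≤ kwSyl r A := kw_normal_le_sylow hNr (kwSyl_isPGroup r A) hArR hNR hNn hnd
    obtain ⟨z, hzN, hz1, hzc⟩ := Cfsg.Agent.Helper53.exists_central_of_normalized
      (kwSyl_isPGroup r A) hNAr (hArR.trans hNn) hN0
    have hzA : ∀ x ∈ A, z * x = x * z :=
      kwSyl_center h.c.nilA (hNAr hzN) (fun x hx => (hzc x hx).symm)
    have hczN : c * z * c⁻¹ ∈ N := (Subgroup.le_normalizer_iff.mp hNn) c (hTR hcT) z hzN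
    have := kws_closure hS h (kwSyl_le r A (hNAr hzN)) hz1 hzA (kwSyl_le r A (hNAr hczN))
    exact Cfsg.Agent.Helper10.mem_normalizer_of_conj_smul_eq this
  · exfalso
    have hNs : IsPGroup s N := hℓs ▸ hNp
    have hrel : T.relIndex R = Nat.card (kwSyl r A) := kw_relIndex_of_mul_right hRe hAT
    have hnd : ¬ s ∣ T.relIndex R := by
      rw [hrel]; intro hd
      exact hrs (kw_prime_dvd_pgroup (kwSyl_isPGroup r A) hd).symm
    have hNT : N ≤ T := kw_normal_le_sylow hNs hTp hTR hNR hNn hnd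
    have hNB : N ≤ B := hNT.trans hTB
    have hNBs : N ≤ kwSyl s B := kw_le_kwSyl h.c.nilB hNB hNs
    obtain ⟨s₂, hs₂, hs₂s, hs₂B⟩ := h.twoB s
    haveI : Fact s₂.Prime := ⟨hs₂⟩
    have hsup := kws_syl_sup hS h.c hr0 (kwSyl_ne_bot B hs₂B)
    have hnorm : Subgroup.normalizer (N : Set G) = ⊤ := by
      rw [eq_top_iff, ← hsup]
      apply sup_le
      · exact hArR.trans hNn
      · apply kw_le_normalizer_of_commute
        intro k hk n hn
        exact kwSyl_commute hs₂s h.c.nilB hk (hNBs hn)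
    exact kws_no_normal_le hS h.c.symm h.neA hN0 hNB hnorm

omit [Finite G] in
/-- The centralizer of an element of `B` normalizing `A` is factorized. -/
theorem kw_cent_fac {A B : Subgroup G} (h : KWC A B) {y : G} (hyB : y ∈ B)
    (hyA : MulAut.conj y • A = A) : KWFac A B (Subgroup.centralizer ({y} : Set G)) := by
  intro g hg
  obtain ⟨a, ha, b, hb, e⟩ := h.fac g
  have hg' := Subgroup.mem_centralizer_singleton_iff.mp hg
  have ha' : y * a * y⁻¹ ∈ A := kw_conj_mem hyA ha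
  have hb' : y * b * y⁻¹ ∈ B := B.mul_mem (B.mul_mem hyB hb) (B.inv_mem hyB)
  have e2 : (y * a * y⁻¹) * (y * b * y⁻¹) = a * b := by
    have : (y * a * y⁻¹) * (y * b * y⁻¹) = y * (a * b) * y⁻¹ := by group
    rw [this, ← e, ← hg']; group
  have e3 : a⁻¹ * (y * a * y⁻¹) = b * (y * b * y⁻¹)⁻¹ := by
    have : a⁻¹ * (y * a * y⁻¹)
        = a⁻¹ * ((y * a * y⁻¹) * (y * b * y⁻¹)) * (y * b * y⁻¹)⁻¹ := by group
    rw [this, e2]; group
  have hB' : a⁻¹ * (y * a * y⁻¹) ∈ B := by rw [e3]; exact B.mul_mem hb (B.inv_mem hb')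
  have h1 : a⁻¹ * (y * a * y⁻¹) = 1 := h.eq_one_of_mem (A.mul_mem (A.inv_mem ha) ha') hB'
  have hay : a * y = y * a := by
    have h2 : y * a * y⁻¹ = a := by
      have : y * a * y⁻¹ = a * (a⁻¹ * (y * a * y⁻¹)) := by group
      rw [this, h1, mul_one]
    calc a * y = (y * a * y⁻¹) * y := by rw [h2]
      _ = y * a := by group
  have hby : b * y = y * b := by
    have eb : b = a⁻¹ * g := by rw [e]; group
    rw [eb]
    calc a⁻¹ * g * y = a⁻¹ * (g * y) := by group
      _ = a⁻¹ * (y * g) := by rw [hg']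
      _ = a⁻¹ * (y * a) * a⁻¹ * g := by group
      _ = a⁻¹ * (a * y) * a⁻¹ * g := by rw [hay]
      _ = y * (a⁻¹ * g) := by group
  exact ⟨a, ha, Subgroup.mem_centralizer_singleton_iff.mpr hay, b, hb,
    Subgroup.mem_centralizer_singleton_iff.mpr hby, e⟩

end closure

end Cfsg.Agent.Helper2
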