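import Cfsg.Agent.Helper2.KWConf3
import Cfsg.Agent.S0558
import Cfsg.Agent.S0581

/-!
Helper library of seat helper2: the Kegel–Wielandt theorem, coprime case.
Part 4: centralizers of elements of `A` normalize `A`; `A` is a TI-subgroup; the final counting
contradiction.  Everything lives in `Cfsg.Agent.Helper2`, prefix `kw`.
-/

set_option autoImplicit false
open Pointwise

namespace Cfsg.Agent.Helper2

universe u

theorem kw_mem_sylow_of_nilpotent {H : Type*} [Group H] [Finite H] [Group.IsNilpotent H] {p : ℕ}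
    [Fact p.Prime] (P : Sylow p H) {x : H} {k : ℕ} (hx : x ^ p ^ k = 1) : x ∈ P := by
  have hP : IsPGroup p (Subgroup.zpowers x) := by
    apply IsPGroup.of_card (n := (Nat.factorization (orderOf x)) p)
    rw [Nat.card_zpowers]
    have hdvd : orderOf x ∣ p ^ k := orderOf_dvd_of_pow_eq_one hx
    obtain ⟨j, -, hj⟩ := (Nat.dvd_prime_pow Fact.out).mp hdvd
    rw [hj, Nat.Prime.factorization_pow Fact.out]
    simp
  obtain ⟨Q, hQ⟩ := hP.exists_le_sylow
  obtain ⟨g, hg⟩ := MulAction.exists_smul_eq H P Q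
  have hQd : Q = P := by rw [← hg]; exact Sylow.smul_eq_of_normal
  rw [hQd] at hQ
  exact hQ (Subgroup.mem_zpowers _)

theorem kw_prime_of_mem_pgroup {H : Type*} [Group H] {p' q : ℕ} (hp' : p'.Prime) (hq : q.Prime)
    {K : Subgroup H} (hK : IsPGroup p' K) {x : H} (hx : x ∈ K) (ho : orderOf x = q) : q = p' := by
  obtain ⟨k, hk⟩ := hK ⟨x, hx⟩
  have h0 : x ^ p' ^ k = 1 := by simpa using congrArg Subtype.val hk
  have h1 : q ∣ p' ^ k := ho ▸ orderOf_dvd_of_pow_eq_one h0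
  exact (Nat.prime_dvd_prime_iff_eq hq hp').mp (hq.dvd_of_dvd_pow h1)

section cent

variable {G : Type u} [Group G] [Finite G]

theorem kws_cent_case1 (hS : KWS G) {A B : Subgroup G} (h : KWD A B) {t : G} (ht : t ∈ A)
    (ht1 : t ≠ 1) {r : ℕ} [Fact r.Prime] (hr0 : kwSyl r A ≠ ⊥)
    (hrX : kwSyl r A ≤ Subgroup.centralizer ({t} : Set G))
    {y₀ : G} (hy₀X : y₀ * t = t * y₀) (hy₀N : y₀ ∈ Subgroup.normalizer (A : Set G))
    (hy₀A : y₀ ∉ A) :
    Subgroup.centralizer ({t} : Set G) ≤ Subgroup.normalizer (A : Set G) := by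
  have hex : ∃ c ∈ Subgroup.zpowers y₀, (∃ q k : ℕ, q.Prime ∧ c ^ q ^ k = 1) ∧ c ∉ A := by
    by_contra hno
    push_neg at hno
    exact hy₀A (kw_mem_of_primary_powers A (orderOf y₀) y₀ rfl (orderOf_pos y₀)
      (fun c hc hpk => hno c hc hpk))
  obtain ⟨c, hcz, ⟨q, k, hq, hck⟩, hcA⟩ := hex
  haveI : Fact q.Prime := ⟨hq⟩
  have hcN : c ∈ Subgroup.normalizer (A : Set G) := (Subgroup.zpowers_le.mpr hy₀N) hcz
  have hcX : c ∈ Subgroup.centralizer ({t} : Set G) :=
    (Subgroup.zpowers_le.mpr (Subgroup.mem_centralizer_singleton_iff.mpr hy₀X)) hcz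
  have hc1 : c ≠ 1 := fun h1 => hcA (h1 ▸ A.one_mem)
  have hqA : ¬ q ∣ Nat.card A := by
    intro hd
    apply hcA
    apply kw_mem_of_normalizer A hcN
    rw [h.c.index_eq]
    have h1 : (q ^ k).Coprime (Nat.card B) :=
      Nat.Coprime.pow_left k (Nat.Coprime.coprime_dvd_left hd h.c.cop)
    exact Nat.Coprime.coprime_dvd_left (orderOf_dvd_of_pow_eq_one hck) h1
  obtain ⟨q', m, hq', hqo⟩ := kw_exists_prime_order hc1
  have hq'q : q' = q := by
    have h1 : q' ∣ q ^ k := hqo ▸ (orderOf_pow_dvd m).trans (orderOf_dvd_of_pow_eq_one hck)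
    exact (Nat.prime_dvd_prime_iff_eq hq' hq).mp (hq'.dvd_of_dvd_pow h1)
  rw [hq'q] at hqo
  obtain ⟨y, hydef⟩ : ∃ y, y = c ^ m := ⟨_, rfl⟩
  rw [← hydef] at hqo
  have hyN : y ∈ Subgroup.normalizer (A : Set G) := hydef ▸ Subgroup.pow_mem _ hcN m
  have hyX : y ∈ Subgroup.centralizer ({t} : Set G) := hydef ▸ Subgroup.pow_mem _ hcX m
  have hy1 : y ≠ 1 := kw_ne_one_of_orderOf hq hqo
  have hqB : q ∣ Nat.card B := by
    have h1 : q ∣ Nat.card G := hqo ▸ orderOf_dvd_natCard y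
    rw [← h.c.card_mul] at h1
    rcases (Nat.Prime.dvd_mul hq).mp h1 with h2 | h2
    · exact absurd h2 hqA
    · exact h2
  obtain ⟨x, hx⟩ := Cfsg.Agent.S0581.result B (Subgroup.zpowers y) h.c.nilB h.c.symm.hall (by
    intro p' hp' hd
    rw [Nat.card_zpowers, hqo] at hd
    rw [(Nat.prime_dvd_prime_iff_eq hp' hq).mp hd]; exact hqB)
  have h' : KWD A (MulAut.conj x • B) := by
    have := h.conj 1 x
    rwa [map_one, one_smul] at this
  have hyB' : y ∈ MulAut.conj x • B := hx (Subgroup.mem_zpowers y)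
  have hyA : MulAut.conj y • A = A := Cfsg.Agent.Helper10.conj_smul_eq_of_mem_normalizer hyN
  have hfacy := kw_cent_fac h'.c hyB' hyA
  have hCyT := hS.centralizer_ne_top hy1
  obtain ⟨q₂, hq₂, hq₂q, hq₂B⟩ := h'.twoB q
  haveI : Fact q₂.Prime := ⟨hq₂⟩
  have hyq : y ∈ kwSyl q (MulAut.conj x • B) := kw_mem_kwSyl_of_orderOf h'.c.nilB hyB' hqo
  have hle : kwSyl q₂ (MulAut.conj x • B) ≤ Subgroup.centralizer ({y} : Set G) := by
    intro z hz
    rw [Subgroup.mem_centralizer_singleton_iff]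
    exact kwSyl_commute hq₂q h'.c.nilB hz hyq
  have hAn := kws_fac_normalizes hS h'.symm hCyT hfacy.symm (kwSyl_ne_bot _ hq₂B) hle
  have htCy : t ∈ Subgroup.centralizer ({y} : Set G) := by
    rw [Subgroup.mem_centralizer_singleton_iff]
    exact (Subgroup.mem_centralizer_singleton_iff.mp hyX).symm
  have htN : t ∈ Subgroup.normalizer ((MulAut.conj x • B : Subgroup G) : Set G) :=
    hAn ⟨ht, htCy⟩
  have htB' : MulAut.conj t • (MulAut.conj x • B) = MulAut.conj x • B :=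
    Cfsg.Agent.Helper10.conj_smul_eq_of_mem_normalizer htN
  have hfacX : KWFac A (MulAut.conj x • B) (Subgroup.centralizer ({t} : Set G)) :=
    (kw_cent_fac h'.c.symm ht htB').symm
  have hBn := kws_fac_normalizes hS h' (hS.centralizer_ne_top ht1) hfacX hr0 hrX
  intro g hg
  obtain ⟨a, ha, haX, b, hb, hbX, e⟩ := hfacX g hg
  rw [e]
  exact Subgroup.mul_mem _ (Subgroup.le_normalizer ha) (hBn ⟨hb, hbX⟩)

theorem kws_cent_case2 (hS : KWS G) {A B : Subgroup G} (h : KWD A B) {t : G} {p : ℕ}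
    [Fact p.Prime] (ht : t ∈ A) (hp : orderOf t = p) {r : ℕ} [Fact r.Prime] (hrp : r ≠ p)
    (hr0 : kwSyl r A ≠ ⊥) (hrX : kwSyl r A ≤ Subgroup.centralizer ({t} : Set G))
    (hcase : Subgroup.centralizer ({t} : Set G) ⊓ Subgroup.normalizer (A : Set G) ≤ A) :
    Subgroup.centralizer ({t} : Set G) ≤ A := by
  have ht1 : t ≠ 1 := kw_ne_one_of_orderOf Fact.out hp
  obtain ⟨X, hXdef⟩ : ∃ X : Subgroup G, X = Subgroup.centralizer ({t} : Set G) := ⟨_, rfl⟩
  rw [← hXdef] at hrX hcase ⊢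
  have hXT : X ≠ ⊤ := hXdef ▸ hS.centralizer_ne_top ht1
  have hmemX : ∀ x, x ∈ X ↔ x * t = t * x := by
    intro x; rw [hXdef, Subgroup.mem_centralizer_singleton_iff]
  have htX : t ∈ X := (hmemX t).mpr rfl
  have hcentX : ∀ a ∈ A, (∀ x ∈ A, a * x = x * a) → a ∈ X :=
    fun a _ hc => (hmemX a).mpr (hc t ht)
  obtain ⟨H', hH'def⟩ : ∃ H' : Subgroup X, H' = A.subgroupOf X := ⟨_, rfl⟩
  have hmemH' : ∀ x : X, x ∈ H' ↔ (x : G) ∈ A := by
    intro x; rw [hH'def, Subgroup.mem_subgroupOf]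
  haveI hnilH' : Group.IsNilpotent H' := hH'def ▸ kw_nilpotent_subgroupOf h.c.nilA X
  have hcardH' : Nat.card H' ∣ Nat.card A := by
    rw [hH'def, kw_card_subgroupOf]; exact Subgroup.card_dvd_of_le inf_le_left
  have hrA : r ∣ Nat.card A := kwSyl_dvd_of_ne_bot A hr0
  have hK1 : ∀ (q : ℕ) [Fact q.Prime], q ∣ Nat.card A →
      ∃ z : X, z ∈ H' ∧ orderOf z = q ∧ (z : G) ≠ 1 ∧ ∀ x ∈ A, (z : G) * x = x * (z : G) := by
    intro q _ hq
    obtain ⟨a, haq, hao, hac⟩ := kwSyl_exists_central h.c.nilA (kwSyl_ne_bot A hq)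
    have haA := kwSyl_le q A haq
    refine ⟨⟨a, hcentX a haA hac⟩, (hmemH' _).mpr haA, ?_, kw_ne_one_of_orderOf Fact.out hao, hac⟩
    rw [Subgroup.orderOf_mk]; exact hao
  have hnot : ∀ p' : ℕ, p'.Prime → ∀ P : Sylow p' X, (P : Subgroup X) ≠ H' := by
    intro p' hp' P hPH
    have hpg : IsPGroup p' H' := hPH ▸ P.2
    have e1 : p = p' := kw_prime_of_mem_pgroup hp' Fact.out hpg ((hmemH' ⟨t, htX⟩).mpr ht)
      (by rw [Subgroup.orderOf_mk]; exact hp)
    obtain ⟨z, hzH', hzo, -, -⟩ := hK1 r hrA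
    have e2 : r = p' := kw_prime_of_mem_pgroup hp' Fact.out hpg hzH' hzo
    exact hrp (e2.trans e1.symm)
  have hnorm : ∀ p' : ℕ, p'.Prime → p' ∣ Nat.card H' → ∀ P : Sylow p' H',
      Subgroup.normalizer (((P : Subgroup H').map H'.subtype : Subgroup X) : Set X) = H' := by
    intro q hq hd P
    haveI : Fact q.Prime := ⟨hq⟩
    obtain ⟨z, hzH', hzo, hz1, hzc⟩ := hK1 q (hd.trans hcardH')
    have hzP : (⟨z, hzH'⟩ : H') ∈ P := by
      apply kw_mem_sylow_of_nilpotent P (k := 1)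
      rw [pow_one]
      apply Subtype.ext
      have := pow_orderOf_eq_one z
      rw [hzo] at this
      simpa using this
    apply le_antisymm
    · intro x hx
      have hmem : x * z * x⁻¹ ∈ (P : Subgroup H').map H'.subtype :=
        (Subgroup.mem_normalizer_iff.mp hx z).mp ⟨⟨z, hzH'⟩, hzP, rfl⟩
      have hH : x * z * x⁻¹ ∈ H' := Subgroup.map_subtype_le _ hmem
      have hA' : (x : G) * (z : G) * (x : G)⁻¹ ∈ A := by
        have := (hmemH' _).mp hH
        simpa using this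
      have hconj := kws_closure hS h ((hmemH' z).mp hzH') hz1 hzc hA'
      have hxA : (x : G) ∈ A :=
        hcase ⟨x.2, Cfsg.Agent.Helper10.mem_normalizer_of_conj_smul_eq hconj⟩
      exact (hmemH' x).mpr hxA
    · rw [Subgroup.le_normalizer_iff]
      rintro x hx _ ⟨k, hk, rfl⟩
      exact ⟨⟨x, hx⟩ * k * ⟨x, hx⟩⁻¹,
        (inferInstance : (P : Subgroup H').Normal).conj_mem k hk ⟨x, hx⟩, rfl⟩
  obtain ⟨K', -, hcomp⟩ := Cfsg.Agent.S0558.result (G := X) H' hnot hnorm
  have hK4 : ∀ q : ℕ, q.Prime → q ∣ Nat.card K' → q ∣ Nat.card B := by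
    intro q hq hd
    haveI : Fact q.Prime := ⟨hq⟩
    by_contra hqB
    have hqG : q ∣ Nat.card G :=
      (hd.trans (Subgroup.card_subgroup_dvd_card K')).trans (Subgroup.card_subgroup_dvd_card X)
    rw [← h.c.card_mul] at hqG
    have hqA : q ∣ Nat.card A := by
      rcases (Nat.Prime.dvd_mul hq).mp hqG with h2 | h2
      · exact h2
      · exact absurd h2 hqB
    obtain ⟨z, hzH', hzo, -, -⟩ := hK1 q hqA
    have hqH' : q ∣ Nat.card H' := hzo ▸ kw_orderOf_dvd_card hzH'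
    have hne : kwSyl q H' ≠ ⊥ := kwSyl_ne_bot H' hqH'
    have hNq : Subgroup.normalizer ((kwSyl q H' : Subgroup X) : Set X) = H' :=
      hnorm q hq hqH' default
    have hqc : q ∣ Nat.card (kwSyl q H') := by
      rcases (kwSyl_isPGroup q H').card_eq_or_dvd with h | h
      · exact absurd (Subgroup.card_eq_one.mp h) hne
      · exact h
    have hPs : ¬ q ∣ (kwSyl q H').relIndex H' := by
      intro hd2
      have := Nat.Coprime.eq_one_of_dvd
        (Nat.Coprime.coprime_dvd_left hqc (kwSyl_relIndex_coprime (p := q) H')) hd2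
      exact hq.one_lt.ne' this
    have hfin := kw_sylow_of_normalizer_le H' (kwSyl q H') (kwSyl_le q H') (kwSyl_isPGroup q H')
      hPs (le_of_eq hNq)
    apply hfin
    rw [← Subgroup.relIndex_mul_index (kwSyl_le q H'), hcomp.index_eq_card]
    exact Dvd.dvd.mul_left hd _
  have hcardK : Nat.card (K'.map X.subtype) = Nat.card K' :=
    Subgroup.card_map_of_injective X.subtype_injective
  obtain ⟨x, hx⟩ := Cfsg.Agent.S0581.result B (K'.map X.subtype) h.c.nilB h.c.symm.hall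
    (fun q hq hd => hK4 q hq (by rwa [hcardK] at hd))
  have h'' : KWD A (MulAut.conj x • B) := by
    have := h.conj 1 x
    rwa [map_one, one_smul] at this
  have hfac : KWFac A (MulAut.conj x • B) X := by
    intro g hg
    obtain ⟨⟨k, h'⟩, hkh, -⟩ := hcomp.existsUnique (⟨g, hg⟩⁻¹ : X)
    have e : (⟨g, hg⟩ : X) = (h' : X)⁻¹ * (k : X)⁻¹ := by
      rw [← mul_inv_rev]
      exact inv_eq_iff_eq_inv.mp hkh.symm ▸ rfl
    have e2 : g = ((h' : X) : G)⁻¹ * ((k : X) : G)⁻¹ := by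
      have := congrArg Subtype.val e
      simpa using this
    refine ⟨((h' : X) : G)⁻¹, A.inv_mem ((hmemH' _).mp h'.2), X.inv_mem (h' : X).2,
      ((k : X) : G)⁻¹, ?_, X.inv_mem (k : X).2, e2⟩
    apply Subgroup.inv_mem
    apply hx
    exact ⟨(k : X), k.2, rfl⟩
  have hBn := kws_fac_normalizes hS h'' hXT hfac hr0 hrX
  intro g hg
  obtain ⟨a, ha, haX, b, hb, hbX, e⟩ := hfac g hg
  have hbA : b ∈ A := hcase ⟨hbX, hBn ⟨hb, hbX⟩⟩
  have hb1 : b = 1 := h''.c.eq_one_of_mem hbA hb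
  rw [e, hb1, mul_one]
  exact ha

theorem kws_cent_le_normalizer_prime (hS : KWS G) {A B : Subgroup G} (h : KWD A B) {t : G}
    {p : ℕ} [Fact p.Prime] (ht : t ∈ A) (hp : orderOf t = p) :
    Subgroup.centralizer ({t} : Set G) ≤ Subgroup.normalizer (A : Set G) := by
  have ht1 : t ≠ 1 := kw_ne_one_of_orderOf Fact.out hp
  have htp : t ∈ kwSyl p A := kw_mem_kwSyl_of_orderOf h.c.nilA ht hp
  obtain ⟨r, hr, hrp, hrA⟩ := h.twoA p
  haveI : Fact r.Prime := ⟨hr⟩
  have hr0 : kwSyl r A ≠ ⊥ := kwSyl_ne_bot A hrA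
  have hrX : kwSyl r A ≤ Subgroup.centralizer ({t} : Set G) := by
    intro x hx
    rw [Subgroup.mem_centralizer_singleton_iff]
    exact kwSyl_commute hrp h.c.nilA hx htp
  by_cases hcase : Subgroup.centralizer ({t} : Set G) ⊓ Subgroup.normalizer (A : Set G) ≤ A
  · exact (kws_cent_case2 hS h ht hp hrp hr0 hrX hcase).trans Subgroup.le_normalizer
  · obtain ⟨y₀, hy₀, hy₀A⟩ := SetLike.not_le_iff_exists.mp hcase
    exact kws_cent_case1 hS h ht ht1 hr0 hrX (Subgroup.mem_centralizer_singleton_iff.mp hy₀.1)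
      hy₀.2 hy₀A

/-- Centralizers of nontrivial elements of `A` normalize `A`. -/
theorem kws_cent_le_normalizer (hS : KWS G) {A B : Subgroup G} (h : KWD A B) {t : G}
    (ht : t ∈ A) (ht1 : t ≠ 1) :
    Subgroup.centralizer ({t} : Set G) ≤ Subgroup.normalizer (A : Set G) := by
  obtain ⟨p, m, hp, hpo⟩ := kw_exists_prime_order ht1
  haveI : Fact p.Prime := ⟨hp⟩
  refine le_trans ?_ (kws_cent_le_normalizer_prime hS h (A.pow_mem ht m) hpo)
  intro g hg
  rw [Subgroup.mem_centralizer_singleton_iff] at hg ⊢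
  exact ((show Commute g t from hg).pow_right m).eq

/-- `A` is a TI-subgroup. -/
theorem kws_ti (hS : KWS G) {A B : Subgroup G} (h : KWD A B) {t g : G} (ht : t ∈ A)
    (ht1 : t ≠ 1) (htg : t ∈ MulAut.conj g • A) : MulAut.conj g • A = A := by
  obtain ⟨r, hr, -, hrA⟩ := h.twoA 0
  haveI : Fact r.Prime := ⟨hr⟩
  obtain ⟨a, har, hao, hac⟩ := kwSyl_exists_central h.c.nilA (kwSyl_ne_bot A hrA)
  have haA := kwSyl_le r A har
  have ha1 : a ≠ 1 := kw_ne_one_of_orderOf hr hao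
  have htg' : g⁻¹ * t * g ∈ A := (Cfsg.Agent.Helper10.mem_conj_smul_iff g t A).mp htg
  have hcomm : (g * a * g⁻¹) * t = t * (g * a * g⁻¹) := by
    have := hac _ htg'
    calc g * a * g⁻¹ * t = g * (a * (g⁻¹ * t * g)) * g⁻¹ := by group
      _ = g * ((g⁻¹ * t * g) * a) * g⁻¹ := by rw [this]
      _ = t * (g * a * g⁻¹) := by group
  have hN : g * a * g⁻¹ ∈ Subgroup.normalizer (A : Set G) :=
    kws_cent_le_normalizer hS h ht ht1 (Subgroup.mem_centralizer_singleton_iff.mpr hcomm)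
  have hord : orderOf (g * a * g⁻¹) = r := by
    have := MulEquiv.orderOf_eq (MulAut.conj g) a
    rw [MulAut.conj_apply] at this
    rw [this]; exact hao
  have hA' : g * a * g⁻¹ ∈ A := by
    apply kw_mem_of_normalizer A hN
    rw [hord, h.c.index_eq]
    exact Nat.Coprime.coprime_dvd_left hrA h.c.cop
  exact kws_closure hS h haA ha1 hac hA'

theorem kws_card_lt (hS : KWS G) {A B : Subgroup G} (h : KWD A B) :
    Nat.card A < Nat.card B := by
  have hA0 := h.neA
  have hAT : A ≠ ⊤ := by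
    intro hT
    apply h.neB
    have hc := h.c.card_mul
    rw [hT, Subgroup.card_top] at hc
    have : Nat.card B = 1 := by
      have h2 : Nat.card G * Nat.card B = Nat.card G * 1 := by rw [hc, mul_one]
      exact Nat.eq_of_mul_eq_mul_left Nat.card_pos h2
    exact Subgroup.card_eq_one.mp this
  have hN := hS.normalizer_ne_top hA0 hAT
  obtain ⟨g, hg⟩ : ∃ g, g ∉ Subgroup.normalizer (A : Set G) := by
    by_contra hno
    push_neg at hno
    exact hN ((Subgroup.eq_top_iff' _).mpr hno)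
  have hinj : Function.Injective (fun o : Option A =>
      (match o with
        | none => ((1 : G) : G ⧸ Subgroup.normalizer (A : Set G))
        | some a => (((a : G) * g : G) : G ⧸ Subgroup.normalizer (A : Set G)))) := by
    intro o₁ o₂ he
    rcases o₁ with _ | a₁ <;> rcases o₂ with _ | a₂
    · rfl
    · exfalso
      have h1 : (1 : G)⁻¹ * ((a₂ : G) * g) ∈ Subgroup.normalizer (A : Set G) :=
        QuotientGroup.eq.mp he
      rw [inv_one, one_mul] at h1
      apply hg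
      have h2 : g = (a₂ : G)⁻¹ * ((a₂ : G) * g) := by group
      rw [h2]
      exact Subgroup.mul_mem _ (Subgroup.inv_mem _ (Subgroup.le_normalizer a₂.2)) h1
    · exfalso
      have h1 : ((a₁ : G) * g)⁻¹ * 1 ∈ Subgroup.normalizer (A : Set G) :=
        QuotientGroup.eq.mp he
      rw [mul_one] at h1
      apply hg
      have h2 : g = (a₁ : G)⁻¹ * (((a₁ : G) * g)⁻¹)⁻¹ := by group
      rw [h2]
      exact Subgroup.mul_mem _ (Subgroup.inv_mem _ (Subgroup.le_normalizer a₁.2))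
        (Subgroup.inv_mem _ h1)
    · have h1 : ((a₁ : G) * g)⁻¹ * ((a₂ : G) * g) ∈ Subgroup.normalizer (A : Set G) :=
        QuotientGroup.eq.mp he
      have e1 : ((a₁ : G) * g)⁻¹ * ((a₂ : G) * g) = g⁻¹ * ((a₁ : G)⁻¹ * (a₂ : G)) * g := by group
      rw [e1] at h1
      have huA : (a₁ : G)⁻¹ * (a₂ : G) ∈ A := A.mul_mem (A.inv_mem a₁.2) a₂.2
      have hord : orderOf (g⁻¹ * ((a₁ : G)⁻¹ * (a₂ : G)) * g) = orderOf ((a₁ : G)⁻¹ * (a₂ : G)) := by
        have := MulEquiv.orderOf_eq (MulAut.conj g⁻¹) ((a₁ : G)⁻¹ * (a₂ : G))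
        rw [MulAut.conj_apply, inv_inv] at this
        exact this
      have h2 : g⁻¹ * ((a₁ : G)⁻¹ * (a₂ : G)) * g ∈ A := by
        apply kw_mem_of_normalizer A h1
        rw [hord]
        exact Nat.Coprime.coprime_dvd_left (kw_orderOf_dvd_card huA) h.c.hall
      have h3 : (a₁ : G)⁻¹ * (a₂ : G) ∈ MulAut.conj g • A :=
        (Cfsg.Agent.Helper10.mem_conj_smul_iff g _ A).mpr h2
      by_cases hu1 : (a₁ : G)⁻¹ * (a₂ : G) = 1
      · congr 1
        apply Subtype.ext
        exact inv_mul_eq_one.mp hu1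
      · exfalso
        exact hg (Cfsg.Agent.Helper10.mem_normalizer_of_conj_smul_eq (kws_ti hS h huA hu1 h3))
  have h1 := Nat.card_le_card_of_injective _ hinj
  rw [Finite.card_option] at h1
  have h2 : (Subgroup.normalizer (A : Set G)).index ∣ A.index :=
    Subgroup.index_dvd_of_le Subgroup.le_normalizer
  have h3 : (Subgroup.normalizer (A : Set G)).index ≤ A.index :=
    Nat.le_of_dvd (Nat.pos_of_ne_zero A.index_ne_zero_of_finite) h2
  rw [h.c.index_eq] at h3
  have h4 : Nat.card (G ⧸ Subgroup.normalizer (A : Set G))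
      = (Subgroup.normalizer (A : Set G)).index := rfl
  omega

/-- The minimal configuration is contradictory. -/
theorem kws_false (hS : KWS G) {A B : Subgroup G} (h : KWD A B) : False := by
  have h1 := kws_card_lt hS h
  have h2 := kws_card_lt hS h.symm
  omega

end cent

end Cfsg.Agent.Helper2
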