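import Cfsg.Agent.Helper2.KWConf4
import Cfsg.Agent.Helper3.Burnside2

/-!
Helper library of seat helper2: Wielandt's theorem (1958): a finite group which is the product of
two nilpotent subgroups of coprime orders is solvable.
Everything lives in `Cfsg.Agent.Helper2`, prefix `kw`.
-/

set_option autoImplicit false
open Pointwise

namespace Cfsg.Agent.Helper2

universe u

theorem kw_two_of_not_ppow {n : ℕ} (hn : 0 < n) (h : ¬ ∃ p k : ℕ, p.Prime ∧ n = p ^ k) :
    ∀ p : ℕ, ∃ r : ℕ, r.Prime ∧ r ≠ p ∧ r ∣ n := by
  intro p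
  by_contra hno
  push_neg at hno
  apply h
  by_cases hp : p.Prime
  · exact ⟨p, _, hp, Nat.eq_prime_pow_of_unique_prime_dvd hn.ne' (fun {d} hd hdn => by
      by_contra hne
      exact hno d hd hne hdn)⟩
  · refine ⟨2, 0, Nat.prime_two, ?_⟩
    rw [pow_zero]
    by_contra h1
    exact hno n.minFac (Nat.minFac_prime h1) (fun e => hp (e ▸ Nat.minFac_prime h1))
      (Nat.minFac_dvd n)

section main

variable {G : Type u} [Group G]

theorem kw_solvable_of_ppow [Finite G] (hs : IsSimpleGroup G) {A B : Subgroup G} (h : KWC A B)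
    (hA : ∃ p k : ℕ, p.Prime ∧ Nat.card A = p ^ k) : Group.IsSolvable G := by
  obtain ⟨p, k, hp, hk⟩ := hA
  haveI : Fact p.Prime := ⟨hp⟩
  by_cases hB : B = ⊥
  · have hG : Nat.card G = p ^ k := by rw [← h.card_mul, hB, Subgroup.card_bot, mul_one, hk]
    haveI : Group.IsNilpotent G := (IsPGroup.of_card hG).isNilpotent
    infer_instance
  · have hcB : Nat.card B ≠ 1 := fun h1 => hB (Subgroup.card_eq_one.mp h1)
    obtain ⟨q, hq⟩ : ∃ q, q = (Nat.card B).minFac := ⟨_, rfl⟩
    haveI : Fact q.Prime := ⟨hq ▸ Nat.minFac_prime hcB⟩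
    have hqB : q ∣ Nat.card B := hq ▸ Nat.minFac_dvd _
    obtain ⟨b, hbq, hbo, hbc⟩ := kwSyl_exists_central h.nilB (kwSyl_ne_bot B hqB)
    have hb1 : b ≠ 1 := kw_ne_one_of_orderOf (Fact.out : q.Prime) hbo
    have hle : B ≤ Subgroup.centralizer ({b} : Set G) := by
      intro x hx
      rw [Subgroup.mem_centralizer_singleton_iff]
      exact (hbc x hx).symm
    have hdvd : (Subgroup.centralizer ({b} : Set G)).index ∣ p ^ k := by
      rw [← hk, ← h.symm.index_eq]
      exact Subgroup.index_dvd_of_le hle
    obtain ⟨j, -, hj⟩ := (Nat.dvd_prime_pow hp).mp hdvd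
    have hprime := Cfsg.Agent.Helper3.prime_card_of_prime_pow_class p j hp b hb1 hj
    haveI : Fact (Nat.card G).Prime := ⟨hprime⟩
    haveI : Group.IsNilpotent G :=
      (IsPGroup.of_card (p := Nat.card G) (n := 1) (pow_one _).symm).isNilpotent
    infer_instance

theorem KWC.quot {A B : Subgroup G} (h : KWC A B) (N : Subgroup G) [N.Normal] :
    KWC (A.map (QuotientGroup.mk' N)) (B.map (QuotientGroup.mk' N)) := by
  refine ⟨?_, ?_, ?_, ?_⟩
  · haveI := h.nilA
    exact Group.nilpotent_of_surjective ((QuotientGroup.mk' N).subgroupMap A)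
      (MonoidHom.subgroupMap_surjective _ _)
  · haveI := h.nilB
    exact Group.nilpotent_of_surjective ((QuotientGroup.mk' N).subgroupMap B)
      (MonoidHom.subgroupMap_surjective _ _)
  · exact Nat.Coprime.coprime_dvd_left (Subgroup.card_map_dvd A _)
      (Nat.Coprime.coprime_dvd_right (Subgroup.card_map_dvd B _) h.cop)
  · intro q
    obtain ⟨g, rfl⟩ := QuotientGroup.mk'_surjective N q
    obtain ⟨a, ha, b, hb, e⟩ := h.fac g
    exact ⟨_, ⟨a, ha, rfl⟩, _, ⟨b, hb, rfl⟩, by rw [e, map_mul]⟩

theorem kw_normal_solvable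
    (hsub : ∀ (A' B' : Subgroup G), KWC A' B' → ∀ X : Subgroup G, X ≠ ⊤ → KWFac A' B' X →
      Group.IsSolvable X)
    {A B : Subgroup G} (h : KWC A B) (N : Subgroup G) (hAN : A ⊔ N ≠ ⊤) : Group.IsSolvable N := by
  have hfac : KWFac A B (A ⊔ N) := by
    intro g hg
    obtain ⟨a, ha, b, hb, e⟩ := h.fac g
    have haX : a ∈ A ⊔ N := (le_sup_left : A ≤ A ⊔ N) ha
    refine ⟨a, ha, haX, b, hb, ?_, e⟩
    have : b = a⁻¹ * g := by rw [e]; group
    rw [this]
    exact Subgroup.mul_mem _ (Subgroup.inv_mem _ haX) hg
  haveI := hsub A B h (A ⊔ N) hAN hfac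
  exact Group.isSolvable_of_isSolvable_injective
    (Subgroup.inclusion_injective (le_sup_right : N ≤ A ⊔ N))

theorem kw_index_dvd_of_sup_eq_top (A N : Subgroup G) [N.Normal] (h : A ⊔ N = ⊤) :
    N.index ∣ Nat.card A := by
  have hsurj : Function.Surjective ((QuotientGroup.mk' N).comp A.subtype) := by
    intro q
    obtain ⟨g, rfl⟩ := QuotientGroup.mk'_surjective N q
    have hg : g ∈ ((A ⊔ N : Subgroup G) : Set G) := by rw [h]; exact Subgroup.mem_top g
    rw [Subgroup.mul_normal] at hg
    obtain ⟨a, ha, n, hn, rfl⟩ := Set.mem_mul.mp hg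
    exact ⟨⟨a, ha⟩, (QuotientGroup.mk_mul_of_mem a hn).symm⟩
  exact Subgroup.card_dvd_of_surjective _ hsurj

end main

theorem kw_coprime_solvable_aux : ∀ (n : ℕ) (G : Type u) [Group G] [Finite G], Nat.card G = n →
    ∀ A B : Subgroup G, KWC A B → Group.IsSolvable G := by
  intro n
  induction n using Nat.strong_induction_on with
  | _ n ih =>
    intro G _ _ hn A B h
    have hsub : ∀ (A' B' : Subgroup G), KWC A' B' → ∀ X : Subgroup G, X ≠ ⊤ → KWFac A' B' X →
        Group.IsSolvable X := by
      intro A' B' h' X hX hfac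
      have hlt : Nat.card X < n := by
        rw [← hn]
        exact lt_of_le_of_ne (Subgroup.card_le_card_group X)
          (fun he => hX (Subgroup.eq_top_of_card_eq X he))
      exact ih _ hlt X rfl _ _ (h'.sub hfac)
    by_cases hsimple : IsSimpleGroup G
    · by_cases hab : ∀ a b : G, a * b = b * a
      · exact Group.isSolvable_of_comm hab
      · by_cases hA : ∃ p k : ℕ, p.Prime ∧ Nat.card A = p ^ k
        · exact kw_solvable_of_ppow hsimple h hA
        · by_cases hB : ∃ p k : ℕ, p.Prime ∧ Nat.card B = p ^ k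
          · exact kw_solvable_of_ppow hsimple h.symm hB
          · exfalso
            exact kws_false ⟨hsimple, hab, hsub⟩
              ⟨h, kw_two_of_not_ppow Nat.card_pos hA, kw_two_of_not_ppow Nat.card_pos hB⟩
    · by_cases hnt : Nontrivial G
      · have hex : ∃ N : Subgroup G, N.Normal ∧ N ≠ ⊥ ∧ N ≠ ⊤ := by
          by_contra hno
          apply hsimple
          exact ⟨fun N hN => by
            by_contra hc
            push_neg at hc
            exact hno ⟨N, hN, hc.1, hc.2⟩⟩
        obtain ⟨N, hNn, hN0, hNT⟩ := hex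
        haveI := hNn
        haveI hQ : Group.IsSolvable (G ⧸ N) := by
          have hlt : Nat.card (G ⧸ N) < n := by
            rw [← hn]
            have h1 := Subgroup.card_eq_card_quotient_mul_card_subgroup N
            have h2 : 1 < Nat.card N := by
              rcases Nat.lt_or_ge 1 (Nat.card N) with h | h
              · exact h
              · exfalso
                apply hN0
                apply Subgroup.card_eq_one.mp
                have := Nat.card_pos (α := N)
                omega
            rw [h1]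
            have h3 : 0 < Nat.card (G ⧸ N) := Nat.card_pos
            nlinarith
          exact ih _ hlt (G ⧸ N) rfl _ _ (h.quot N)
        haveI hNs : Group.IsSolvable N := by
          by_cases hAN : A ⊔ N = ⊤
          · by_cases hBN : B ⊔ N = ⊤
            · exfalso
              apply hNT
              rw [← Subgroup.index_eq_one]
              exact Nat.eq_one_of_dvd_coprimes h.cop (kw_index_dvd_of_sup_eq_top A N hAN)
                (kw_index_dvd_of_sup_eq_top B N hBN)
            · exact kw_normal_solvable hsub h.symm N hBN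
          · exact kw_normal_solvable hsub h N hAN
        exact Group.isSolvable_of_ker_le_range N.subtype (QuotientGroup.mk' N)
          (by rw [QuotientGroup.ker_mk', Subgroup.range_subtype])
      · rw [not_nontrivial_iff_subsingleton] at hnt
        exact Group.isSolvable_of_comm (fun a b => Subsingleton.elim _ _)

/-- **Wielandt's theorem** (1958): a finite group which is the product of two nilpotent subgroups
of coprime orders is solvable. -/
theorem kw_coprime_solvable {G : Type u} [Group G] [Finite G] (A B : Subgroup G)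
    (hA : Group.IsNilpotent A) (hB : Group.IsNilpotent B)
    (hcop : (Nat.card A).Coprime (Nat.card B)) (hAB : ∀ g : G, ∃ a ∈ A, ∃ b ∈ B, g = a * b) :
    Group.IsSolvable G :=
  kw_coprime_solvable_aux _ G rfl A B ⟨hA, hB, hcop, hAB⟩

end Cfsg.Agent.Helper2
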