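import Cfsg.Agent.Helper2.KWConf2
import Cfsg.Agent.Helper22.Fitting

/-!
Helper library of seat helper2: for the Kegel–Wielandt theorem.  If `X`, `Y` are `p`-subgroups of
a finite group `G` such that `X` permutes with every conjugate of `Y`, then `[X, Y] ≤ O_p(G)`.
Everything lives in `Cfsg.Agent.Helper2`, prefix `kw`.
-/

set_option autoImplicit false
open Pointwise

namespace Cfsg.Agent.Helper2

universe u

/-- `X` permutes with every conjugate of `Y`. -/
def KWP {G : Type u} [Group G] (X Y : Subgroup G) : Prop :=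
  ∀ g : G, ∃ S : Subgroup G,
    (S : Set G) = (X : Set G) * ((MulAut.conj g • Y : Subgroup G) : Set G)

section perm

variable {G : Type u} [Group G]

theorem kw_mul_comm_of_subgroup {S X Y : Subgroup G}
    (h : (S : Set G) = (X : Set G) * (Y : Set G)) : (S : Set G) = (Y : Set G) * (X : Set G) := by
  ext s
  constructor
  · intro hs
    have hs' : s⁻¹ ∈ (S : Set G) := S.inv_mem hs
    rw [h] at hs'
    obtain ⟨x, hx, y, hy, e⟩ := Set.mem_mul.mp hs'
    refine Set.mem_mul.mpr ⟨y⁻¹, Y.inv_mem hy, x⁻¹, X.inv_mem hx, ?_⟩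
    rw [← mul_inv_rev, e, inv_inv]
  · rintro ⟨y, hy, x, hx, rfl⟩
    have h1 : x⁻¹ * y⁻¹ ∈ (S : Set G) := by
      rw [h]; exact Set.mul_mem_mul (X.inv_mem hx) (Y.inv_mem hy)
    have h2 := S.inv_mem h1
    rw [mul_inv_rev, inv_inv, inv_inv] at h2
    exact h2

theorem KWP.symm {X Y : Subgroup G} (h : KWP X Y) : KWP Y X := by
  intro g
  obtain ⟨S, hS⟩ := h g⁻¹
  have h1 := kw_conj_mul_set (kw_mul_comm_of_subgroup hS) g
  rw [Cfsg.Agent.Helper10.conj_smul_inv_smul] at h1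
  exact ⟨_, h1⟩

theorem KWP.conj_right {X Y : Subgroup G} (h : KWP X Y) (g : G) :
    KWP X (MulAut.conj g • Y) := by
  intro k
  obtain ⟨S, hS⟩ := h (k * g)
  exact ⟨S, by rw [Cfsg.Agent.Helper10.conj_smul_smul]; exact hS⟩

theorem kw_isPGroup_conj {p : ℕ} {Y : Subgroup G} (hY : IsPGroup p Y) (g : G) :
    IsPGroup p (MulAut.conj g • Y : Subgroup G) :=
  hY.of_equiv (Subgroup.equivSMul (MulAut.conj g) Y)

theorem kw_isPGroup_of_mul [Finite G] {p : ℕ} [Fact p.Prime] {S X Y : Subgroup G}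
    (hX : IsPGroup p X) (hY : IsPGroup p Y) (h : (S : Set G) = (X : Set G) * (Y : Set G)) :
    IsPGroup p S := by
  have e := Cfsg.Agent.Helper50.card_mul_card_eq_card_mulSet X Y
  have e2 : Nat.card S = Nat.card ((X : Set G) * (Y : Set G) : Set G) :=
    Nat.card_congr (Equiv.setCongr h)
  rw [← e2] at e
  obtain ⟨a, ha⟩ := IsPGroup.iff_card.mp hX
  obtain ⟨b, hb⟩ := IsPGroup.iff_card.mp hY
  have hd : Nat.card S ∣ p ^ (a + b) := by
    rw [pow_add, ← ha, ← hb, e]; exact Dvd.intro _ rfl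
  obtain ⟨c, -, hc⟩ := (Nat.dvd_prime_pow Fact.out).mp hd
  exact IsPGroup.of_card hc

theorem kw_map_conj {H : Type*} [Group H] (f : G →* H) (g : G) (Y : Subgroup G) :
    (MulAut.conj g • Y).map f = MulAut.conj (f g) • Y.map f := by
  ext z
  constructor
  · rintro ⟨w, hw, rfl⟩
    have hw' : w ∈ MulAut.conj g • Y := hw
    rw [Cfsg.Agent.Helper10.mem_conj_smul_iff] at hw' ⊢
    exact ⟨g⁻¹ * w * g, hw', by simp⟩
  · intro hz
    rw [Cfsg.Agent.Helper10.mem_conj_smul_iff] at hz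
    obtain ⟨y, hy, e⟩ := hz
    refine ⟨g * y * g⁻¹, Cfsg.Agent.Helper10.conj_mem_conj_smul g y Y hy, ?_⟩
    rw [map_mul, map_mul, map_inv, e]; group

theorem KWP.map {X Y : Subgroup G} (h : KWP X Y) {H : Type u} [Group H] (f : G →* H)
    (hf : Function.Surjective f) : KWP (X.map f) (Y.map f) := by
  intro q
  obtain ⟨g, rfl⟩ := hf q
  obtain ⟨S, hS⟩ := h g
  refine ⟨S.map f, ?_⟩
  rw [← kw_map_conj, Subgroup.coe_map, Subgroup.coe_map, Subgroup.coe_map, hS, Set.image_mul]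

theorem kw_conj_subgroupOf (M K : Subgroup G) (m : M) :
    MulAut.conj m • (K.subgroupOf M) = (MulAut.conj (m : G) • K).subgroupOf M := by
  ext z
  rw [Cfsg.Agent.Helper10.mem_conj_smul_iff, Subgroup.mem_subgroupOf, Subgroup.mem_subgroupOf,
    Cfsg.Agent.Helper10.mem_conj_smul_iff]
  simp

theorem kw_subgroupOf_mul {S X K M : Subgroup G}
    (hS : (S : Set G) = (X : Set G) * (K : Set G)) (hXM : X ≤ M) :
    ((S.subgroupOf M : Subgroup M) : Set M)
      = ((X.subgroupOf M : Subgroup M) : Set M) * ((K.subgroupOf M : Subgroup M) : Set M) := by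
  ext z
  constructor
  · intro hz
    have hz' : (z : G) ∈ (S : Set G) := Subgroup.mem_subgroupOf.mp hz
    rw [hS] at hz'
    obtain ⟨x, hx, k, hk, e⟩ := Set.mem_mul.mp hz'
    have hkM : k ∈ M := by
      have : k = x⁻¹ * (z : G) := by rw [← e]; group
      rw [this]; exact M.mul_mem (M.inv_mem (hXM hx)) z.2
    exact Set.mem_mul.mpr ⟨⟨x, hXM hx⟩, Subgroup.mem_subgroupOf.mpr hx, ⟨k, hkM⟩,
      Subgroup.mem_subgroupOf.mpr hk, Subtype.ext e⟩
  · rintro ⟨x, hx, k, hk, rfl⟩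
    have : ((x : G) * (k : G)) ∈ (S : Set G) := by
      rw [hS]
      exact Set.mul_mem_mul (Subgroup.mem_subgroupOf.mp hx) (Subgroup.mem_subgroupOf.mp hk)
    exact Subgroup.mem_subgroupOf.mpr this

theorem KWP.sub {X Y : Subgroup G} (h : KWP X Y) {M : Subgroup G} (hXM : X ≤ M) (g : G) :
    KWP (X.subgroupOf M) ((MulAut.conj g • Y).subgroupOf M) := by
  intro m
  obtain ⟨S, hS⟩ := h ((m : G) * g)
  refine ⟨S.subgroupOf M, ?_⟩
  rw [kw_conj_subgroupOf, Cfsg.Agent.Helper10.conj_smul_smul]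
  exact kw_subgroupOf_mul hS hXM

theorem kw_pCore_normal (p : ℕ) (G : Type u) [Group G] : (Cfsg.pCore p G).Normal := by
  haveI := Cfsg.Agent.Helper22.pCore_characteristic p G
  infer_instance

theorem kw_le_pCore_of_normal {p : ℕ} {N : Subgroup G} (hN : N.Normal) (hp : IsPGroup p N) :
    N ≤ Cfsg.pCore p G :=
  Cfsg.Agent.Helper22.le_pCore_of_isSubnormal p hN.isSubnormal hp

theorem kw_pCore_sub_eq_bot {p : ℕ} (hO : Cfsg.pCore p G = ⊥) (M : Subgroup G) [hM : M.Normal] :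
    Cfsg.pCore p M = ⊥ := by
  have h1 := Cfsg.Agent.Helper22.pCore_map_subtype_le p (K := M) hM.isSubnormal
  rw [hO, le_bot_iff] at h1
  exact (Subgroup.map_eq_bot_iff_of_injective _ M.subtype_injective).mp h1

end perm

theorem kw_nilpotent_of_comm {K : Type*} [Group K] (h : ∀ a b : K, a * b = b * a) :
    Group.IsNilpotent K :=
  ⟨⟨1, Subgroup.upperCentralSeries_one_eq_top_iff.mpr ⟨⟨h⟩⟩⟩⟩

section core

variable {G : Type u} [Group G]

theorem kwp_core [Finite G] {p : ℕ} [Fact p.Prime] (hO : Cfsg.pCore p G = ⊥)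
    (ih : ∀ (H : Type u) [Group H] [Finite H], Nat.card H < Nat.card G →
      ∀ X Y : Subgroup H, IsPGroup p X → IsPGroup p Y → KWP X Y →
        ∀ x ∈ X, ∀ y ∈ Y, x * y * x⁻¹ * y⁻¹ ∈ Cfsg.pCore p H)
    {X Y : Subgroup G} (hX : IsPGroup p X) (hY : IsPGroup p Y) (hperm : KWP X Y)
    {N₀ : Subgroup G} (hN₀ : N₀.Normal) (hN₀T : N₀ ≠ ⊤) (hXN : X ≤ N₀) :
    ∀ x ∈ X, ∀ y ∈ Y, x * y * x⁻¹ * y⁻¹ = 1 := by
  obtain ⟨M, hMdef⟩ : ∃ M : Subgroup G, M = Subgroup.normalClosure (X : Set G) := ⟨_, rfl⟩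
  haveI hMn : M.Normal := hMdef ▸ Subgroup.normalClosure_normal
  have hXM : X ≤ M := hMdef ▸ Subgroup.le_normalClosure
  have hMN : M ≤ N₀ := by
    rw [hMdef]
    haveI := hN₀
    exact Subgroup.normalClosure_le_normal hXN
  have hMT : M ≠ ⊤ := fun h => hN₀T (top_le_iff.mp (h ▸ hMN))
  have hcard : Nat.card M < Nat.card G :=
    lt_of_le_of_ne (Subgroup.card_le_card_group M) (fun he => hMT (Subgroup.eq_top_of_card_eq M he))
  have hb : ∀ g : G, ∀ x ∈ X, ∀ y ∈ MulAut.conj g • Y, y ∈ M → x * y = y * x := by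
    intro g x hx y hy hyM
    have h1 := ih M hcard (X.subgroupOf M) ((MulAut.conj g • Y).subgroupOf M) hX.comap_subtype
      (kw_isPGroup_conj hY g).comap_subtype (hperm.sub hXM g) ⟨x, hXM hx⟩
      (Subgroup.mem_subgroupOf.mpr hx) ⟨y, hyM⟩ (Subgroup.mem_subgroupOf.mpr hy)
    rw [kw_pCore_sub_eq_bot hO M, Subgroup.mem_bot] at h1
    have h2 : x * y * x⁻¹ * y⁻¹ = 1 := by simpa using congrArg Subtype.val h1
    calc x * y = (x * y * x⁻¹ * y⁻¹) * (y * x) := by group
      _ = y * x := by rw [h2, one_mul]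
  have hb' : ∀ g h : G, ∀ x ∈ X, ∀ y ∈ MulAut.conj g • Y, y ∈ M →
      (h * x * h⁻¹) * y = y * (h * x * h⁻¹) := by
    intro g h x hx y hy hyM
    have hy' : h⁻¹ * y * h ∈ MulAut.conj (h⁻¹ * g) • Y := by
      rw [Cfsg.Agent.Helper10.mem_conj_smul_iff] at hy ⊢
      have : (h⁻¹ * g)⁻¹ * (h⁻¹ * y * h) * (h⁻¹ * g) = g⁻¹ * y * g := by group
      rwa [this]
    have hyM' : h⁻¹ * y * h ∈ M := by
      have := hMn.conj_mem y hyM h⁻¹
      rwa [inv_inv] at this
    have h1 := hb (h⁻¹ * g) x hx _ hy' hyM'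
    calc h * x * h⁻¹ * y = h * (x * (h⁻¹ * y * h)) * h⁻¹ := by group
      _ = h * ((h⁻¹ * y * h) * x) * h⁻¹ := by rw [h1]
      _ = y * (h * x * h⁻¹) := by group
  have hc : ∀ g : G, ∀ y ∈ MulAut.conj g • Y, y ∈ M → ∀ m ∈ M, m * y = y * m := by
    intro g y hy hyM m hm
    have hle : M ≤ Subgroup.centralizer ({y} : Set G) := by
      rw [hMdef]
      show Subgroup.closure (Group.conjugatesOfSet (X : Set G)) ≤ _
      rw [Subgroup.closure_le]
      intro c hc
      obtain ⟨x, hx, hconj⟩ := Group.mem_conjugatesOfSet_iff.mp hc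
      obtain ⟨h, rfl⟩ := isConj_iff.mp hconj
      exact Subgroup.mem_centralizer_singleton_iff.mpr (hb' g h x hx y hy hyM)
    exact Subgroup.mem_centralizer_singleton_iff.mp (hle hm)
  obtain ⟨Z, hZdef⟩ : ∃ Z : Subgroup G, Z = (Subgroup.center M).map M.subtype := ⟨_, rfl⟩
  have hZnil : Group.IsNilpotent Z := by
    rw [hZdef]
    haveI : Group.IsNilpotent (Subgroup.center M) :=
      kw_nilpotent_of_comm (fun a b => Subtype.ext (Subgroup.mem_center_iff.mp b.2 (a : M)))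
    exact Group.nilpotent_of_mulEquiv (Subgroup.equivMapOfInjective _ _ M.subtype_injective)
  haveI hZn : Z.Normal :=
    hZdef ▸ Cfsg.Agent.Helper22.normal_map_subtype_of_characteristic M (Subgroup.center M)
  have hWn : (kwSyl p Z).Normal := by
    refine ⟨fun n hn g => ?_⟩
    have h1 : MulAut.conj g • Z = Z :=
      Cfsg.Agent.Helper10.conj_smul_eq_of_mem_normalizer
        (by rw [Subgroup.normalizer_eq_top_iff.mpr hZn]; exact Subgroup.mem_top g)
    have h2 : MulAut.conj g • kwSyl p Z = kwSyl p Z := by rw [← kwSyl_conj hZnil, h1]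
    exact kw_conj_mem h2 hn
  have hW0 : kwSyl p Z = ⊥ := by
    have := kw_le_pCore_of_normal hWn (kwSyl_isPGroup p Z)
    rwa [hO, le_bot_iff] at this
  have hd : ∀ g : G, ∀ y ∈ MulAut.conj g • Y, y ∈ M → y = 1 := by
    intro g y hy hyM
    have hyZ : y ∈ Z := by
      rw [hZdef]
      refine ⟨⟨y, hyM⟩, Subgroup.mem_center_iff.mpr ?_, rfl⟩
      intro m
      exact Subtype.ext (hc g y hy hyM m m.2)
    have hyW : y ∈ kwSyl p Z := by
      rw [mem_kwSyl_iff hZnil]
      refine ⟨hyZ, ?_⟩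
      obtain ⟨k, hk⟩ := (kw_isPGroup_conj hY g) ⟨y, hy⟩
      exact ⟨k, by simpa using congrArg Subtype.val hk⟩
    rw [hW0] at hyW
    exact Subgroup.mem_bot.mp hyW
  have he : ∀ g : G, MulAut.conj g • Y ≤ Subgroup.normalizer (X : Set G) := by
    intro g
    obtain ⟨S, hS⟩ := hperm g
    rw [Subgroup.le_normalizer_iff]
    intro y hy x hx
    have hxS : x ∈ S := kw_le_of_mul_left hS hx
    have hyS : y ∈ S := kw_le_of_mul_right hS hy
    have h1 : y * x * y⁻¹ ∈ (S : Set G) := S.mul_mem (S.mul_mem hyS hxS) (S.inv_mem hyS)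
    rw [hS] at h1
    obtain ⟨x', hx', y', hy', e⟩ := Set.mem_mul.mp h1
    have hM1 : y * x * y⁻¹ ∈ M := hMn.conj_mem x (hXM hx) y
    have hy'M : y' ∈ M := by
      have : y' = x'⁻¹ * (y * x * y⁻¹) := by rw [← e]; group
      rw [this]; exact M.mul_mem (M.inv_mem (hXM hx')) hM1
    have hy'1 := hd g y' hy' hy'M
    rw [hy'1, mul_one] at e
    rw [← e]; exact hx'
  obtain ⟨M₂, hM₂def⟩ : ∃ M₂ : Subgroup G, M₂ = Subgroup.normalClosure (Y : Set G) := ⟨_, rfl⟩
  haveI hM₂n : M₂.Normal := hM₂def ▸ Subgroup.normalClosure_normal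
  have hYM₂ : Y ≤ M₂ := hM₂def ▸ Subgroup.le_normalClosure
  have hM₂X : M₂ ≤ Subgroup.normalizer (X : Set G) := by
    rw [hM₂def]
    show Subgroup.closure (Group.conjugatesOfSet (Y : Set G)) ≤ _
    rw [Subgroup.closure_le]
    intro c hc
    obtain ⟨y, hy, hconj⟩ := Group.mem_conjugatesOfSet_iff.mp hc
    obtain ⟨h, rfl⟩ := isConj_iff.mp hconj
    exact he h (Cfsg.Agent.Helper10.conj_mem_conj_smul h y Y hy)
  have hW : X ⊓ M₂ = ⊥ := by
    have hsub : (X ⊓ M₂ : Subgroup G).IsSubnormal := by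
      refine Subgroup.IsSubnormal.step _ M₂ inf_le_right hM₂n.isSubnormal ?_
      refine (Subgroup.normal_subgroupOf_iff inf_le_right).mpr (fun w m hw hm => ⟨?_, ?_⟩)
      · exact (Subgroup.le_normalizer_iff.mp hM₂X) m hm w hw.1
      · exact M₂.mul_mem (M₂.mul_mem hm hw.2) (M₂.inv_mem hm)
    have := Cfsg.Agent.Helper22.le_pCore_of_isSubnormal p hsub (hX.to_le inf_le_left)
    rwa [hO, le_bot_iff] at this
  intro x hx y hy
  have h1 : x * y * x⁻¹ * y⁻¹ ∈ X ⊓ M₂ := by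
    constructor
    · have := (Subgroup.le_normalizer_iff.mp hM₂X) y (hYM₂ hy) x⁻¹ (X.inv_mem hx)
      have e : x * y * x⁻¹ * y⁻¹ = x * (y * x⁻¹ * y⁻¹) := by group
      rw [e]; exact X.mul_mem hx this
    · have := hM₂n.conj_mem y (hYM₂ hy) x
      exact M₂.mul_mem this (M₂.inv_mem (hYM₂ hy))
  rw [hW] at h1
  exact Subgroup.mem_bot.mp h1

end core

/-- If the `p`-subgroup `X` permutes with every conjugate of the `p`-subgroup `Y`, then
`[X, Y] ≤ O_p(G)`. -/
theorem kwp_main (p : ℕ) [Fact p.Prime] : ∀ (n : ℕ) (G : Type u) [Group G] [Finite G],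
    Nat.card G = n → ∀ X Y : Subgroup G, IsPGroup p X → IsPGroup p Y → KWP X Y →
      ∀ x ∈ X, ∀ y ∈ Y, x * y * x⁻¹ * y⁻¹ ∈ Cfsg.pCore p G := by
  intro n
  induction n using Nat.strong_induction_on with
  | _ n ih =>
    intro G _ _ hn X Y hX hY hperm x hx y hy
    by_cases hO : Cfsg.pCore p G = ⊥
    · rw [hO, Subgroup.mem_bot]
      by_cases hX0 : X = ⊥
      · rw [hX0, Subgroup.mem_bot] at hx; rw [hx]; group
      by_cases hY0 : Y = ⊥
      · rw [hY0, Subgroup.mem_bot] at hy; rw [hy]; group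
      have ih' : ∀ (H : Type u) [Group H] [Finite H], Nat.card H < Nat.card G →
          ∀ X Y : Subgroup H, IsPGroup p X → IsPGroup p Y → KWP X Y →
            ∀ x ∈ X, ∀ y ∈ Y, x * y * x⁻¹ * y⁻¹ ∈ Cfsg.pCore p H := by
        intro H _ _ hlt X' Y' hX' hY' hp'
        exact ih (Nat.card H) (hn ▸ hlt) H rfl X' Y' hX' hY' hp'
      obtain ⟨N₀, hN₀n, hN₀T, hle⟩ := Cfsg.Agent.S0566.result X Y hX0 hY0 (by
        intro g
        obtain ⟨S, hS⟩ := hperm g
        refine ⟨S, ?_, hS⟩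
        intro hST
        have hSp : IsPGroup p S := kw_isPGroup_of_mul hX (kw_isPGroup_conj hY g) hS
        have htop : (⊤ : Subgroup G) ≤ Cfsg.pCore p G :=
          kw_le_pCore_of_normal inferInstance (hST ▸ hSp)
        rw [hO] at htop
        exact hX0 (le_bot_iff.mp (le_top.trans htop)))
      rcases hle with hXN | hYN
      · exact kwp_core hO ih' hX hY hperm hN₀n hN₀T hXN x hx y hy
      · have h1 := kwp_core hO ih' hY hX hperm.symm hN₀n hN₀T hYN y hy x hx
        have e : x * y * x⁻¹ * y⁻¹ = (y * x * y⁻¹ * x⁻¹)⁻¹ := by group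
        rw [e, h1, inv_one]
    · haveI hQn := kw_pCore_normal p G
      have hlt : Nat.card (G ⧸ Cfsg.pCore p G) < n := by
        rw [← hn]
        have h1 := Subgroup.card_eq_card_quotient_mul_card_subgroup (Cfsg.pCore p G)
        have h2 : 1 < Nat.card (Cfsg.pCore p G) := by
          rcases Nat.lt_or_ge 1 (Nat.card (Cfsg.pCore p G)) with h | h
          · exact h
          · exfalso
            apply hO
            apply Subgroup.card_eq_one.mp
            have := Nat.card_pos (α := Cfsg.pCore p G)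
            omega
        rw [h1]
        have h3 : 0 < Nat.card (G ⧸ Cfsg.pCore p G) := Nat.card_pos
        nlinarith
      have h1 := ih _ hlt (G ⧸ Cfsg.pCore p G) rfl (X.map (QuotientGroup.mk' _))
        (Y.map (QuotientGroup.mk' _)) (hX.map _) (hY.map _)
        (hperm.map _ (QuotientGroup.mk'_surjective _)) _ ⟨x, hx, rfl⟩ _ ⟨y, hy, rfl⟩
      have hcomap : (Cfsg.pCore p (G ⧸ Cfsg.pCore p G)).comap
          (QuotientGroup.mk' (Cfsg.pCore p G)) ≤ Cfsg.pCore p G := by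
        apply kw_le_pCore_of_normal ((kw_pCore_normal p _).comap _)
        apply IsPGroup.comap_of_ker_isPGroup (Cfsg.Agent.Helper22.pCore_isPGroup p _)
        rw [QuotientGroup.ker_mk']
        exact Cfsg.Agent.Helper22.pCore_isPGroup p G
      apply hcomap
      rw [Subgroup.mem_comap, map_mul, map_mul, map_mul, map_inv, map_inv]
      exact h1

end Cfsg.Agent.Helper2
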