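import Cfsg.Agent.Helper2.KWCoprime
import Cfsg.Agent.Helper2.KWPerm
import Cfsg.Agent.S0560

/-!
Helper library of seat helper2: the Kegel–Wielandt theorem: a finite group which is the product of
two nilpotent subgroups is solvable.  Everything lives in `Cfsg.Agent.Helper2`, prefix `kw`.
-/

set_option autoImplicit false
open Pointwise

namespace Cfsg.Agent.Helper2

universe u

section gen

variable {G : Type u} [Group G]

theorem kw_sylow_eq_default [Finite G] {p : ℕ} [Fact p.Prime] {A : Subgroup G}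
    (hA : Group.IsNilpotent A) (P : Sylow p A) : P = default := by
  obtain ⟨g, hg⟩ := MulAction.exists_smul_eq A (default : Sylow p A) P
  rw [← hg]; exact Sylow.smul_eq_of_normal

/-- The Sylow `p`-subgroups of the nilpotent factors permute. -/
theorem kw_sylow_mul [Finite G] {A B : Subgroup G} (hA : Group.IsNilpotent A)
    (hB : Group.IsNilpotent B) (hAB : ∀ g : G, ∃ a ∈ A, ∃ b ∈ B, g = a * b) (p : ℕ)
    [Fact p.Prime] :
    ∃ R : Subgroup G, (R : Set G) = (kwSyl p A : Set G) * (kwSyl p B : Set G) := by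
  obtain ⟨P, Q, R, hR⟩ := Cfsg.Agent.S0560.result A B hAB p
  rw [kw_sylow_eq_default hA P, kw_sylow_eq_default hB Q] at hR
  exact ⟨R, hR⟩

theorem kw_sylow_perm [Finite G] {A B : Subgroup G} (hA : Group.IsNilpotent A)
    (hB : Group.IsNilpotent B) (hAB : ∀ g : G, ∃ a ∈ A, ∃ b ∈ B, g = a * b) (p : ℕ)
    [Fact p.Prime] : KWP (kwSyl p A) (kwSyl p B) := by
  intro g
  obtain ⟨R, hR⟩ := kw_sylow_mul hA hB hAB p
  obtain ⟨a, ha, b, hb, e⟩ := hAB g
  refine ⟨MulAut.conj a • R, ?_⟩
  rw [kw_conj_mul_set hR a, kwSyl_normal hA ha, e, ← Cfsg.Agent.Helper10.conj_smul_smul,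
    kwSyl_normal hB hb]

theorem kw_quot_fac {A B : Subgroup G} (hAB : ∀ g : G, ∃ a ∈ A, ∃ b ∈ B, g = a * b)
    (N : Subgroup G) [N.Normal] :
    ∀ q : G ⧸ N, ∃ a ∈ A.map (QuotientGroup.mk' N), ∃ b ∈ B.map (QuotientGroup.mk' N),
      q = a * b := by
  intro q
  obtain ⟨g, rfl⟩ := QuotientGroup.mk'_surjective N q
  obtain ⟨a, ha, b, hb, e⟩ := hAB g
  exact ⟨_, ⟨a, ha, rfl⟩, _, ⟨b, hb, rfl⟩, by rw [e, map_mul]⟩

theorem kw_nilpotent_map {A : Subgroup G} (hA : Group.IsNilpotent A) {H : Type*} [Group H]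
    (f : G →* H) : Group.IsNilpotent (A.map f) :=
  Group.nilpotent_of_surjective (f.subgroupMap A) (MonoidHom.subgroupMap_surjective _ _)

theorem kw_card_quot_lt [Finite G] (N : Subgroup G) (hN : N ≠ ⊥) :
    Nat.card (G ⧸ N) < Nat.card G := by
  have h1 := Subgroup.card_eq_card_quotient_mul_card_subgroup N
  have h2 : 1 < Nat.card N := by
    rcases Nat.lt_or_ge 1 (Nat.card N) with h | h
    · exact h
    · exfalso
      apply hN
      apply Subgroup.card_eq_one.mp
      have := Nat.card_pos (α := N)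
      omega
  rw [h1]
  have h3 : 0 < Nat.card (G ⧸ N) := Nat.card_pos
  nlinarith

end gen

theorem kw_solvable_aux : ∀ (n : ℕ) (G : Type u) [Group G] [Finite G], Nat.card G = n →
    ∀ A B : Subgroup G, Group.IsNilpotent A → Group.IsNilpotent B →
      (∀ g : G, ∃ a ∈ A, ∃ b ∈ B, g = a * b) → Group.IsSolvable G := by
  intro n
  induction n using Nat.strong_induction_on with
  | _ n ih =>
    intro G _ _ hn A B hA hB hAB
    have hquot : ∀ (N : Subgroup G) [N.Normal], N ≠ ⊥ → Group.IsSolvable (G ⧸ N) := by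
      intro N _ hN0
      exact ih _ (hn ▸ kw_card_quot_lt N hN0) (G ⧸ N) rfl _ _ (kw_nilpotent_map hA _)
        (kw_nilpotent_map hB _) (kw_quot_fac hAB N)
    by_cases hcop : (Nat.card A).Coprime (Nat.card B)
    · exact kw_coprime_solvable A B hA hB hcop hAB
    · obtain ⟨p, hp, hpA, hpB⟩ := Nat.Prime.not_coprime_iff_dvd.mp hcop
      haveI : Fact p.Prime := ⟨hp⟩
      have hX0 : kwSyl p A ≠ ⊥ := kwSyl_ne_bot A hpA
      have hY0 : kwSyl p B ≠ ⊥ := kwSyl_ne_bot B hpB
      by_cases hO : Cfsg.pCore p G = ⊥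
      · have hcomm : ∀ g : G, ∀ x ∈ kwSyl p A, ∀ y ∈ MulAut.conj g • kwSyl p B,
            x * y = y * x := by
          intro g x hx y hy
          have h1 := kwp_main p _ G rfl (kwSyl p A) (MulAut.conj g • kwSyl p B)
            (kwSyl_isPGroup p A) (kw_isPGroup_conj (kwSyl_isPGroup p B) g)
            ((kw_sylow_perm hA hB hAB p).conj_right g) x hx y hy
          rw [hO, Subgroup.mem_bot] at h1
          calc x * y = (x * y * x⁻¹ * y⁻¹) * (y * x) := by group
            _ = y * x := by rw [h1, one_mul]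
        obtain ⟨N₁, hN₁def⟩ : ∃ N₁ : Subgroup G,
            N₁ = Subgroup.normalClosure (kwSyl p A : Set G) := ⟨_, rfl⟩
        obtain ⟨N₂, hN₂def⟩ : ∃ N₂ : Subgroup G,
            N₂ = Subgroup.normalClosure (kwSyl p B : Set G) := ⟨_, rfl⟩
        haveI hN₁n : N₁.Normal := hN₁def ▸ Subgroup.normalClosure_normal
        haveI hN₂n : N₂.Normal := hN₂def ▸ Subgroup.normalClosure_normal
        have hXN₁ : kwSyl p A ≤ N₁ := hN₁def ▸ Subgroup.le_normalClosure
        have hYN₂ : kwSyl p B ≤ N₂ := hN₂def ▸ Subgroup.le_normalClosure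
        have hN₁0 : N₁ ≠ ⊥ := fun h0 => hX0 (le_bot_iff.mp (h0 ▸ hXN₁))
        have hN₂0 : N₂ ≠ ⊥ := fun h0 => hY0 (le_bot_iff.mp (h0 ▸ hYN₂))
        have hcent : N₁ ≤ Subgroup.centralizer (N₂ : Set G) := by
          rw [hN₁def]
          apply Subgroup.normalClosure_le_normal
          intro x hx
          have hle : N₂ ≤ Subgroup.centralizer ({x} : Set G) := by
            rw [hN₂def]
            show Subgroup.closure (Group.conjugatesOfSet (kwSyl p B : Set G)) ≤ _
            rw [Subgroup.closure_le]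
            intro c hc
            obtain ⟨y, hy, hconj⟩ := Group.mem_conjugatesOfSet_iff.mp hc
            obtain ⟨h, rfl⟩ := isConj_iff.mp hconj
            exact Subgroup.mem_centralizer_singleton_iff.mpr
              (hcomm h x hx _ (Cfsg.Agent.Helper10.conj_mem_conj_smul h y _ hy)).symm
          rw [SetLike.mem_coe, Subgroup.mem_centralizer_iff]
          intro n hn
          exact Subgroup.mem_centralizer_singleton_iff.mp (hle hn)
        haveI := hquot N₁ hN₁0
        haveI := hquot N₂ hN₂0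
        obtain ⟨Z, hZdef⟩ : ∃ Z : Subgroup G, Z = N₁ ⊓ N₂ := ⟨_, rfl⟩
        haveI : Group.IsSolvable Z := by
          apply Group.isSolvable_of_comm
          intro a b
          apply Subtype.ext
          have ha : (a : G) ∈ N₁ := (hZdef ▸ a.2 : (a : G) ∈ N₁ ⊓ N₂).1
          have hb : (b : G) ∈ N₂ := (hZdef ▸ b.2 : (b : G) ∈ N₁ ⊓ N₂).2
          exact (Subgroup.mem_centralizer_iff.mp (hcent ha) _ hb).symm
        exact Group.isSolvable_of_ker_le_range Z.subtype
          ((QuotientGroup.mk' N₁).prod (QuotientGroup.mk' N₂)) (by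
            rw [Subgroup.range_subtype]
            intro x hx
            rw [MonoidHom.mem_ker, MonoidHom.prod_apply, Prod.mk_eq_one] at hx
            have h1 : x ∈ (QuotientGroup.mk' N₁).ker := MonoidHom.mem_ker.mpr hx.1
            have h2 : x ∈ (QuotientGroup.mk' N₂).ker := MonoidHom.mem_ker.mpr hx.2
            rw [QuotientGroup.ker_mk'] at h1 h2
            rw [hZdef]
            exact ⟨h1, h2⟩)
      · haveI hQn := kw_pCore_normal p G
        haveI := hquot (Cfsg.pCore p G) hO
        haveI : Group.IsNilpotent (Cfsg.pCore p G) :=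
          (Cfsg.Agent.Helper22.pCore_isPGroup p G).isNilpotent
        exact Group.isSolvable_of_ker_le_range (Cfsg.pCore p G).subtype
          (QuotientGroup.mk' (Cfsg.pCore p G))
          (by rw [QuotientGroup.ker_mk', Subgroup.range_subtype])

/-- **Kegel–Wielandt theorem**: a finite group which is the product of two nilpotent subgroups is
solvable. -/
theorem kw_solvable {G : Type u} [Group G] [Finite G] (A B : Subgroup G)
    (hA : Group.IsNilpotent A) (hB : Group.IsNilpotent B)
    (hAB : ∀ g : G, ∃ a ∈ A, ∃ b ∈ B, g = a * b) : Group.IsSolvable G :=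
  kw_solvable_aux _ G rfl A B hA hB hAB

end Cfsg.Agent.Helper2
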