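import Cfsg.Agent.Helper2.KWGeneral

/-!
Helper library of seat helper2: Kegel's corollary of the Kegel–Wielandt theorem: if `G = AB` with
`A`, `B` nilpotent and not both equal to `G`, then `A` or `B` lies in a proper normal subgroup.
Everything lives in `Cfsg.Agent.Helper2`, prefix `kw`.
-/

set_option autoImplicit false
open Pointwise

namespace Cfsg.Agent.Helper2

universe u

section

variable {G : Type u} [Group G]

theorem kw_index_mul_card_inf [Finite G] {A B : Subgroup G}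
    (hAB : ∀ g : G, ∃ a ∈ A, ∃ b ∈ B, g = a * b) :
    Nat.card A = B.index * Nat.card (A ⊓ B : Subgroup G) := by
  have e := Cfsg.Agent.Helper50.card_mul_card_eq_card_mulSet A B
  have hu : ((A : Set G) * (B : Set G)) = Set.univ := by
    ext g
    simp only [Set.mem_univ, iff_true]
    obtain ⟨a, ha, b, hb, e⟩ := hAB g
    exact e ▸ Set.mul_mem_mul ha hb
  rw [hu, Nat.card_univ, ← Subgroup.card_mul_index B] at e
  have h2 : Nat.card B * Nat.card A
      = Nat.card B * (B.index * Nat.card (A ⊓ B : Subgroup G)) := by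
    rw [mul_comm, e, mul_assoc]
  exact Nat.eq_of_mul_eq_mul_left Nat.card_pos h2

theorem kw_index_dvd_of_map_eq_top [Finite G] (A Q : Subgroup G) [Q.Normal]
    (h : A.map (QuotientGroup.mk' Q) = ⊤) : A.index ∣ Nat.card Q := by
  have hfac : ∀ g : G, ∃ a ∈ A, ∃ n ∈ Q, g = a * n := by
    intro g
    have hg : QuotientGroup.mk' Q g ∈ A.map (QuotientGroup.mk' Q) := by
      rw [h]; exact Subgroup.mem_top _
    obtain ⟨a, ha, e⟩ := hg
    refine ⟨a, ha, a⁻¹ * g, ?_, by group⟩
    exact QuotientGroup.eq.mp e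
  have := kw_index_mul_card_inf (kw_fac_symm hfac)
  exact Dvd.intro _ this.symm

theorem kw_sylow_normal_of_ppow_index [Finite G] {A B : Subgroup G} (hA : Group.IsNilpotent A)
    (hB : Group.IsNilpotent B) (hAB : ∀ g : G, ∃ a ∈ A, ∃ b ∈ B, g = a * b) {p i j : ℕ}
    (hp : p.Prime) (hi : A.index = p ^ i) (hj : B.index = p ^ j)
    {ℓ : ℕ} [Fact ℓ.Prime] (hℓp : ℓ ≠ p) (P : Sylow ℓ G) : (P : Subgroup G).Normal := by
  have hfz : ∀ m : ℕ, (p ^ m).factorization ℓ = 0 := by
    intro m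
    rw [Nat.Prime.factorization_pow hp, Finsupp.single_apply, if_neg hℓp.symm]
  have hAD := kw_index_mul_card_inf hAB
  have hBD := kw_index_mul_card_inf (kw_fac_symm hAB)
  have hfA : (Nat.card A).factorization ℓ
      = (Nat.card (A ⊓ B : Subgroup G)).factorization ℓ := by
    rw [hAD, hj, Nat.factorization_mul (pow_pos hp.pos j).ne' Nat.card_pos.ne',
      Finsupp.add_apply, hfz, zero_add]
  have hfB : (Nat.card B).factorization ℓ
      = (Nat.card (A ⊓ B : Subgroup G)).factorization ℓ := by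
    rw [hBD, hi, inf_comm, Nat.factorization_mul (pow_pos hp.pos i).ne' Nat.card_pos.ne',
      Finsupp.add_apply, hfz, zero_add]
  have hTA : kwSyl ℓ (A ⊓ B) = kwSyl ℓ A := by
    apply Subgroup.eq_of_le_of_card_ge
      (kw_le_kwSyl hA ((kwSyl_le ℓ _).trans inf_le_left) (kwSyl_isPGroup ℓ _))
    rw [kwSyl_card, kwSyl_card, hfA]
  have hTB : kwSyl ℓ (A ⊓ B) = kwSyl ℓ B := by
    apply Subgroup.eq_of_le_of_card_ge
      (kw_le_kwSyl hB ((kwSyl_le ℓ _).trans inf_le_right) (kwSyl_isPGroup ℓ _))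
    rw [kwSyl_card, kwSyl_card, hfB]
  have hconj : ∀ g : G, MulAut.conj g • kwSyl ℓ A = kwSyl ℓ A := by
    intro g
    obtain ⟨a, ha, b, hb, e⟩ := hAB g
    rw [e, ← Cfsg.Agent.Helper10.conj_smul_smul]
    have h1 : MulAut.conj b • kwSyl ℓ A = kwSyl ℓ A := by
      rw [← hTA, hTB]; exact kwSyl_normal hB hb
    rw [h1]; exact kwSyl_normal hA ha
  haveI hTn : (kwSyl ℓ A).Normal := ⟨fun n hn g => kw_conj_mem (hconj g) hn⟩
  have hsup : IsPGroup ℓ ((P : Subgroup G) ⊔ kwSyl ℓ A : Subgroup G) :=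
    IsPGroup.to_sup_of_normal_right P.2 (kwSyl_isPGroup ℓ A)
  have hTP : kwSyl ℓ A ≤ P := by
    have := P.is_maximal' hsup le_sup_left
    rw [← this]; exact le_sup_right
  have hcard : Nat.card (P : Subgroup G) = Nat.card (kwSyl ℓ A) := by
    rw [Sylow.card_eq_multiplicity, kwSyl_card, ← Subgroup.card_mul_index A, hi,
      Nat.factorization_mul Nat.card_pos.ne' (pow_pos hp.pos i).ne', Finsupp.add_apply, hfz,
      add_zero]
  have hEq : kwSyl ℓ A = P := Subgroup.eq_of_le_of_card_ge hTP (le_of_eq hcard)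
  rw [← hEq]; exact hTn

end

theorem kw_normal_aux : ∀ (n : ℕ) (G : Type u) [Group G] [Finite G], Nat.card G = n →
    ∀ A B : Subgroup G, Group.IsNilpotent A → Group.IsNilpotent B →
      (∀ g : G, ∃ a ∈ A, ∃ b ∈ B, g = a * b) → (A ≠ ⊤ ∨ B ≠ ⊤) →
      ∃ N : Subgroup G, N.Normal ∧ N ≠ ⊤ ∧ (A ≤ N ∨ B ≤ N) := by
  intro n
  induction n using Nat.strong_induction_on with
  | _ n ih =>
    intro G _ _ hn A B hA hB hAB hproper
    by_contra hno
    haveI hsol : Group.IsSolvable G := kw_solvable A B hA hB hAB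
    haveI hnt : Nontrivial G := by
      by_contra hnt
      rw [not_nontrivial_iff_subsingleton] at hnt
      have hall : ∀ K : Subgroup G, K = ⊤ := fun K =>
        (Subgroup.eq_top_iff' K).mpr (fun x => by rw [Subsingleton.elim x 1]; exact K.one_mem)
      rcases hproper with h | h
      · exact h (hall A)
      · exact h (hall B)
    have hkey : ∀ (N : Subgroup G) [N.Normal], N ≠ ⊥ →
        A.map (QuotientGroup.mk' N) = ⊤ ∧ B.map (QuotientGroup.mk' N) = ⊤ := by
      intro N _ hN0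
      by_contra hc
      have hc' : A.map (QuotientGroup.mk' N) ≠ ⊤ ∨ B.map (QuotientGroup.mk' N) ≠ ⊤ := by
        by_contra h2
        push_neg at h2
        exact hc h2
      obtain ⟨N₁, hN₁n, hN₁T, hle⟩ := ih _ (hn ▸ kw_card_quot_lt N hN0) (G ⧸ N) rfl _ _
        (kw_nilpotent_map hA _) (kw_nilpotent_map hB _) (kw_quot_fac hAB N) hc'
      apply hno
      refine ⟨N₁.comap (QuotientGroup.mk' N), hN₁n.comap _, ?_, ?_⟩
      · intro hT
        apply hN₁T
        rw [Subgroup.eq_top_iff']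
        intro q
        obtain ⟨g, rfl⟩ := QuotientGroup.mk'_surjective N q
        have : g ∈ N₁.comap (QuotientGroup.mk' N) := by rw [hT]; exact Subgroup.mem_top g
        exact this
      · rcases hle with h | h
        · exact Or.inl (Subgroup.map_le_iff_le_comap.mp h)
        · exact Or.inr (Subgroup.map_le_iff_le_comap.mp h)
    obtain ⟨p, hp, Q, hQn, hQ0, hQp, -⟩ := Cfsg.Agent.Helper10.exists_normal_pgroup (G := G)
    haveI := hp
    haveI := hQn
    obtain ⟨hAQ, hBQ⟩ := hkey Q hQ0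
    haveI hnilQ : Group.IsNilpotent (G ⧸ Q) := by
      haveI h1 : Group.IsNilpotent (A.map (QuotientGroup.mk' Q)) := kw_nilpotent_map hA _
      rw [hAQ] at h1
      exact Group.nilpotent_of_mulEquiv Subgroup.topEquiv
    obtain ⟨k, hk⟩ := IsPGroup.iff_card.mp hQp
    obtain ⟨i, -, hi⟩ := (Nat.dvd_prime_pow hp.out).mp (hk ▸ kw_index_dvd_of_map_eq_top A Q hAQ)
    obtain ⟨j, -, hj⟩ := (Nat.dvd_prime_pow hp.out).mp (hk ▸ kw_index_dvd_of_map_eq_top B Q hBQ)
    have hall : ∀ (ℓ : ℕ), Fact ℓ.Prime → ∀ P : Sylow ℓ G, (P : Subgroup G).Normal := by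
      intro ℓ hℓ P
      by_cases hℓp : ℓ = p
      · have hQℓ : IsPGroup ℓ Q := by rw [hℓp]; exact hQp
        obtain ⟨P', hP'⟩ := (P.2.map (QuotientGroup.mk' Q)).exists_le_sylow
        have hNp : IsPGroup ℓ ((P' : Subgroup (G ⧸ Q)).comap (QuotientGroup.mk' Q)) := by
          apply IsPGroup.comap_of_ker_isPGroup P'.2
          rw [QuotientGroup.ker_mk']; exact hQℓ
        have hPN : (P : Subgroup G) ≤ (P' : Subgroup (G ⧸ Q)).comap (QuotientGroup.mk' Q) :=
          Subgroup.map_le_iff_le_comap.mp hP'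
        have hEq := P.is_maximal' hNp hPN
        rw [← hEq]
        exact (inferInstance : (P' : Subgroup (G ⧸ Q)).Normal).comap _
      · exact kw_sylow_normal_of_ppow_index hA hB hAB hp.out hi hj hℓp P
    haveI hnil : Group.IsNilpotent G :=
      ((Group.isNilpotent_of_finite_tfae (G := G)).out 3 0).mp hall
    have hfin : ∀ K : Subgroup G, K ≠ ⊤ → ∃ M : Subgroup G, M.Normal ∧ M ≠ ⊤ ∧ K ≤ M := by
      intro K hK
      obtain ⟨M, hM, hKM⟩ := (eq_top_or_exists_le_coatom K).resolve_left hK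
      exact ⟨M, Subgroup.NormalizerCondition.normal_of_coatom M
        Group.normalizerCondition_of_isNilpotent hM, hM.1, hKM⟩
    rcases hproper with h | h
    · obtain ⟨M, hMn, hMT, hle⟩ := hfin A h
      exact hno ⟨M, hMn, hMT, Or.inl hle⟩
    · obtain ⟨M, hMn, hMT, hle⟩ := hfin B h
      exact hno ⟨M, hMn, hMT, Or.inr hle⟩

/-- **Kegel**: if `G = AB` with `A`, `B` nilpotent, not both equal to `G`, then `A` or `B` lies
in a proper normal subgroup of `G`. -/
theorem kw_normal {G : Type u} [Group G] [Finite G] (A B : Subgroup G)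
    (hA : Group.IsNilpotent A) (hB : Group.IsNilpotent B)
    (hAB : ∀ g : G, ∃ a ∈ A, ∃ b ∈ B, g = a * b) (hproper : A ≠ ⊤ ∨ B ≠ ⊤) :
    ∃ N : Subgroup G, N.Normal ∧ N ≠ ⊤ ∧ (A ≤ N ∨ B ≤ N) :=
  kw_normal_aux _ G rfl A B hA hB hAB hproper

end Cfsg.Agent.Helper2
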