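import Cfsg.Agent.Helper2.KWBasic

/-!
Helper library of seat helper2: the Sylow subgroups of a nilpotent subgroup `A ≤ G`, as subgroups
of `G` (`kwSyl p A`).  Everything lives in `Cfsg.Agent.Helper2`, prefix `kw`.
-/

set_option autoImplicit false
open Pointwise

namespace Cfsg.Agent.Helper2

/-- A Sylow `p`-subgroup of `A` (the unique one when `A` is nilpotent), as a subgroup of `G`. -/
noncomputable def kwSyl (p : ℕ) {G : Type*} [Group G] (A : Subgroup G) : Subgroup G :=
  ((default : Sylow p A) : Subgroup A).map A.subtype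

theorem kwSyl_le (p : ℕ) {G : Type*} [Group G] (A : Subgroup G) : kwSyl p A ≤ A :=
  Subgroup.map_subtype_le _

theorem kwSyl_isPGroup (p : ℕ) {G : Type*} [Group G] (A : Subgroup G) : IsPGroup p (kwSyl p A) :=
  (default : Sylow p A).2.map _

theorem mem_kwSyl_iff {p : ℕ} [Fact p.Prime] {G : Type*} [Group G] [Finite G] {A : Subgroup G}
    (hA : Group.IsNilpotent A) {x : G} :
    x ∈ kwSyl p A ↔ x ∈ A ∧ ∃ k : ℕ, x ^ p ^ k = 1 := by
  constructor
  · intro hx
    refine ⟨kwSyl_le p A hx, ?_⟩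
    obtain ⟨k, hk⟩ := (kwSyl_isPGroup p A) ⟨x, hx⟩
    exact ⟨k, by simpa using congrArg Subtype.val hk⟩
  · rintro ⟨hxA, k, hk⟩
    have hP : IsPGroup p (Subgroup.zpowers (⟨x, hxA⟩ : A)) := by
      apply IsPGroup.of_card (n := (Nat.factorization (orderOf (⟨x, hxA⟩ : A))) p)
      rw [Nat.card_zpowers]
      have hdvd : orderOf (⟨x, hxA⟩ : A) ∣ p ^ k := by
        apply orderOf_dvd_of_pow_eq_one
        exact Subtype.ext (by simpa using hk)
      obtain ⟨j, -, hj⟩ := (Nat.dvd_prime_pow Fact.out).mp hdvd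
      rw [hj, Nat.Prime.factorization_pow Fact.out]
      simp
    obtain ⟨Q, hQ⟩ := hP.exists_le_sylow
    obtain ⟨g, hg⟩ := MulAction.exists_smul_eq A (default : Sylow p A) Q
    have hQd : Q = default := by
      rw [← hg]; exact Sylow.smul_eq_of_normal
    rw [hQd] at hQ
    exact ⟨⟨x, hxA⟩, hQ (Subgroup.mem_zpowers _), rfl⟩

theorem kwSyl_conj {p : ℕ} [Fact p.Prime] {G : Type*} [Group G] [Finite G] {A : Subgroup G}
    (hA : Group.IsNilpotent A) (g : G) :
    kwSyl p (MulAut.conj g • A) = MulAut.conj g • kwSyl p A := by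
  have hA' : Group.IsNilpotent (MulAut.conj g • A : Subgroup G) :=
    Group.nilpotent_of_mulEquiv (Subgroup.equivSMul (MulAut.conj g) A)
  ext x
  rw [mem_kwSyl_iff hA', Cfsg.Agent.Helper10.mem_conj_smul_iff,
    Cfsg.Agent.Helper10.mem_conj_smul_iff, mem_kwSyl_iff hA]
  constructor
  · rintro ⟨h1, k, hk⟩
    refine ⟨h1, k, ?_⟩
    have : (g⁻¹ * x * g) ^ p ^ k = g⁻¹ * x ^ p ^ k * g := by
      have := conj_pow (a := g⁻¹) (b := x) (i := p ^ k)
      simpa using this
    rw [this, hk]; group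
  · rintro ⟨h1, k, hk⟩
    refine ⟨h1, k, ?_⟩
    have h2 : (g⁻¹ * x * g) ^ p ^ k = g⁻¹ * x ^ p ^ k * g := by
      have := conj_pow (a := g⁻¹) (b := x) (i := p ^ k)
      simpa using this
    rw [h2] at hk
    have : x ^ p ^ k = g * (g⁻¹ * x ^ p ^ k * g) * g⁻¹ := by group
    rw [this, hk]; group

/-- `kwSyl p A` is normalized by `A`. -/
theorem kwSyl_normal {p : ℕ} [Fact p.Prime] {G : Type*} [Group G] [Finite G] {A : Subgroup G}
    (hA : Group.IsNilpotent A) {h : G} (hh : h ∈ A) :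
    MulAut.conj h • kwSyl p A = kwSyl p A := by
  rw [← kwSyl_conj hA]
  congr 1
  exact Cfsg.Agent.Helper10.conj_smul_eq_of_mem_normalizer (Subgroup.le_normalizer hh)

theorem kwSyl_commute {p q : ℕ} [Fact p.Prime] [Fact q.Prime] (hpq : p ≠ q) {G : Type*} [Group G]
    [Finite G] {A : Subgroup G} (hA : Group.IsNilpotent A) {x y : G} (hx : x ∈ kwSyl p A)
    (hy : y ∈ kwSyl q A) : x * y = y * x := by
  obtain ⟨x', hx', rfl⟩ := hx
  obtain ⟨y', hy', rfl⟩ := hy
  have hd : Disjoint ((default : Sylow p A) : Subgroup A) ((default : Sylow q A) : Subgroup A) :=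
    IsPGroup.disjoint_of_ne p q hpq _ _ (default : Sylow p A).2 (default : Sylow q A).2
  have := Subgroup.commute_of_normal_of_disjoint _ _ inferInstance inferInstance hd x' y' hx' hy'
  have h2 := congrArg Subtype.val this.eq
  simpa using h2

/-- A nilpotent subgroup is generated by its Sylow subgroups. -/
theorem kwSyl_gen {G : Type*} [Group G] [Finite G] {A : Subgroup G} (hA : Group.IsNilpotent A)
    (K : Subgroup G) (h : ∀ (p : ℕ) [Fact p.Prime], kwSyl p A ≤ K) : A ≤ K := by
  intro a ha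
  apply kw_mem_of_primary_powers K (orderOf a) a rfl (orderOf_pos a)
  rintro c hc ⟨p, k, hp, hk⟩
  haveI : Fact p.Prime := ⟨hp⟩
  apply h p
  rw [mem_kwSyl_iff hA]
  exact ⟨(Subgroup.zpowers_le.mpr ha) hc, k, hk⟩

/-- The centre of a Sylow subgroup of a nilpotent `A` is central in `A`. -/
theorem kwSyl_center {p : ℕ} [Fact p.Prime] {G : Type*} [Group G] [Finite G] {A : Subgroup G}
    (hA : Group.IsNilpotent A) {a : G} (ha : a ∈ kwSyl p A)
    (hc : ∀ x ∈ kwSyl p A, a * x = x * a) : ∀ x ∈ A, a * x = x * a := by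
  have hle : A ≤ Subgroup.centralizer ({a} : Set G) := by
    apply kwSyl_gen hA
    intro q _ x hx
    rw [Subgroup.mem_centralizer_iff]
    intro y hy
    rw [Set.mem_singleton_iff] at hy
    subst hy
    by_cases hpq : p = q
    · subst hpq; exact hc x hx
    · exact kwSyl_commute hpq hA ha hx
  intro x hx
  have := hle hx
  rw [Subgroup.mem_centralizer_iff] at this
  exact this a rfl

theorem kwSyl_card {p : ℕ} [Fact p.Prime] {G : Type*} [Group G] [Finite G] (A : Subgroup G) :
    Nat.card (kwSyl p A) = p ^ (Nat.card A).factorization p := by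
  unfold kwSyl
  rw [Subgroup.card_map_of_injective A.subtype_injective]
  exact Sylow.card_eq_multiplicity _

theorem kwSyl_ne_bot {p : ℕ} [Fact p.Prime] {G : Type*} [Group G] [Finite G] (A : Subgroup G)
    (hp : p ∣ Nat.card A) : kwSyl p A ≠ ⊥ := by
  intro h
  unfold kwSyl at h
  rw [Subgroup.map_eq_bot_iff_of_injective _ A.subtype_injective] at h
  exact (default : Sylow p A).ne_bot_of_dvd_card hp h

theorem kwSyl_dvd_of_ne_bot {p : ℕ} [Fact p.Prime] {G : Type*} [Group G] [Finite G]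
    (A : Subgroup G) (h : kwSyl p A ≠ ⊥) : p ∣ Nat.card A := by
  by_contra hp
  apply h
  rw [← Subgroup.card_eq_one, kwSyl_card, Nat.factorization_eq_zero_of_not_dvd hp, pow_zero]

/-- `kwSyl p A` is a Hall subgroup of `G` if `A` is. -/
theorem kwSyl_hall {p : ℕ} [Fact p.Prime] {G : Type*} [Group G] [Finite G] (A : Subgroup G)
    (hcop : (Nat.card A).Coprime A.index) :
    (Nat.card (kwSyl p A)).Coprime (kwSyl p A).index := by
  have h1 : (kwSyl p A).index = ((default : Sylow p A) : Subgroup A).index * A.index :=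
    Subgroup.index_map_subtype _
  have h2 : Nat.card (kwSyl p A) = Nat.card ((default : Sylow p A) : Subgroup A) :=
    Subgroup.card_map_of_injective A.subtype_injective
  rw [h1]
  apply Nat.Coprime.mul_right
  · rw [h2]; exact Sylow.card_coprime_index _
  · exact Nat.Coprime.coprime_dvd_left (Subgroup.card_dvd_of_le (kwSyl_le p A)) hcop

theorem kwSyl_not_dvd_index {p : ℕ} [Fact p.Prime] {G : Type*} [Group G] [Finite G]
    (A : Subgroup G) (hcop : (Nat.card A).Coprime A.index) (hne : kwSyl p A ≠ ⊥) :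
    ¬ p ∣ (kwSyl p A).index := by
  intro hd
  have h1 := kwSyl_hall (p := p) A hcop
  have h2 : p ∣ Nat.card (kwSyl p A) := by
    rw [kwSyl_card]
    apply dvd_pow_self
    have := kwSyl_dvd_of_ne_bot A hne
    exact (Nat.Prime.factorization_pos_of_dvd Fact.out Nat.card_pos.ne' this).ne'
  have h3 := Nat.Coprime.eq_one_of_dvd (Nat.Coprime.coprime_dvd_left h2 h1) hd
  exact (Fact.out : p.Prime).one_lt.ne' h3

/-- `kwSyl p A` is a maximal `p`-subgroup of `G` if `A` is a Hall subgroup and `p ∣ |A|`. -/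
theorem kwSyl_maximal {p : ℕ} [Fact p.Prime] {G : Type*} [Group G] [Finite G]
    (A : Subgroup G) (hcop : (Nat.card A).Coprime A.index) (hne : kwSyl p A ≠ ⊥)
    {Q : Subgroup G} (hQ : IsPGroup p Q) (hle : kwSyl p A ≤ Q) : Q = kwSyl p A := by
  have h1 := kwSyl_not_dvd_index A hcop hne
  exact ((kwSyl_isPGroup p A).toSylow h1).is_maximal' hQ hle

/-- A nontrivial Sylow subgroup of a nilpotent `A` contains an element of order `p` which is
central in `A`. -/
theorem kwSyl_exists_central {p : ℕ} [Fact p.Prime] {G : Type*} [Group G] [Finite G]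
    {A : Subgroup G} (hA : Group.IsNilpotent A) (hne : kwSyl p A ≠ ⊥) :
    ∃ a ∈ kwSyl p A, orderOf a = p ∧ ∀ x ∈ A, a * x = x * a := by
  haveI : Nontrivial (kwSyl p A) := (Subgroup.nontrivial_iff_ne_bot _).mpr hne
  haveI := (kwSyl_isPGroup p A).center_nontrivial
  obtain ⟨z, hz⟩ := exists_ne (1 : Subgroup.center (kwSyl p A))
  obtain ⟨j, hj⟩ := (IsPGroup.iff_orderOf.mp (kwSyl_isPGroup p A)) (z : kwSyl p A)
  have hz1 : (z : kwSyl p A) ≠ 1 := fun h => hz (Subtype.ext h)
  have hj0 : j ≠ 0 := by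
    intro h0
    rw [h0, pow_zero, orderOf_eq_one_iff] at hj
    exact hz1 hj
  obtain ⟨i, rfl⟩ := Nat.exists_eq_succ_of_ne_zero hj0
  refine ⟨(((z : kwSyl p A) ^ p ^ i : kwSyl p A) : G), Subtype.property _, ?_, ?_⟩
  · rw [Subgroup.orderOf_coe]
    have := orderOf_pow_of_dvd (x := (z : kwSyl p A)) (n := p ^ i)
      (pow_ne_zero i (Fact.out : p.Prime).ne_zero)
      (by rw [hj]; exact pow_dvd_pow p (Nat.le_succ i))
    rw [this, hj, pow_succ, Nat.mul_div_cancel_left _ (pow_pos (Fact.out : p.Prime).pos i)]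
  · apply kwSyl_center hA (Subtype.property _)
    intro x hx
    have hzc := Subgroup.mem_center_iff.mp z.2 ⟨x, hx⟩
    have h2 : Commute (⟨x, hx⟩ : kwSyl p A) (z : kwSyl p A) := hzc
    have h3 := (h2.pow_right (p ^ i)).eq
    have h4 := congrArg Subtype.val h3
    simpa using h4.symm

end Cfsg.Agent.Helper2
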