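import Mathlib
import Cfsg.Prelude.Def_GeometricClasses
import Cfsg.Agent.Helper94.Tens
import Cfsg.Agent.Helper94.ONd1
import Cfsg.Agent.Helper96.SpNot
import Cfsg.Agent.Helper98.OPar

set_option autoImplicit false

/-! PIECE N4 of CALL S5874 (helper95): `Ω(Q)` is not contained in a tensor product subgroup with
both factors of dimension at least 3 (an Eichler transformation `g` has `g - 1` of rank at most 2).
-/

namespace Cfsg.Agent.Helper2

open Cfsg Cfsg.Geo Matrix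
open scoped Kronecker

section O12N4

variable {ι : Type} [Fintype ι] [DecidableEq ι] {F : Type*} [Field F] {n₁ n₂ : ℕ}

/-- If `a ⊗ b - 1` has rank at most 2 (seen through an injective map) and the second factor has
dimension at least 3, then every vector is an eigenvector of `a`. -/
theorem o12n4_left (Φ : (Fin n₁ × Fin n₂ → F) →ₗ[F] (ι → F)) (hΦ : Function.Injective Φ)
    (a : Matrix (Fin n₁) (Fin n₁) F) (b : Matrix (Fin n₂) (Fin n₂) F)
    (hb : ∀ y, b *ᵥ y = 0 → y = 0) (h2 : 3 ≤ n₂)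
    (U : Submodule F (ι → F)) (hU : Module.finrank F U ≤ 2)
    (hab : ∀ z, Φ ((a ⊗ₖ b) *ᵥ z - z) ∈ U) (x : Fin n₁ → F) : ∃ c : F, a *ᵥ x = c • x := by
  classical
  set L₀ : (Fin n₂ → F) →ₗ[F] (Fin n₁ × Fin n₂ → F) :=
    (Helper94.tpvR (a *ᵥ x)) ∘ₗ (Matrix.toLin' b) - Helper94.tpvR x with hL₀
  have hL₀apply : ∀ y, L₀ y = Helper94.tpv (a *ᵥ x) (b *ᵥ y) - Helper94.tpv x y := by
    intro y
    rw [hL₀, LinearMap.sub_apply, LinearMap.comp_apply, Matrix.toLin'_apply, Helper94.tpvR_apply,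
      Helper94.tpvR_apply]
  set L : (Fin n₂ → F) →ₗ[F] (ι → F) := Φ ∘ₗ L₀ with hL
  have hrange : LinearMap.range L ≤ U := by
    rintro _ ⟨y, rfl⟩
    rw [hL, LinearMap.comp_apply, hL₀apply, ← Helper94.tpv_kron]
    exact hab _
  have hninj : ¬ Function.Injective L := by
    intro hinj
    have h1 : Module.finrank F (LinearMap.range L) = n₂ := by
      rw [LinearMap.finrank_range_of_inj hinj]; simp
    have h3 := Submodule.finrank_mono hrange
    omega
  obtain ⟨y, hy, hy0⟩ : ∃ y, L y = 0 ∧ y ≠ 0 := by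
    by_contra hcon
    push Not at hcon
    apply hninj
    rw [injective_iff_map_eq_zero]
    intro y hy
    exact hcon y hy
  rw [hL, LinearMap.comp_apply, (map_eq_zero_iff Φ hΦ), hL₀apply, sub_eq_zero] at hy
  have hby : b *ᵥ y ≠ 0 := fun h => hy0 (hb y h)
  obtain ⟨j, hj⟩ : ∃ j, (b *ᵥ y) j ≠ 0 := by
    by_contra hcon
    push Not at hcon
    exact hby (funext hcon)
  refine ⟨y j / (b *ᵥ y) j, ?_⟩
  funext i
  have h4 := congrFun hy (i, j)
  simp only [Helper94.tpv_apply] at h4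
  rw [Pi.smul_apply, smul_eq_mul, div_mul_eq_mul_div, eq_div_iff hj]
  linear_combination h4

/-- The same for the second factor. -/
theorem o12n4_right (Φ : (Fin n₁ × Fin n₂ → F) →ₗ[F] (ι → F)) (hΦ : Function.Injective Φ)
    (a : Matrix (Fin n₁) (Fin n₁) F) (b : Matrix (Fin n₂) (Fin n₂) F)
    (ha : ∀ x, a *ᵥ x = 0 → x = 0) (h1 : 3 ≤ n₁)
    (U : Submodule F (ι → F)) (hU : Module.finrank F U ≤ 2)
    (hab : ∀ z, Φ ((a ⊗ₖ b) *ᵥ z - z) ∈ U) (y : Fin n₂ → F) : ∃ c : F, b *ᵥ y = c • y := by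
  classical
  set L₀ : (Fin n₁ → F) →ₗ[F] (Fin n₁ × Fin n₂ → F) :=
    (Helper94.tpvL (b *ᵥ y)) ∘ₗ (Matrix.toLin' a) - Helper94.tpvL y with hL₀
  have hL₀apply : ∀ x, L₀ x = Helper94.tpv (a *ᵥ x) (b *ᵥ y) - Helper94.tpv x y := by
    intro x
    rw [hL₀, LinearMap.sub_apply, LinearMap.comp_apply, Matrix.toLin'_apply, Helper94.tpvL_apply,
      Helper94.tpvL_apply]
  set L : (Fin n₁ → F) →ₗ[F] (ι → F) := Φ ∘ₗ L₀ with hL
  have hrange : LinearMap.range L ≤ U := by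
    rintro _ ⟨x, rfl⟩
    rw [hL, LinearMap.comp_apply, hL₀apply, ← Helper94.tpv_kron]
    exact hab _
  have hninj : ¬ Function.Injective L := by
    intro hinj
    have h1' : Module.finrank F (LinearMap.range L) = n₁ := by
      rw [LinearMap.finrank_range_of_inj hinj]; simp
    have h3 := Submodule.finrank_mono hrange
    omega
  obtain ⟨x, hx, hx0⟩ : ∃ x, L x = 0 ∧ x ≠ 0 := by
    by_contra hcon
    push Not at hcon
    apply hninj
    rw [injective_iff_map_eq_zero]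
    intro x hx
    exact hcon x hx
  rw [hL, LinearMap.comp_apply, (map_eq_zero_iff Φ hΦ), hL₀apply, sub_eq_zero] at hx
  have hax : a *ᵥ x ≠ 0 := fun h => hx0 (ha x h)
  obtain ⟨i, hi⟩ : ∃ i, (a *ᵥ x) i ≠ 0 := by
    by_contra hcon
    push Not at hcon
    exact hax (funext hcon)
  refine ⟨x i / (a *ᵥ x) i, ?_⟩
  funext j
  have h4 := congrFun hx (i, j)
  simp only [Helper94.tpv_apply] at h4
  rw [Pi.smul_apply, smul_eq_mul, div_mul_eq_mul_div, eq_div_iff hi]
  linear_combination h4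

theorem o12_notOmega_tensor [Fintype F] (Q : (ι → F) → F) (hQ : IsNondegenerateQuadraticForm Q)
    {n₁ n₂ : ℕ} (h1 : 3 ≤ n₁) (h2 : 3 ≤ n₂) (e : ι ≃ Fin n₁ × Fin n₂) (P : GL ι F) :
    ¬ omegaGL Q ≤ tensorProductSubgroup n₁ n₂ e P := by
  classical
  intro hle
  have hcard : Fintype.card ι = n₁ * n₂ := by
    rw [Fintype.card_congr e]; simp
  have hn9 : 9 ≤ Fintype.card ι := by rw [hcard]; nlinarith
  obtain ⟨Qb, hQb⟩ : ∃ Qb : QuadraticForm F (ι → F), Qb = Helper98.op_qf Q hQ := ⟨_, rfl⟩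
  have hcoe : ⇑Qb = Q := by rw [hQb]; rfl
  have hnd : (QuadraticMap.polarBilin Qb).Nondegenerate := by
    rw [hQb]; exact Helper98.op_qf_nondeg Q hQ
  subst hcoe
  -- a singular vector `u`, a vector `x₁` not orthogonal to it, a singular `b ⊥ u, x₁`
  obtain ⟨u, -, hu0, huQ⟩ := Helper45.exists_sing_in Qb ⊤
    (by rw [finrank_top, Module.finrank_fintype_fun_eq_card]; omega)
  obtain ⟨x₁, hx₁⟩ : ∃ x₁, QuadraticMap.polar ⇑Qb u x₁ ≠ 0 := by
    by_contra hcon
    push Not at hcon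
    exact hu0 (hnd.1 u (fun y => hcon y))
  obtain ⟨b, hb0, hbQ, hub, hxb⟩ := Helper45.exists_sing_perp2 Qb (by omega) u x₁
  obtain ⟨g, hg⟩ : ∃ g : ↥(isometryGroup F ⇑Qb), g = Helper94.oE Qb u b := ⟨_, rfl⟩
  have hgΩ : g ∈ Omega F ⇑Qb := by rw [hg]; exact Helper94.oE_mem_omega Qb hnd (by omega) u b
  have hgGL : (g : GL ι F) ∈ omegaGL ⇑Qb := Subgroup.mem_map_of_mem _ hgΩ
  obtain ⟨a, b', hab⟩ := Helper94.tens_mem_act e P (g : GL ι F) (hle hgGL)
  have hmv : ∀ x, ((g : GL ι F) : Matrix ι ι F) *ᵥ x =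
      x + (QuadraticMap.polar ⇑Qb b x - Qb b * QuadraticMap.polar ⇑Qb u x) • u
        - (QuadraticMap.polar ⇑Qb u x) • b := by
    intro x
    rw [hg]
    exact Helper94.mv_oE Qb u b huQ hub x
  -- the image of `g - 1`
  set S : Finset (ι → F) := {u, b} with hS
  set U : Submodule F (ι → F) := Submodule.span F (S : Set (ι → F)) with hU
  have hUrank : Module.finrank F U ≤ 2 :=
    (finrank_span_finset_le_card S).trans Finset.card_le_two
  have huU : u ∈ U := Submodule.subset_span (by rw [hS]; simp)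
  have hbU : b ∈ U := Submodule.subset_span (by rw [hS]; simp)
  have hgU : ∀ x, ((g : GL ι F) : Matrix ι ι F) *ᵥ x - x ∈ U := by
    intro x
    rw [hmv x]
    have : x + (QuadraticMap.polar ⇑Qb b x - Qb b * QuadraticMap.polar ⇑Qb u x) • u
        - (QuadraticMap.polar ⇑Qb u x) • b - x =
        (QuadraticMap.polar ⇑Qb b x - Qb b * QuadraticMap.polar ⇑Qb u x) • u
        - (QuadraticMap.polar ⇑Qb u x) • b := by abel
    rw [this]
    exact U.sub_mem (U.smul_mem _ huU) (U.smul_mem _ hbU)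
  have hΦ := Helper94.tPhi_injective e P
  have habU : ∀ z, Helper94.tPhi e P
      (((a : Matrix (Fin n₁) (Fin n₁) F) ⊗ₖ (b' : Matrix (Fin n₂) (Fin n₂) F)) *ᵥ z - z) ∈ U := by
    intro z
    rw [map_sub, ← hab z]
    exact hgU _
  have hainj : ∀ x, (a : Matrix (Fin n₁) (Fin n₁) F) *ᵥ x = 0 → x = 0 := by
    intro x hx
    have h3 := congrArg (fun w => ((a⁻¹ : GL (Fin n₁) F) : Matrix (Fin n₁) (Fin n₁) F) *ᵥ w) hx
    simpa only [Matrix.mulVec_mulVec, ← Units.val_mul, inv_mul_cancel, Units.val_one,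
      Matrix.one_mulVec, Matrix.mulVec_zero] using h3
  have hbinj : ∀ y, (b' : Matrix (Fin n₂) (Fin n₂) F) *ᵥ y = 0 → y = 0 := by
    intro y hy
    have h3 := congrArg (fun w => ((b'⁻¹ : GL (Fin n₂) F) : Matrix (Fin n₂) (Fin n₂) F) *ᵥ w) hy
    simpa only [Matrix.mulVec_mulVec, ← Units.val_mul, inv_mul_cancel, Units.val_one,
      Matrix.one_mulVec, Matrix.mulVec_zero] using h3
  obtain ⟨α, hα⟩ := Helper96.Sy.scalar_of_eigen (a : Matrix (Fin n₁) (Fin n₁) F)
    (o12n4_left (Helper94.tPhi e P) hΦ _ _ hbinj h2 U hUrank habU)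
  obtain ⟨β, hβ⟩ := Helper96.Sy.scalar_of_eigen (b' : Matrix (Fin n₂) (Fin n₂) F)
    (o12n4_right (Helper94.tPhi e P) hΦ _ _ hainj h1 U hUrank habU)
  -- `g` is the scalar `α β`
  have hsc : ∀ w : ι → F, ((g : GL ι F) : Matrix ι ι F) *ᵥ w = (α * β) • w := by
    intro w
    obtain ⟨z, rfl⟩ : ∃ z, Helper94.tPhi e P z = w := by
      refine ⟨fun p => (((P⁻¹ : GL ι F) : Matrix ι ι F) *ᵥ w) (e.symm p), ?_⟩
      rw [Helper94.tPhi_apply]
      have : ((fun p => (((P⁻¹ : GL ι F) : Matrix ι ι F) *ᵥ w) (e.symm p)) ∘ e) =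
          ((P⁻¹ : GL ι F) : Matrix ι ι F) *ᵥ w := by
        funext i
        simp
      rw [this, Matrix.mulVec_mulVec, ← Units.val_mul, mul_inv_cancel, Units.val_one,
        Matrix.one_mulVec]
    rw [hab z, hα, hβ, Matrix.smul_kronecker, Matrix.kronecker_smul, Matrix.one_kronecker_one,
      smul_smul, Matrix.smul_mulVec, Matrix.one_mulVec, map_smul]
  -- `g u = u`
  have hgu : ((g : GL ι F) : Matrix ι ι F) *ᵥ u = u := by
    rw [hmv u, Helper45.polar_self_zero Qb u huQ, QuadraticMap.polar_comm, hub]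
    simp
  have hαβ : α * β = 1 := by
    have h3 := hsc u
    rw [hgu] at h3
    have h4 : (α * β - 1) • u = 0 := by rw [sub_smul, one_smul, ← h3, sub_self]
    rcases smul_eq_zero.mp h4 with h5 | h5
    · exact sub_eq_zero.mp h5
    · exact absurd h5 hu0
  -- but `g x₁ ≠ x₁`
  have h6 := hsc x₁
  rw [hαβ, one_smul, hmv x₁, QuadraticMap.polar_comm (⇑Qb) b x₁, hxb, hbQ] at h6
  have h7 : (QuadraticMap.polar ⇑Qb u x₁) • b = 0 := by
    have h8 : x₁ + (0 - 0 * QuadraticMap.polar ⇑Qb u x₁) • u - (QuadraticMap.polar ⇑Qb u x₁) • b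
        - x₁ = 0 := by rw [h6, sub_self]
    have h9 : x₁ + (0 - 0 * QuadraticMap.polar ⇑Qb u x₁) • u - (QuadraticMap.polar ⇑Qb u x₁) • b
        - x₁ = -((QuadraticMap.polar ⇑Qb u x₁) • b) := by
      rw [zero_mul, sub_zero, zero_smul]; abel
    rw [h9, neg_eq_zero] at h8
    exact h8
  rcases smul_eq_zero.mp h7 with h8 | h8
  · exact hx₁ h8
  · exact hb0 h8

end O12N4

end Cfsg.Agent.Helper2
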