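/-
CALL SL2L piece AR (helper2): arithmetic of `n ∣ p² - 1` without mixed primes.
-/
import Mathlib

set_option autoImplicit false

namespace Cfsg.Agent.Helper2

/-- PIECE AR (arithmetic): `p² - 1 = (p - 1)(p + 1)`; if `gcd(n, p + 1) = 1` then `n ∣ p - 1`; otherwise
a prime `t ∣ n`, `t ∣ p + 1` exists, then no prime of `n` divides `p - 1`, so `n ∣ p + 1`. -/
theorem sl2l_arith {n p : ℕ} (hp : p.Prime) (hd : n ∣ p ^ 2 - 1)
    (h : ¬ ∃ s t : ℕ, s.Prime ∧ t.Prime ∧ s ∣ n ∧ t ∣ n ∧ s ∣ p - 1 ∧ t ∣ p + 1) :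
    n ∣ p - 1 ∨ n ∣ p + 1 := by
  have h1 : p ^ 2 - 1 = (p - 1) * (p + 1) := by
    have hp1 := hp.one_lt
    obtain ⟨q, rfl⟩ : ∃ q, p = q + 1 := ⟨p - 1, by omega⟩
    have e1 : (q + 1) ^ 2 - 1 = q * (q + 2) := by
      have : (q + 1) ^ 2 = q * (q + 2) + 1 := by ring
      rw [this]; simp
    rw [e1]
    simp
  rw [h1] at hd
  by_cases hc : Nat.Coprime n (p + 1)
  · left
    exact hc.dvd_of_dvd_mul_right hd
  · right
    obtain ⟨t, ht, htn, htp⟩ := Nat.Prime.not_coprime_iff_dvd.mp hc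
    have hc2 : Nat.Coprime n (p - 1) := by
      by_contra hc2
      obtain ⟨s, hs, hsn, hsp⟩ := Nat.Prime.not_coprime_iff_dvd.mp hc2
      exact h ⟨s, t, hs, ht, hsn, htn, hsp, htp⟩
    exact hc2.dvd_of_dvd_mul_left hd

end Cfsg.Agent.Helper2
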