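/-
CALL SL2L piece G7b (helper2): a central shift `k₀ d k₀⁻¹ = d z` with `k₀` of order prime to `p` is trivial.
-/
import Mathlib

set_option autoImplicit false

namespace Cfsg.Agent.Helper2

open Subgroup

universe u

variable {Γ : Type u} [Group Γ] [Finite Γ]

/-- PIECE G7b: `k₀ d k₀⁻¹ = d z` with `z ∈ Z` centralized by `k₀` gives `k₀ ^ j d k₀ ^ (-j) = d z ^ j`;
for `j = orderOf k₀`: `z ^ j = 1`, and `z ^ p = 1`, `gcd(j, p) = 1`, so `z = 1`. -/
theorem sl2l_central_shift {p : ℕ} (hp : p.Prime) {Z : Subgroup Γ} (hZc : Nat.card Z = p)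
    {k₀ d z : Γ} (hz : z ∈ Z) (hk₀Z : ∀ z ∈ Z, k₀ * z = z * k₀)
    (hcop : (orderOf k₀).Coprime p) (h : k₀ * d * k₀⁻¹ = d * z) : k₀ * d = d * k₀ := by
  have hkz : k₀ * z * k₀⁻¹ = z := by rw [hk₀Z z hz]; group
  have hstep : ∀ j : ℕ, k₀ ^ j * d * (k₀ ^ j)⁻¹ = d * z ^ j := by
    intro j
    induction j with
    | zero => simp
    | succ j ih =>
      have e1 : k₀ ^ (j + 1) * d * (k₀ ^ (j + 1))⁻¹ = k₀ * (k₀ ^ j * d * (k₀ ^ j)⁻¹) * k₀⁻¹ := by
        rw [pow_succ']; group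
      rw [e1, ih]
      have e2 : k₀ * (d * z ^ j) * k₀⁻¹ = (k₀ * d * k₀⁻¹) * (k₀ * z * k₀⁻¹) ^ j := by
        rw [conj_pow]; group
      rw [e2, h, hkz, mul_assoc, ← pow_succ']
  have h1 := hstep (orderOf k₀)
  rw [pow_orderOf_eq_one] at h1
  have hzj : z ^ orderOf k₀ = 1 := by
    have : d * z ^ orderOf k₀ = d * 1 := by rw [← h1]; group
    exact mul_left_cancel this
  have hzp : orderOf z ∣ p := by
    have := orderOf_dvd_natCard (⟨z, hz⟩ : Z)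
    rwa [Subgroup.orderOf_mk, hZc] at this
  have hzo : orderOf z ∣ orderOf k₀ := orderOf_dvd_of_pow_eq_one hzj
  have hz1 : orderOf z = 1 := by
    have h2 : orderOf z ∣ Nat.gcd (orderOf k₀) p := Nat.dvd_gcd hzo hzp
    rw [hcop] at h2
    exact Nat.dvd_one.mp h2
  have hz1' : z = 1 := orderOf_eq_one_iff.mp hz1
  rw [hz1', mul_one] at h
  calc k₀ * d = (k₀ * d * k₀⁻¹) * k₀ := by group
    _ = d * k₀ := by rw [h]

end Cfsg.Agent.Helper2
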