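/-
helper2: assembly of CALL SL2L (for row S1383): an abelian group of odd order prime to p acting on an
extraspecial-like group of order p^3 with C_P(k) <= Z has order dividing p - 1 or p + 1.
Pieces by the helpers named in the imports.
-/
import Mathlib

import Cfsg.Agent.Helper2.SL2LAR
import Cfsg.Agent.Helper10.SL2LF1
import Cfsg.Agent.Helper10.SL2LG1
import Cfsg.Agent.Helper4.SL2LG2
import Cfsg.Agent.Helper73.SL2LG3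
import Cfsg.Agent.Helper40.SL2LG4
import Cfsg.Agent.Helper10.SL2LG5
import Cfsg.Agent.Helper10.SL2LG6
import Cfsg.Agent.Helper42.SL2LG7a
import Cfsg.Agent.Helper2.SL2LG7b
import Cfsg.Agent.Helper53.SL2LG8
set_option autoImplicit false

namespace Cfsg.Agent.Helper2

open Subgroup

universe u

variable {Γ : Type u} [Group Γ] [Finite Γ]

/-! ## Assembly (helper2) -/

/-- No two primes `s ∣ p - 1`, `t ∣ p + 1` both divide `|K|`. -/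
theorem sl2l_no_mixed {p : ℕ} (hp : p.Prime) {P Z K : Subgroup Γ}
    (hPc : Nat.card P = p ^ 3) (hZP : Z ≤ P) (hZc : Nat.card Z = p)
    (hZcen : ∀ z ∈ Z, ∀ a ∈ P, z * a = a * z)
    (hZeq : ∀ a ∈ P, (∀ b ∈ P, a * b = b * a) → a ∈ Z)
    (hKn : ∀ k ∈ K, ∀ a ∈ P, k * a * k⁻¹ ∈ P)
    (hKcomm : ∀ k ∈ K, ∀ k' ∈ K, k * k' = k' * k)
    (hKp : (Nat.card K).Coprime p)
    (hfix : ∀ k ∈ K, k ≠ 1 → ∀ a ∈ P, k * a = a * k → a ∈ Z)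
    (hKZ : ∀ k ∈ K, ∀ z ∈ Z, k * z = z * k)
    {s t : ℕ} (hs : s.Prime) (ht : t.Prime) (hs2 : s ≠ 2) (ht2 : t ≠ 2) (hsp : s ∣ p - 1)
    (htp : t ∣ p + 1) {k k₂ : Γ} (hk : k ∈ K) (hk₂ : k₂ ∈ K) (hks : orderOf k = s)
    (hk₂t : orderOf k₂ = t) : False := by
  obtain ⟨hpow, hcommZ⟩ := Cfsg.Agent.Helper10.sl2l_quot hp hPc hZP hZc hZcen hZeq
  have hlines := Cfsg.Agent.Helper73.sl2l_lines_card hp hPc hZP hZc hpow hZcen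
  obtain ⟨L, hZL, hLP, hLc, hkL⟩ :=
    Cfsg.Agent.Helper40.sl2l_fixed_line hp hs hs2 hsp hlines hks (hKn k hk) (hKZ k hk)
  have hk1 : k ≠ 1 := by
    intro h; rw [h, orderOf_one] at hks; exact hs.one_lt.ne hks
  have hk₂1 : k₂ ≠ 1 := by
    intro h; rw [h, orderOf_one] at hk₂t; exact ht.one_lt.ne hk₂t
  -- orders divide |K|
  have hordK : ∀ g ∈ K, orderOf g ∣ Nat.card K := fun g hg => by
    have := orderOf_dvd_natCard (⟨g, hg⟩ : K)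
    rwa [Subgroup.orderOf_mk] at this
  have htK : t ∣ Nat.card K := hk₂t ▸ hordK k₂ hk₂
  have htne : t ≠ p := by
    intro h
    have h1 : p ∣ Nat.card K := h ▸ htK
    have h2 : p ∣ Nat.gcd (Nat.card K) p := Nat.dvd_gcd h1 dvd_rfl
    rw [hKp] at h2
    exact hp.one_lt.ne' (Nat.dvd_one.mp h2)
  have htp1 : ¬ t ∣ p - 1 := by
    intro h
    have h2 : t ∣ (p + 1) - (p - 1) := Nat.dvd_sub htp h
    have h3 : (p + 1) - (p - 1) = 2 := by have := hp.one_lt; omega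
    rw [h3] at h2
    exact ht2 ((Nat.prime_dvd_prime_iff_eq ht Nat.prime_two).mp h2)
  have hmv := Cfsg.Agent.Helper4.sl2l_moves hp ht htp1 htne hZL hZc hLc hk₂t (hKZ k₂ hk₂)
    (fun a ha h => hfix k₂ hk₂ hk₂1 a (hLP ha) h)
  -- the second line
  obtain ⟨a₀, ha₀L, ha₀⟩ : ∃ a ∈ L, k₂ * a * k₂⁻¹ ∉ L := by
    by_contra hcon
    push Not at hcon
    exact hmv hcon
  set L₂ : Subgroup Γ := L.map (MulAut.conj k₂).toMonoidHom with hL₂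
  have hmemL₂ : ∀ a ∈ L, k₂ * a * k₂⁻¹ ∈ L₂ := fun a ha =>
    Subgroup.mem_map.mpr ⟨a, ha, by simp [MulAut.conj_apply]⟩
  have hZL₂ : Z ≤ L₂ := by
    intro z hz
    have h1 := hmemL₂ z (hZL hz)
    have h2 : k₂ * z * k₂⁻¹ = z := by rw [hKZ k₂ hk₂ z hz]; group
    rwa [h2] at h1
  have hL₂P : L₂ ≤ P := by
    intro w hw
    obtain ⟨a, ha, rfl⟩ := Subgroup.mem_map.mp hw
    simpa [MulAut.conj_apply] using hKn k₂ hk₂ a (hLP ha)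
  have hL₂c : Nat.card L₂ = p ^ 2 := by
    rw [← hLc]
    exact Nat.card_congr (L.equivMapOfInjective _ (MulAut.conj k₂).injective).symm.toEquiv
  have hne : L ≠ L₂ := by
    intro h
    apply ha₀
    rw [h]
    exact hmemL₂ a₀ ha₀L
  -- d and d₂
  obtain ⟨d, hdL, hdZ⟩ : ∃ d ∈ L, d ∉ Z := by
    by_contra hcon
    push Not at hcon
    have hLZ : L = Z := le_antisymm hcon hZL
    rw [hLZ, hZc] at hLc
    have h1 : p ^ 1 = p ^ 2 := by rw [pow_one]; exact hLc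
    exact absurd (Nat.pow_right_injective hp.two_le h1) (by norm_num)
  have hdP : d ∈ P := hLP hdL
  have hd₂L₂ : k₂ * d * k₂⁻¹ ∈ L₂ := hmemL₂ d hdL
  have hd₂Z : k₂ * d * k₂⁻¹ ∉ Z := by
    intro h
    apply hdZ
    have h2 : k₂⁻¹ * (k₂ * d * k₂⁻¹) * k₂ = k₂ * d * k₂⁻¹ := by
      have := hKZ k₂ hk₂ _ h
      calc k₂⁻¹ * (k₂ * d * k₂⁻¹) * k₂ = k₂⁻¹ * ((k₂ * d * k₂⁻¹) * k₂) := by group
        _ = k₂⁻¹ * (k₂ * (k₂ * d * k₂⁻¹)) := by rw [this]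
        _ = k₂ * d * k₂⁻¹ := by group
    have h3 : k₂⁻¹ * (k₂ * d * k₂⁻¹) * k₂ = d := by group
    rw [h3] at h2
    rw [h2]; exact h
  -- the exponent
  obtain ⟨i, z₁, hz₁, hkd⟩ := Cfsg.Agent.Helper10.sl2l_line_gen hp hZL hZc hLc
    (fun z hz a ha => hZcen z hz a (hLP ha)) hdL hdZ (hkL d hdL)
  have hi1 : 1 ≤ i := by
    rcases Nat.eq_zero_or_pos i with h0 | h0
    · exfalso
      rw [h0, pow_zero, one_mul] at hkd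
      apply hdZ
      have h2 : d = k⁻¹ * (k * d * k⁻¹) * k := by group
      rw [h2, hkd]
      have := hKZ k hk z₁ hz₁
      have h3 : k⁻¹ * z₁ * k = z₁ := by
        calc k⁻¹ * z₁ * k = k⁻¹ * (z₁ * k) := by group
          _ = k⁻¹ * (k * z₁) := by rw [this]
          _ = z₁ := by group
      rw [h3]; exact hz₁
    · exact h0
  have hkk₂ : k * k₂ = k₂ * k := hKcomm k hk k₂ hk₂
  have hkd₂ : k * (k₂ * d * k₂⁻¹) * k⁻¹ = (k₂ * d * k₂⁻¹) ^ i * z₁ := by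
    have h1 : k * (k₂ * d * k₂⁻¹) * k⁻¹ = k₂ * (k * d * k⁻¹) * k₂⁻¹ := by
      have e1 : k * (k₂ * d * k₂⁻¹) * k⁻¹ = (k * k₂) * d * (k * k₂)⁻¹ := by group
      rw [e1, hkk₂]; group
    rw [h1, hkd]
    have h2 : k₂ * (d ^ i * z₁) * k₂⁻¹ = (k₂ * d ^ i * k₂⁻¹) * (k₂ * z₁ * k₂⁻¹) := by group
    have h3 : k₂ * z₁ * k₂⁻¹ = z₁ := by rw [hKZ k₂ hk₂ z₁ hz₁]; group
    have h4 : k₂ * d ^ i * k₂⁻¹ = (k₂ * d * k₂⁻¹) ^ i := (conj_pow).symm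
    rw [h2, h3, h4]
  -- the commutator
  have hcZ : d * (k₂ * d * k₂⁻¹) * d⁻¹ * (k₂ * d * k₂⁻¹)⁻¹ ∈ Z :=
    hcommZ d hdP _ (hL₂P hd₂L₂)
  have hc1 : d * (k₂ * d * k₂⁻¹) * d⁻¹ * (k₂ * d * k₂⁻¹)⁻¹ ≠ 1 := by
    intro h
    have hnc := Cfsg.Agent.Helper53.sl2l_noncomm hp hPc hZc hZcen hZeq hZL hLP hLc hZL₂ hL₂P hL₂c hne hdL hdZ
      hd₂L₂ hd₂Z
    apply hnc
    have e : d * (k₂ * d * k₂⁻¹) =
        (d * (k₂ * d * k₂⁻¹) * d⁻¹ * (k₂ * d * k₂⁻¹)⁻¹) * ((k₂ * d * k₂⁻¹) * d) := by group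
    rw [e, h, one_mul]
  have hkc : k * (d * (k₂ * d * k₂⁻¹) * d⁻¹ * (k₂ * d * k₂⁻¹)⁻¹) * k⁻¹ =
      d * (k₂ * d * k₂⁻¹) * d⁻¹ * (k₂ * d * k₂⁻¹)⁻¹ := by
    rw [hKZ k hk _ hcZ]; group
  have hkc2 : k * (d * (k₂ * d * k₂⁻¹) * d⁻¹ * (k₂ * d * k₂⁻¹)⁻¹) * k⁻¹ =
      (d * (k₂ * d * k₂⁻¹) * d⁻¹ * (k₂ * d * k₂⁻¹)⁻¹) ^ (i * i) := by
    have e : k * (d * (k₂ * d * k₂⁻¹) * d⁻¹ * (k₂ * d * k₂⁻¹)⁻¹) * k⁻¹ =
        (k * d * k⁻¹) * (k * (k₂ * d * k₂⁻¹) * k⁻¹) * (k * d * k⁻¹)⁻¹ *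
          (k * (k₂ * d * k₂⁻¹) * k⁻¹)⁻¹ := by group
    rw [e, hkd, hkd₂]
    exact Cfsg.Agent.Helper10.sl2l_bilin hZP hZcen hcommZ hdP (hL₂P hd₂L₂) hz₁ hz₁ i i
  have hpow_eq : (d * (k₂ * d * k₂⁻¹) * d⁻¹ * (k₂ * d * k₂⁻¹)⁻¹) ^ (i * i) =
      (d * (k₂ * d * k₂⁻¹) * d⁻¹ * (k₂ * d * k₂⁻¹)⁻¹) ^ 1 := by
    rw [pow_one, ← hkc2, hkc]
  have hco : orderOf (d * (k₂ * d * k₂⁻¹) * d⁻¹ * (k₂ * d * k₂⁻¹)⁻¹) = p := by
    have h1 : orderOf (d * (k₂ * d * k₂⁻¹) * d⁻¹ * (k₂ * d * k₂⁻¹)⁻¹) ∣ p := by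
      have := orderOf_dvd_natCard (⟨_, hcZ⟩ : Z)
      rwa [Subgroup.orderOf_mk, hZc] at this
    rcases (Nat.dvd_prime hp).mp h1 with h2 | h2
    · exact absurd (orderOf_eq_one_iff.mp h2) hc1
    · exact h2
  have hlam : p ∣ i ^ 2 - 1 := by
    have h1 := pow_eq_pow_iff_modEq.mp hpow_eq
    rw [hco] at h1
    have h2 : 1 ≤ i * i := Nat.mul_pos hi1 hi1
    have h3 := (Nat.modEq_iff_dvd' h2).mp h1.symm
    rwa [← pow_two] at h3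
  obtain ⟨z, hz, hzz⟩ := Cfsg.Agent.Helper42.sl2l_reduce hp (hpow d hdP) hz₁ (fun z hz => hZcen z hz d hdP)
    (hKZ k hk) hkd hlam hi1
  have hk2K : k ^ 2 ∈ K := K.pow_mem hk 2
  have hk21 : k ^ 2 ≠ 1 := by
    intro h
    have h1 : orderOf k ∣ 2 := orderOf_dvd_of_pow_eq_one h
    rw [hks] at h1
    exact hs2 ((Nat.prime_dvd_prime_iff_eq hs Nat.prime_two).mp h1)
  have hcopK : ∀ g ∈ K, (orderOf g).Coprime p := fun g hg =>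
    Nat.Coprime.coprime_dvd_left (hordK g hg) hKp
  rcases hzz with h | h
  · have h5 := Cfsg.Agent.Helper2.sl2l_central_shift hp hZc hz (hKZ k hk) (hcopK k hk) h
    exact hdZ (hfix k hk hk1 d hdP h5)
  · have h5 := Cfsg.Agent.Helper2.sl2l_central_shift hp hZc hz (hKZ (k ^ 2) hk2K) (hcopK (k ^ 2) hk2K) h
    exact hdZ (hfix (k ^ 2) hk2K hk21 d hdP h5)

/-- The lemma. -/
theorem sl2l_main {p : ℕ} (hp : p.Prime) {P Z K : Subgroup Γ}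
    (hPc : Nat.card P = p ^ 3) (hZP : Z ≤ P) (hZc : Nat.card Z = p)
    (hZcen : ∀ z ∈ Z, ∀ a ∈ P, z * a = a * z)
    (hZeq : ∀ a ∈ P, (∀ b ∈ P, a * b = b * a) → a ∈ Z)
    (hKn : ∀ k ∈ K, ∀ a ∈ P, k * a * k⁻¹ ∈ P)
    (hKcomm : ∀ k ∈ K, ∀ k' ∈ K, k * k' = k' * k)
    (hKodd : Odd (Nat.card K)) (hKp : (Nat.card K).Coprime p)
    (hfix : ∀ k ∈ K, k ≠ 1 → ∀ a ∈ P, k * a = a * k → a ∈ Z)
    (hKZ : ∀ k ∈ K, ∀ z ∈ Z, k * z = z * k) :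
    Nat.card K ∣ p - 1 ∨ Nat.card K ∣ p + 1 := by
  have hd := Cfsg.Agent.Helper10.sl2l_card_dvd hp hPc hZP hZc hKn hKp hfix hKZ
  refine Cfsg.Agent.Helper2.sl2l_arith hp hd ?_
  rintro ⟨s, t, hs, ht, hsK, htK, hsp, htp⟩
  have hs2 : s ≠ 2 := by
    intro h
    rw [h] at hsK
    exact (Nat.not_even_iff_odd.mpr hKodd) (even_iff_two_dvd.mpr hsK)
  have ht2 : t ≠ 2 := by
    intro h
    rw [h] at htK
    exact (Nat.not_even_iff_odd.mpr hKodd) (even_iff_two_dvd.mpr htK)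
  haveI : Fact s.Prime := ⟨hs⟩
  haveI : Fact t.Prime := ⟨ht⟩
  obtain ⟨k, hk⟩ := exists_prime_orderOf_dvd_card' (G := K) s hsK
  obtain ⟨k₂, hk₂⟩ := exists_prime_orderOf_dvd_card' (G := K) t htK
  exact sl2l_no_mixed hp hPc hZP hZc hZcen hZeq hKn hKcomm hKp hfix hKZ hs ht hs2 ht2 hsp htp
    k.2 k₂.2 (by rw [← hk, Subgroup.orderOf_coe]) (by rw [← hk₂, Subgroup.orderOf_coe])

end Cfsg.Agent.Helper2
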