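import Mathlib.GroupTheory.Solvable
import Mathlib.GroupTheory.Sylow
import Mathlib.GroupTheory.Nilpotent
import Mathlib.GroupTheory.IndexNormal
import Mathlib.GroupTheory.GroupAction.Quotient
import Mathlib.Data.Finite.Perm

set_option autoImplicit false

namespace Cfsg.Agent.Helper2

open Subgroup

/-- A group of prime-power order is solvable. -/
theorem isSolvable_of_card_prime_pow {G : Type*} [Group G] [Finite G] (p k : ℕ) [Fact p.Prime]
    (hG : Nat.card G = p ^ k) : Group.IsSolvable G := by
  haveI : Group.IsNilpotent G := (IsPGroup.of_card hG).isNilpotent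
  infer_instance

/-- The index of a Sylow `p`-subgroup of a group of order `p ^ k * m` with `p ∤ m` is `m`. -/
theorem sylow_index_eq {G : Type*} [Group G] [Finite G] {p : ℕ} [hp : Fact p.Prime]
    (P : Sylow p G) (k m : ℕ) (hcard : Nat.card G = p ^ k * m) (hm : ¬ p ∣ m) :
    (P : Subgroup G).index = m := by
  have hp' : p.Prime := hp.out
  obtain ⟨j, hj⟩ := (IsPGroup.iff_card).mp P.2
  have h1 : p ^ j * (P : Subgroup G).index = p ^ k * m := by
    rw [← hj, ← hcard]; exact Subgroup.card_mul_index _
  have hnd : ¬ p ∣ (P : Subgroup G).index := P.not_dvd_index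
  have hjk : j = k := by
    rcases lt_trichotomy j k with h | h | h
    · exfalso
      obtain ⟨d, rfl⟩ := Nat.exists_eq_add_of_lt h
      have h2 : p ^ j * (P : Subgroup G).index = p ^ j * (p ^ (d + 1) * m) := by
        rw [h1]; ring
      have h3 := Nat.eq_of_mul_eq_mul_left (pow_pos hp'.pos j) h2
      exact hnd (h3 ▸ (Dvd.dvd.mul_right (dvd_pow_self p (Nat.succ_ne_zero d)) m))
    · exact h
    · exfalso
      obtain ⟨d, rfl⟩ := Nat.exists_eq_add_of_lt h
      have h2 : p ^ k * (p ^ (d + 1) * (P : Subgroup G).index) = p ^ k * m := by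
        rw [← h1]; ring
      have h3 := Nat.eq_of_mul_eq_mul_left (pow_pos hp'.pos k) h2
      exact hm (h3 ▸ (Dvd.dvd.mul_right (dvd_pow_self p (Nat.succ_ne_zero d)) _))
  rw [hjk] at h1
  exact Nat.eq_of_mul_eq_mul_left (pow_pos hp'.pos k) h1

/-- The index of the normal core of `H` divides `[G : H]!`. -/
theorem index_normalCore_dvd_factorial {G : Type*} [Group G] [Finite G] (H : Subgroup G) :
    H.normalCore.index ∣ (H.index).factorial := by
  rw [normalCore_eq_ker, Subgroup.index_ker, Subgroup.index, ← Nat.card_perm]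
  exact Subgroup.card_subgroup_dvd_card _

/-- If `H` is solvable and `G / core(H)` is solvable then `G` is solvable. -/
theorem isSolvable_of_normalCore {G : Type*} [Group G] (H : Subgroup G)
    [hH : Group.IsSolvable H] [hQ : Group.IsSolvable (G ⧸ H.normalCore)] : Group.IsSolvable G := by
  haveI : Group.IsSolvable H.normalCore :=
    Group.isSolvable_of_isSolvable_injective (Subgroup.inclusion_injective H.normalCore_le)
  exact (Group.isSolvable_iff_subgroup_quotient H.normalCore).mpr ⟨inferInstance, hQ⟩

/-- Groups of order dividing `6` are solvable. -/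
theorem isSolvable_of_card_dvd_six {G : Type*} [Group G] [Finite G] (h : Nat.card G ∣ 6) :
    Group.IsSolvable G := by
  have hle : Nat.card G ≤ 6 := Nat.le_of_dvd (by norm_num) h
  have hpos : 0 < Nat.card G := Nat.card_pos
  have hcases : Nat.card G = 1 ∨ Nat.card G = 2 ∨ Nat.card G = 3 ∨ Nat.card G = 6 := by
    generalize Nat.card G = n at *
    interval_cases n <;> simp_all
  haveI : Fact (Nat.Prime 2) := ⟨Nat.prime_two⟩
  haveI : Fact (Nat.Prime 3) := ⟨Nat.prime_three⟩
  rcases hcases with h1 | h2 | h3 | h6
  · exact isSolvable_of_card_prime_pow 2 0 (by rw [h1]; rfl)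
  · exact isSolvable_of_card_prime_pow 2 1 (by rw [h2]; rfl)
  · exact isSolvable_of_card_prime_pow 3 1 (by rw [h3]; rfl)
  · let Q : Sylow 3 G := default
    have hidx : (Q : Subgroup G).index = 2 := sylow_index_eq Q 1 2 (by rw [h6]; rfl) (by norm_num)
    haveI : (Q : Subgroup G).Normal := Subgroup.normal_of_index_eq_two hidx
    haveI : Group.IsNilpotent (Q : Subgroup G) := Q.2.isNilpotent
    haveI : Group.IsSolvable (G ⧸ (Q : Subgroup G)) :=
      isSolvable_of_card_prime_pow 2 1 (by rw [pow_one]; exact hidx)
    exact (Group.isSolvable_iff_subgroup_quotient (Q : Subgroup G)).mpr ⟨inferInstance, inferInstance⟩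

/-- Groups of order dividing `12` are solvable. -/
theorem isSolvable_of_card_dvd_twelve {G : Type*} [Group G] [Finite G] (h : Nat.card G ∣ 12) :
    Group.IsSolvable G := by
  have hle : Nat.card G ≤ 12 := Nat.le_of_dvd (by norm_num) h
  have hpos : 0 < Nat.card G := Nat.card_pos
  have hcases : Nat.card G ∣ 6 ∨ Nat.card G = 4 ∨ Nat.card G = 12 := by
    generalize Nat.card G = n at *
    interval_cases n <;> simp_all <;> omega
  haveI : Fact (Nat.Prime 2) := ⟨Nat.prime_two⟩
  rcases hcases with h6 | h4 | h12
  · exact isSolvable_of_card_dvd_six h6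
  · exact isSolvable_of_card_prime_pow 2 2 (by rw [h4]; rfl)
  · let Q : Sylow 2 G := default
    have hidx : (Q : Subgroup G).index = 3 := sylow_index_eq Q 2 3 (by rw [h12]; rfl) (by norm_num)
    haveI : Group.IsNilpotent (Q : Subgroup G) := Q.2.isNilpotent
    haveI : Group.IsSolvable (G ⧸ (Q : Subgroup G).normalCore) := by
      apply isSolvable_of_card_dvd_six
      have := index_normalCore_dvd_factorial (Q : Subgroup G)
      rw [hidx] at this
      exact this
    exact isSolvable_of_normalCore (Q : Subgroup G)

/-- Groups of order `36` are solvable. -/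
theorem isSolvable_of_card_eq_thirtysix {G : Type*} [Group G] [Finite G] (h : Nat.card G = 36) :
    Group.IsSolvable G := by
  haveI : Fact (Nat.Prime 3) := ⟨Nat.prime_three⟩
  let Q : Sylow 3 G := default
  have hidx : (Q : Subgroup G).index = 4 := sylow_index_eq Q 2 4 (by rw [h]; rfl) (by norm_num)
  haveI : Group.IsNilpotent (Q : Subgroup G) := Q.2.isNilpotent
  haveI : Group.IsSolvable (G ⧸ (Q : Subgroup G).normalCore) := by
    apply isSolvable_of_card_dvd_twelve
    have h1 := index_normalCore_dvd_factorial (Q : Subgroup G)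
    rw [hidx] at h1
    have h2 : (Q : Subgroup G).normalCore.index ∣ 36 := h ▸ Subgroup.index_dvd_card _
    have h3 : (Q : Subgroup G).normalCore.index ∣ Nat.gcd 24 36 := Nat.dvd_gcd h1 h2
    exact h3
  exact isSolvable_of_normalCore (Q : Subgroup G)

end Cfsg.Agent.Helper2
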