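import Mathlib

set_option autoImplicit false

/-!
# Vaughan-Lee's breadth theorem: commutator forms

Auxiliary material for S3777: bimultiplicative forms `β : G →* G →* C_p` induced from
homomorphisms of the commutator subgroup.
-/

namespace Cfsg.Agent.Helper2

open Subgroup
open scoped commutatorElement

/-- The cyclic group of order `p`, written multiplicatively. -/
abbrev VLC (p : ℕ) := Multiplicative (ZMod p)

theorem vl_card_C (p : ℕ) [Fact p.Prime] : Nat.card (VLC p) = p := by
  rw [Nat.card_congr (Multiplicative.toAdd (α := ZMod p)), Nat.card_zmod]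

theorem vl_pow_p (p : ℕ) [Fact p.Prime] (c : VLC p) : c ^ p = 1 := by
  have h := pow_card_eq_one' (G := VLC p) (x := c)
  rwa [vl_card_C] at h

section forms

variable {G : Type*} [Group G]

/-- The commutator of two elements as an element of the commutator subgroup. -/
def vlComm (g h : G) : ↥(commutator G) :=
  ⟨⁅g, h⁆, Subgroup.commutator_mem_commutator (Subgroup.mem_top g) (Subgroup.mem_top h)⟩

@[simp] theorem vlComm_coe (g h : G) : ((vlComm g h : ↥(commutator G)) : G) = ⁅g, h⁆ := rfl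

/-- Conjugation on the commutator subgroup. -/
def vlConj (g : G) (x : ↥(commutator G)) : ↥(commutator G) :=
  ⟨g * x * g⁻¹, (inferInstance : (commutator G).Normal).conj_mem x x.2 g⟩

@[simp] theorem vlConj_coe (g : G) (x : ↥(commutator G)) :
    ((vlConj g x : ↥(commutator G)) : G) = g * x * g⁻¹ := rfl

theorem vlComm_mul_right (g h h' : G) :
    vlComm g (h * h') = vlComm g h * vlConj h (vlComm g h') := by
  apply Subtype.ext
  simp only [vlComm_coe, Subgroup.coe_mul, vlConj_coe, commutatorElement_def]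
  group

theorem vlComm_mul_left (g g' h : G) :
    vlComm (g * g') h = vlConj g (vlComm g' h) * vlComm g h := by
  apply Subtype.ext
  simp only [vlComm_coe, Subgroup.coe_mul, vlConj_coe, commutatorElement_def]
  group

theorem vlComm_self (g : G) : vlComm g g = 1 := by
  apply Subtype.ext
  simp

theorem vlComm_swap (g h : G) : vlComm h g = (vlComm g h)⁻¹ := by
  apply Subtype.ext
  simp

/-- A homomorphism on the commutator subgroup killing the commutators of a subgroup `N` with
`⁅N, N⁆ = commutator G` is trivial. -/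
theorem vl_xi_eq_one_of_gen {A : Type*} [Group A] (ξ : ↥(commutator G) →* A) (N : Subgroup G)
    (hN : ⁅N, N⁆ = commutator G) (h : ∀ m ∈ N, ∀ n ∈ N, ξ (vlComm m n) = 1) (x : ↥(commutator G)) :
    ξ x = 1 := by
  have hle : ⁅N, N⁆ ≤ (ξ.ker).map (commutator G).subtype := by
    rw [Subgroup.commutator_le]
    intro m hm n hn
    exact ⟨vlComm m n, MonoidHom.mem_ker.2 (h m hm n hn), rfl⟩
  have hx : (x : G) ∈ (ξ.ker).map (commutator G).subtype := hle (by rw [hN]; exact x.2)
  obtain ⟨y, hy, hyx⟩ := hx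
  have : y = x := Subtype.ext hyx
  rw [← this]
  exact MonoidHom.mem_ker.1 hy

variable (G) in
/-- The forms `β g h = ξ ⁅g, h⁆` induced by homomorphisms `ξ` of the commutator subgroup that happen to
be bimultiplicative. -/
def vlForms (p : ℕ) : Subgroup (G →* (G →* VLC p)) where
  carrier := {β | ∃ ξ : ↥(commutator G) →* VLC p, ∀ g h, β g h = ξ (vlComm g h)}
  mul_mem' := by
    rintro β β' ⟨ξ, hξ⟩ ⟨ξ', hξ'⟩
    exact ⟨ξ * ξ', fun g h => by simp [hξ g h, hξ' g h]⟩
  one_mem' := ⟨1, fun g h => by simp⟩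
  inv_mem' := by
    rintro β ⟨ξ, hξ⟩
    exact ⟨ξ⁻¹, fun g h => by simp [hξ g h]⟩

variable {p : ℕ}

theorem vl_form_self {β : G →* (G →* VLC p)} (hβ : β ∈ vlForms G p) (g : G) : β g g = 1 := by
  obtain ⟨ξ, hξ⟩ := hβ
  rw [hξ, vlComm_self, map_one]

theorem vl_form_swap {β : G →* (G →* VLC p)} (hβ : β ∈ vlForms G p) (g h : G) :
    β h g = (β g h)⁻¹ := by
  obtain ⟨ξ, hξ⟩ := hβ
  rw [hξ, hξ, vlComm_swap, map_inv]

theorem vl_form_comm {β : G →* (G →* VLC p)} (hβ : β ∈ vlForms G p) {g h : G}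
    (hc : g * h = h * g) : β g h = 1 := by
  obtain ⟨ξ, hξ⟩ := hβ
  have : vlComm g h = 1 := by
    apply Subtype.ext
    simp only [vlComm_coe, commutatorElement_def, Subgroup.coe_one]
    rw [hc]; group
  rw [hξ, this, map_one]

theorem vl_form_gen {β : G →* (G →* VLC p)} (hβ : β ∈ vlForms G p) (N : Subgroup G)
    (hN : ⁅N, N⁆ = commutator G) (h : ∀ m ∈ N, ∀ n ∈ N, β m n = 1) : β = 1 := by
  obtain ⟨ξ, hξ⟩ := hβ
  ext g h'
  rw [hξ]
  simpa using vl_xi_eq_one_of_gen ξ N hN (fun m hm n hn => by rw [← hξ]; exact h m hm n hn) _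

/-- Expansion of a form on products `m * t ^ i`, `n * t ^ j`. -/
theorem vl_form_expand {β : G →* (G →* VLC p)} (hβ : β ∈ vlForms G p) (m n t : G) (i j : ℕ) :
    β (m * t ^ i) (n * t ^ j) = β m n * (β m t) ^ j * ((β n t)⁻¹) ^ i := by
  have h1 : β t t = 1 := vl_form_self hβ t
  have h2 : β t n = (β n t)⁻¹ := vl_form_swap hβ n t
  simp only [map_mul, map_pow, MonoidHom.mul_apply, MonoidHom.pow_apply, h1, h2, one_pow, mul_one]
  rw [mul_right_comm]

end forms

section decomp

variable {G : Type*} [Group G] {p : ℕ} [Fact p.Prime]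

theorem vl_decomp (χ : G →* VLC p) (t : G) (ht : χ t ≠ 1) (g : G) :
    ∃ m : G, ∃ i : ℕ, χ m = 1 ∧ g = m * t ^ i ∧ χ g = (χ t) ^ i := by
  obtain ⟨i, hi⟩ := mem_powers_of_prime_card (vl_card_C p) ht (g' := χ g)
  have hi' : (χ t) ^ i = χ g := hi
  refine ⟨g * (t ^ i)⁻¹, i, ?_, by group, hi'.symm⟩
  rw [map_mul, map_inv, map_pow, hi', mul_inv_cancel]

/-- In `C_p`, a power `c ^ i` with `c ^ i = 1` and `ζ ^ i ≠ 1` for some `ζ` forces `c = 1`. -/
theorem vl_eq_one_of_pow {c ζ : VLC p} {i : ℕ} (hc : c ^ i = 1) (hζ : ζ ^ i ≠ 1) : c = 1 := by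
  have hp := (Fact.out : p.Prime)
  have hpi : ¬ p ∣ i := by
    rintro ⟨k, rfl⟩
    exact hζ (by rw [pow_mul, vl_pow_p, one_pow])
  have hcop : Nat.Coprime i p := (Nat.Coprime.symm ((Nat.Prime.coprime_iff_not_dvd hp).2 hpi))
  have h1 : c ^ p = 1 := vl_pow_p p c
  have : c ^ (Nat.gcd i p) = 1 := pow_gcd_eq_one.2 ⟨hc, h1⟩
  rwa [hcop, pow_one] at this

end decomp

section exist

variable {G : Type*} [Group G] {p : ℕ} [Fact p.Prime]

/-- In a nilpotent group, a subgroup equal to its commutator with the whole group is trivial. -/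
theorem vl_eq_bot_of_eq_commutator_top [Group.IsNilpotent G] (H : Subgroup G)
    (h : H = ⁅H, (⊤ : Subgroup G)⁆) : H = ⊥ := by
  obtain ⟨n, hn⟩ := Subgroup.nilpotent_iff_lowerCentralSeries.1 (inferInstance : Group.IsNilpotent G)
  have key : ∀ k, H ≤ (⊤ : Subgroup G).lowerCentralSeries k := by
    intro k
    induction k with
    | zero => simp
    | succ k ih =>
      rw [h, Subgroup.lowerCentralSeries_succ]
      exact Subgroup.commutator_mono ih le_rfl
  exact le_bot_iff.1 (hn ▸ key n)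

/-- Existence of a nontrivial form vanishing on a normal subgroup whose commutator subgroup is not the
whole commutator subgroup. -/
theorem vl_exists_form [Finite G] (hG : IsPGroup p G) (N : Subgroup G) [N.Normal]
    (hN : ⁅N, N⁆ ≠ commutator G) :
    ∃ β ∈ vlForms G p, β ≠ 1 ∧ ∀ m ∈ N, ∀ n ∈ N, β m n = 1 := by
  classical
  set D : Subgroup G := commutator G with hD
  set L : Subgroup G := ⁅N, N⁆ ⊔ ⁅D, (⊤ : Subgroup G)⁆ with hL
  have hNN : ⁅N, N⁆ ≤ D := Subgroup.commutator_mono le_top le_top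
  have hDT : ⁅D, (⊤ : Subgroup G)⁆ ≤ D := Subgroup.commutator_le_left D ⊤
  have hLD : L ≤ D := sup_le hNN hDT
  have hLne : L ≠ D := by
    intro hLD'
    have hnil : Group.IsNilpotent (G ⧸ ⁅N, N⁆) := (hG.to_quotient _).isNilpotent
    have h1 : D.map (QuotientGroup.mk' ⁅N, N⁆)
        = ⁅D.map (QuotientGroup.mk' ⁅N, N⁆), (⊤ : Subgroup (G ⧸ ⁅N, N⁆))⁆ := by
      have hbot : (⁅N, N⁆ : Subgroup G).map (QuotientGroup.mk' ⁅N, N⁆) = ⊥ :=
        (Subgroup.map_eq_bot_iff _).2 (by rw [QuotientGroup.ker_mk'])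
      conv_lhs => rw [← hLD']
      rw [hL, Subgroup.map_sup, hbot, bot_sup_eq, Subgroup.map_commutator,
        Subgroup.map_top_of_surjective _ (QuotientGroup.mk'_surjective _)]
    have h2 := vl_eq_bot_of_eq_commutator_top _ h1
    rw [Subgroup.map_eq_bot_iff, QuotientGroup.ker_mk'] at h2
    exact hN (le_antisymm hNN h2)
  obtain ⟨n, hn⟩ := IsPGroup.iff_card.1 (hG.to_subgroup D)
  let L' : Subgroup D := L.subgroupOf D
  obtain ⟨m, hm⟩ := IsPGroup.iff_card.1 ((hG.to_subgroup D).to_subgroup L')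
  have hL'ne : L' ≠ ⊤ := by
    intro h
    rw [Subgroup.subgroupOf_eq_top] at h
    exact hLne (le_antisymm hLD h)
  have hmn : m < n := by
    by_contra hcon
    push Not at hcon
    apply hL'ne
    apply Subgroup.eq_top_of_card_eq
    apply le_antisymm (Subgroup.card_le_card_group L')
    rw [hm, hn]
    exact Nat.pow_le_pow_right (Fact.out : p.Prime).pos hcon
  obtain ⟨K, hKcard, hLK⟩ := Sylow.exists_subgroup_card_pow_prime_le p (m := n - 1)
    (by rw [hn]; exact pow_dvd_pow p (Nat.sub_le _ _)) L' hm (by omega)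
  have hmemL : ∀ (g : G) (x : D), vlComm g (x : G) ∈ K := by
    intro g x
    apply hLK
    rw [Subgroup.mem_subgroupOf]
    refine le_sup_right (a := ⁅N, N⁆) ?_
    rw [Subgroup.commutator_comm]
    exact Subgroup.commutator_mem_commutator (Subgroup.mem_top g) x.2
  have hKn : K.Normal := by
    constructor
    intro x hx y
    have : y * x * y⁻¹ = vlComm (y : G) (x : G) * x := by
      apply Subtype.ext
      simp [commutatorElement_def]
    rw [this]
    exact K.mul_mem (hmemL _ _) hx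
  have hQ : Nat.card (↥D ⧸ K) = p := by
    have h := Subgroup.card_eq_card_quotient_mul_card_subgroup K
    rw [hn, hKcard] at h
    have hp := (Fact.out : p.Prime)
    have hn1 : p ^ n = p * p ^ (n - 1) := by
      rw [← pow_succ']
      congr 1
      omega
    have hpos : 0 < p ^ (n - 1) := pow_pos hp.pos _
    exact Nat.eq_of_mul_eq_mul_right hpos (by rw [← h, hn1])
  let e : (↥D ⧸ K) ≃* VLC p := mulEquivOfPrimeCardEq hQ (vl_card_C p)
  let ξ : ↥D →* VLC p := e.toMonoidHom.comp (QuotientGroup.mk' K)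
  have hξ : ∀ x : ↥D, ξ x = 1 ↔ x ∈ K := by
    intro x
    simp [ξ, QuotientGroup.eq_one_iff]
  have hinv : ∀ (g : G) (x : ↥D), ξ (vlConj g x) = ξ x := by
    intro g x
    have : vlConj g x = vlComm g (x : G) * x := by
      apply Subtype.ext
      simp [commutatorElement_def]
    rw [this, map_mul, (hξ _).2 (hmemL g x), one_mul]
  let β₁ : G → G →* VLC p := fun g => MonoidHom.mk' (fun h => ξ (vlComm g h)) (by
    intro h h'
    show ξ (vlComm g (h * h')) = ξ (vlComm g h) * ξ (vlComm g h')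
    rw [vlComm_mul_right, map_mul, hinv])
  let β : G →* (G →* VLC p) := MonoidHom.mk' β₁ (by
    intro g g'
    ext h
    show ξ (vlComm (g * g') h) = ξ (vlComm g h) * ξ (vlComm g' h)
    rw [vlComm_mul_left, map_mul, hinv, mul_comm])
  have hβ : ∀ g h, β g h = ξ (vlComm g h) := fun g h => rfl
  refine ⟨β, ⟨ξ, hβ⟩, ?_, ?_⟩
  · intro h1
    have hall : ∀ x : ↥D, ξ x = 1 := by
      apply vl_xi_eq_one_of_gen ξ ⊤ rfl
      intro m _ n _
      rw [← hβ, h1]
      rfl
    apply hL'ne
    apply le_antisymm le_top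
    intro x _
    have hxK : x ∈ K := (hξ x).1 (hall x)
    by_contra hx
    have hKtop : K = ⊤ := by
      rw [eq_top_iff]
      intro y _
      exact (hξ y).1 (hall y)
    have : Nat.card K = Nat.card D := by rw [hKtop]; exact Subgroup.card_top
    rw [hKcard, hn] at this
    have hp := (Fact.out : p.Prime)
    have := Nat.pow_right_injective hp.two_le this
    omega
  · intro m hm n hn'
    rw [hβ, hξ]
    apply hLK
    rw [Subgroup.mem_subgroupOf]
    exact le_sup_left (b := ⁅D, (⊤ : Subgroup G)⁆) (Subgroup.commutator_mem_commutator hm hn')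

end exist

end Cfsg.Agent.Helper2
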