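import Cfsg.Agent.Helper2.VL1

set_option autoImplicit false

/-!
# Vaughan-Lee's breadth theorem: the counting lemma

If an index-`p` subgroup `ker χ₀` of a finite `p`-group has the same commutator subgroup as the group,
so does another index-`p` subgroup.
-/

namespace Cfsg.Agent.Helper2

open Subgroup Finset
open scoped commutatorElement

/-- A finite subset of a group stable under right multiplication by a nontrivial element of order
dividing `p` has cardinality divisible by `p`. -/
theorem vl_card_dvd_of_mul_closed {X : Type*} [Group X] (T : Finset X) (ψ : X) (p : ℕ)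
    [Fact p.Prime] (hψp : ψ ^ p = 1) (hψ : ψ ≠ 1) (hT : ∀ χ ∈ T, χ * ψ ∈ T) : p ∣ T.card := by
  classical
  let f : Function.End ↥T := fun x => ⟨x.1 * ψ, hT x.1 x.2⟩
  have hpow : ∀ (k : ℕ) (x : ↥T), ((f ^ k) x).1 = x.1 * ψ ^ k := by
    intro k
    induction k with
    | zero => intro x; rw [pow_zero, pow_zero, mul_one]; rfl
    | succ k ih =>
      intro x
      rw [pow_succ]
      show ((f ^ k) (f x)).1 = _
      rw [ih]
      show x.1 * ψ * ψ ^ k = _
      rw [pow_succ', mul_assoc]
  have hf : f ^ p ^ 1 = 1 := by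
    rw [pow_one]
    funext x
    apply Subtype.ext
    rw [hpow, hψp, mul_one]
    rfl
  have h := Equiv.Perm.card_fixedPoints_modEq (p := p) hf
  have hfix : Fintype.card (Function.fixedPoints f) = 0 := by
    rw [Fintype.card_eq_zero_iff]
    constructor
    rintro ⟨x, hx⟩
    have h1 : x.1 * ψ = x.1 := congrArg Subtype.val hx
    exact hψ (by simpa using h1)
  rw [hfix, Fintype.card_coe] at h
  exact (Nat.modEq_zero_iff_dvd).1 h

section

variable {G : Type*} [Group G] {p : ℕ} [Fact p.Prime]

/-- The forms vanishing on `ker χ` are stable under `χ ↦ χ * β(·, t)`. -/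
theorem vl_form_shift {β : G →* (G →* VLC p)} (hβ : β ∈ vlForms G p) (χ : G →* VLC p) (t : G)
    (ht : χ t ≠ 1) (hv : ∀ m n, χ m = 1 → χ n = 1 → β m n = 1) (g h : G)
    (hg : (χ * β.flip t) g = 1) (hh : (χ * β.flip t) h = 1) : β g h = 1 := by
  obtain ⟨m, i, hm, rfl, -⟩ := vl_decomp χ t ht g
  obtain ⟨n, j, hn, rfl, -⟩ := vl_decomp χ t ht h
  have htt : β t t = 1 := vl_form_self hβ t
  have h1 : β m t = ((χ t) ^ i)⁻¹ := by
    have : β m t * (χ t) ^ i = 1 := by
      simpa [MonoidHom.mul_apply, MonoidHom.flip_apply, map_mul, map_pow, hm, htt] using hg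
    exact eq_inv_of_mul_eq_one_left this
  have h2 : β n t = ((χ t) ^ j)⁻¹ := by
    have : β n t * (χ t) ^ j = 1 := by
      simpa [MonoidHom.mul_apply, MonoidHom.flip_apply, map_mul, map_pow, hn, htt] using hh
    exact eq_inv_of_mul_eq_one_left this
  rw [vl_form_expand hβ, hv m n hm hn, h1, h2, inv_inv, inv_pow, ← pow_mul, ← pow_mul, one_mul,
    mul_comm j i, inv_mul_cancel]

/-- If a form vanishes on `ker χ` and on `(·, t)` it is trivial. -/
theorem vl_form_flip_ne_one {β : G →* (G →* VLC p)} (hβ : β ∈ vlForms G p) (hβ1 : β ≠ 1)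
    (χ : G →* VLC p) (t : G) (ht : χ t ≠ 1) (hv : ∀ m n, χ m = 1 → χ n = 1 → β m n = 1) :
    β.flip t ≠ 1 := by
  intro hflip
  apply hβ1
  have hgt : ∀ g, β g t = 1 := fun g => by
    have := congrArg (fun ψ : G →* VLC p => ψ g) hflip
    simpa [MonoidHom.flip_apply] using this
  ext g h
  obtain ⟨m, i, hm, rfl, -⟩ := vl_decomp χ t ht g
  obtain ⟨n, j, hn, rfl, -⟩ := vl_decomp χ t ht h
  rw [vl_form_expand hβ, hv m n hm hn, hgt m, hgt n]
  simp

/-- A nontrivial homomorphism to `C_p` killing a given element, for non-abelian `p`-groups. -/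
theorem vl_exists_hom [Finite G] (hG : IsPGroup p G) (hne : commutator G ≠ ⊥) (t : G) :
    ∃ ψ : G →* VLC p, ψ ≠ 1 ∧ ψ t = 1 := by
  have h0 : ⁅(⊥ : Subgroup G), (⊥ : Subgroup G)⁆ ≠ commutator G := by
    rw [Subgroup.commutator_bot_left]
    exact fun h => hne h.symm
  obtain ⟨β, hβ, hβ1, -⟩ := vl_exists_form hG ⊥ h0
  have hex : ∃ g h, β g h ≠ 1 := by
    by_contra hcon
    push Not at hcon
    apply hβ1
    ext g h
    simpa using hcon g h
  obtain ⟨g, h, hgh⟩ := hex
  by_cases hth : β t h = 1
  · refine ⟨β.flip h, ?_, by simpa [MonoidHom.flip_apply] using hth⟩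
    intro hflip
    apply hgh
    have := congrArg (fun ψ : G →* VLC p => ψ g) hflip
    simpa [MonoidHom.flip_apply] using this
  · refine ⟨β.flip t, ?_, by simpa [MonoidHom.flip_apply] using vl_form_self hβ t⟩
    intro hflip
    apply hth
    have := congrArg (fun ψ : G →* VLC p => ψ h) hflip
    have h1 : β h t = 1 := by simpa [MonoidHom.flip_apply] using this
    rw [vl_form_swap hβ h t, h1, inv_one]

theorem vl_bihom_pow (β : G →* (G →* VLC p)) : β ^ p = 1 := by
  ext g h
  simp only [MonoidHom.pow_apply, MonoidHom.one_apply]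
  exact congrArg _ (vl_pow_p p (β g h))

/-- The counting lemma. -/
theorem vl_lemmaC [Finite G] (hG : IsPGroup p G) (χ₀ : G →* VLC p) (t : G) (ht : χ₀ t ≠ 1)
    (h0 : ⁅χ₀.ker, χ₀.ker⁆ = commutator G) (hne : commutator G ≠ ⊥) :
    ∃ χ : G →* VLC p, χ ≠ χ₀ ∧ χ t = χ₀ t ∧ ⁅χ.ker, χ.ker⁆ = commutator G := by
  classical
  have hp := (Fact.out : p.Prime)
  have : NeZero p := ⟨hp.ne_zero⟩
  have hfin1 : Finite (G →* VLC p) :=
    Finite.of_injective (fun f : G →* VLC p => (f : G → VLC p)) DFunLike.coe_injective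
  have hfin2 : Finite (G →* (G →* VLC p)) :=
    Finite.of_injective (fun f : G →* (G →* VLC p) => (f : G → (G →* VLC p)))
      DFunLike.coe_injective
  let : Fintype (G →* VLC p) := Fintype.ofFinite _
  let : Fintype (G →* (G →* VLC p)) := Fintype.ofFinite _
  set ζ := χ₀ t with hζ
  let R : (G →* VLC p) → (G →* (G →* VLC p)) → Prop := fun χ β =>
    β ∈ vlForms G p ∧ ∀ m n, χ m = 1 → χ n = 1 → β m n = 1
  let A : Finset (G →* VLC p) := Finset.univ.filter (fun χ => χ t = ζ)
  let B : Finset (G →* (G →* VLC p)) := Finset.univ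
  let good : (G →* VLC p) → Prop := fun χ => ∀ β, R χ β → β = 1
  -- the right-hand count
  have hright : ∀ β ∈ B, p ∣ (A.bipartiteBelow R β).card := by
    intro β _
    by_cases hβ : β ∈ vlForms G p
    · by_cases hβ1 : β = 1
      · obtain ⟨ψ, hψ1, hψt⟩ := vl_exists_hom hG hne t
        apply vl_card_dvd_of_mul_closed _ ψ p _ hψ1
        · intro χ hχ
          simp only [Finset.bipartiteBelow, Finset.mem_filter, A, Finset.mem_univ, true_and, R]
            at hχ ⊢
          refine ⟨by rw [MonoidHom.mul_apply, hχ.1, hψt, mul_one], hβ, ?_⟩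
          intro m n _ _
          rw [hβ1]; rfl
        · ext g
          simp only [MonoidHom.pow_apply, MonoidHom.one_apply]
          exact vl_pow_p p (ψ g)
      · by_cases hemp : (A.bipartiteBelow R β) = ∅
        · rw [hemp]; simp
        · obtain ⟨χ₁, hχ₁⟩ := Finset.nonempty_iff_ne_empty.2 hemp
          simp only [Finset.bipartiteBelow, Finset.mem_filter, A, Finset.mem_univ, true_and, R]
            at hχ₁
          have hψ1 : β.flip t ≠ 1 :=
            vl_form_flip_ne_one hβ hβ1 χ₁ t (by rw [hχ₁.1]; exact ht) hχ₁.2.2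
          apply vl_card_dvd_of_mul_closed _ (β.flip t) p _ hψ1
          · intro χ hχ
            simp only [Finset.bipartiteBelow, Finset.mem_filter, A, Finset.mem_univ, true_and, R]
              at hχ ⊢
            refine ⟨?_, hβ, ?_⟩
            · rw [MonoidHom.mul_apply, hχ.1, MonoidHom.flip_apply, vl_form_self hβ, mul_one]
            · intro m n hm hn
              exact vl_form_shift hβ χ t (by rw [hχ.1]; exact ht) hχ.2.2 m n hm hn
          · ext g
            simp only [MonoidHom.pow_apply, MonoidHom.one_apply]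
            exact vl_pow_p p _
    · have : A.bipartiteBelow R β = ∅ := by
        apply Finset.eq_empty_of_forall_notMem
        intro χ hχ
        simp only [Finset.bipartiteBelow, Finset.mem_filter, R] at hχ
        exact hβ hχ.2.1
      rw [this]; simp
  have hsumR : p ∣ ∑ β ∈ B, (A.bipartiteBelow R β).card := Finset.dvd_sum hright
  rw [← Finset.sum_card_bipartiteAbove_eq_sum_card_bipartiteBelow] at hsumR
  -- the left-hand count
  have hP : IsPGroup p (G →* (G →* VLC p)) := fun β => ⟨1, by rw [pow_one]; exact vl_bihom_pow β⟩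
  have hleft : ∀ χ ∈ A, (B.bipartiteAbove R χ).card % p = (if good χ then 1 else 0) % p := by
    intro χ _
    let Ξ : Subgroup (G →* (G →* VLC p)) :=
      { carrier := {β | R χ β}
        mul_mem' := by
          rintro β β' ⟨h1, h2⟩ ⟨h1', h2'⟩
          refine ⟨(vlForms G p).mul_mem h1 h1', fun m n hm hn => ?_⟩
          rw [MonoidHom.mul_apply, MonoidHom.mul_apply, h2 m n hm hn, h2' m n hm hn, one_mul]
        one_mem' := ⟨(vlForms G p).one_mem, fun m n _ _ => rfl⟩
        inv_mem' := by
          rintro β ⟨h1, h2⟩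
          refine ⟨(vlForms G p).inv_mem h1, fun m n hm hn => ?_⟩
          rw [MonoidHom.inv_apply, MonoidHom.inv_apply, h2 m n hm hn, inv_one] }
    have hcard : (B.bipartiteAbove R χ).card = Nat.card Ξ := by
      rw [← Nat.subtype_card (p := fun β => β ∈ Ξ) (B.bipartiteAbove R χ)]
      intro β
      simp only [Finset.bipartiteAbove, Finset.mem_filter, B, Finset.mem_univ, true_and]
      rfl
    rw [hcard]
    by_cases hgood : good χ
    · rw [if_pos hgood]
      have : Ξ = ⊥ := by
        rw [eq_bot_iff]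
        intro β hβ
        exact Subgroup.mem_bot.2 (hgood β hβ)
      rw [this, Subgroup.card_bot]
    · rw [if_neg hgood]
      rcases (hP.to_subgroup Ξ).card_eq_or_dvd with h1 | h1
      · exfalso
        apply hgood
        intro β hβ
        have hbot := Subgroup.eq_bot_of_card_eq Ξ h1
        have : β ∈ Ξ := hβ
        rw [hbot] at this
        exact Subgroup.mem_bot.1 this
      · rw [Nat.zero_mod]
        exact Nat.mod_eq_zero_of_dvd h1
  have hgoodcard : p ∣ (A.filter good).card := by
    have h1 : (∑ χ ∈ A, (B.bipartiteAbove R χ).card) % p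
        = (∑ χ ∈ A, if good χ then 1 else 0) % p := by
      rw [Finset.sum_nat_mod, Finset.sum_nat_mod (f := fun χ => if good χ then 1 else 0)]
      congr 1
      exact Finset.sum_congr rfl hleft
    rw [Finset.card_filter]
    rw [Nat.dvd_iff_mod_eq_zero] at hsumR ⊢
    rw [← h1, hsumR]
  -- χ₀ is good
  have hχ₀ : χ₀ ∈ A.filter good := by
    simp only [Finset.mem_filter, A, Finset.mem_univ, true_and, good, R]
    refine ⟨rfl, ?_⟩
    rintro β ⟨hβ, hv⟩
    exact vl_form_gen hβ χ₀.ker h0 (fun m hm n hn => hv m n (MonoidHom.mem_ker.1 hm)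
      (MonoidHom.mem_ker.1 hn))
  have hcard2 : 1 < (A.filter good).card := by
    have hpos : 0 < (A.filter good).card := Finset.card_pos.2 ⟨χ₀, hχ₀⟩
    have := Nat.le_of_dvd hpos hgoodcard
    exact lt_of_lt_of_le hp.one_lt this
  obtain ⟨χ, hχ, hχne⟩ := Finset.exists_mem_ne hcard2 χ₀
  simp only [Finset.mem_filter, A, Finset.mem_univ, true_and, good, R] at hχ
  refine ⟨χ, hχne, hχ.1, ?_⟩
  by_contra hcon
  obtain ⟨β, hβ, hβ1, hv⟩ := vl_exists_form hG χ.ker hcon
  exact hβ1 (hχ.2 β ⟨hβ, fun m n hm hn => hv m (MonoidHom.mem_ker.2 hm) n (MonoidHom.mem_ker.2 hn)⟩)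

end

end Cfsg.Agent.Helper2
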