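import Cfsg.Agent.Helper2.VL2

set_option autoImplicit false

/-!
# Vaughan-Lee's breadth theorem: the induction

If all elements outside an index-`p` subgroup of a finite `p`-group have at most `p ^ b` conjugates,
the commutator subgroup has order at most `p ^ (b (b + 1) / 2)`.
-/

namespace Cfsg.Agent.Helper2

open Subgroup
open scoped commutatorElement

universe u

section chain

/-- A group with a commutative normal subgroup `A` and `Q = A ⟨s⟩`: the commutator subgroup has at most
as many elements as `s` has conjugates. -/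
theorem vl_chain_abelian {Q : Type*} [Group Q] [Finite Q] (A : Subgroup Q) [hAn : A.Normal]
    (hA : ∀ a ∈ A, ∀ b ∈ A, a * b = b * a) (s : Q)
    (hgen : ∀ q : Q, ∃ a ∈ A, ∃ i : ℕ, q = a * s ^ i) :
    Nat.card (commutator Q) ≤ (Subgroup.centralizer ({s} : Set Q)).index := by
  classical
  let R : Subgroup Q :=
    { carrier := {x | ∃ a ∈ A, x = ⁅a, s⁆}
      mul_mem' := by
        rintro x y ⟨a, ha, rfl⟩ ⟨b, hb, rfl⟩
        refine ⟨a * b, A.mul_mem ha hb, ?_⟩
        have ha' : s * a⁻¹ * s⁻¹ ∈ A := hAn.conj_mem _ (A.inv_mem ha) s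
        have hb' : s * b⁻¹ * s⁻¹ ∈ A := hAn.conj_mem _ (A.inv_mem hb) s
        have e1 : ⁅a, s⁆ = a * (s * a⁻¹ * s⁻¹) := by
          simp only [commutatorElement_def]; group
        have e2 : ⁅b, s⁆ = b * (s * b⁻¹ * s⁻¹) := by
          simp only [commutatorElement_def]; group
        have e3 : ⁅a * b, s⁆ = a * ((b * (s * b⁻¹ * s⁻¹)) * (s * a⁻¹ * s⁻¹)) := by
          simp only [commutatorElement_def]; group
        rw [e1, e2, e3, mul_assoc a, hA _ ha' _ (A.mul_mem hb hb')]
      one_mem' := ⟨1, A.one_mem, by simp⟩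
      inv_mem' := by
        rintro x ⟨a, ha, rfl⟩
        refine ⟨a⁻¹, A.inv_mem ha, ?_⟩
        have ha' : s * a * s⁻¹ ∈ A := hAn.conj_mem _ ha s
        have e1 : ⁅a, s⁆⁻¹ = (s * a * s⁻¹) * a⁻¹ := by
          simp only [commutatorElement_def]; group
        have e2 : ⁅a⁻¹, s⁆ = a⁻¹ * (s * a * s⁻¹) := by
          simp only [commutatorElement_def]; group
        rw [e1, e2, hA _ ha' _ (A.inv_mem ha)] }
  have hRmem : ∀ x, x ∈ R ↔ ∃ a ∈ A, x = ⁅a, s⁆ := fun x => Iff.rfl
  have hpow : ∀ a ∈ A, ∀ j : ℕ, ⁅a, s ^ j⁆ ∈ R := by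
    intro a ha j
    induction j with
    | zero => simp
    | succ j ih =>
      have e : ⁅a, s ^ (j + 1)⁆ = ⁅a, s ^ j⁆ * ⁅s ^ j * a * (s ^ j)⁻¹, s⁆ := by
        simp only [commutatorElement_def, pow_succ]; group
      rw [e]
      exact R.mul_mem ih ((hRmem _).2 ⟨_, hAn.conj_mem a ha (s ^ j), rfl⟩)
  have hcomm : commutator Q ≤ R := by
    rw [_root_.commutator_def, Subgroup.commutator_le]
    intro q _ q' _
    obtain ⟨a, ha, i, rfl⟩ := hgen q
    obtain ⟨b, hb, j, rfl⟩ := hgen q'
    have hB : s ^ i * b * (s ^ i)⁻¹ ∈ A := hAn.conj_mem b hb (s ^ i)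
    have hA' : s ^ j * a⁻¹ * (s ^ j)⁻¹ ∈ A := hAn.conj_mem _ (A.inv_mem ha) (s ^ j)
    have eL : ⁅a * s ^ i, b * s ^ j⁆
        = a * ((s ^ i * b * (s ^ i)⁻¹) * (s ^ j * a⁻¹ * (s ^ j)⁻¹)) * b⁻¹ := by
      simp only [commutatorElement_def]; group
    have eR : ⁅a, s ^ j⁆ * ⁅b, s ^ i⁆⁻¹
        = a * ((s ^ j * a⁻¹ * (s ^ j)⁻¹) * (s ^ i * b * (s ^ i)⁻¹)) * b⁻¹ := by
      simp only [commutatorElement_def]; group
    rw [eL, hA _ hB _ hA', ← eR]
    exact R.mul_mem (hpow a ha j) (R.inv_mem (hpow b hb i))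
  -- counting
  have hex : ∀ x : ↥(commutator Q), ∃ a ∈ A, (x : Q) = ⁅a, s⁆ := fun x => (hRmem _).1 (hcomm x.2)
  let φ : ↥(commutator Q) → Q ⧸ Subgroup.centralizer ({s} : Set Q) :=
    fun x => ((Classical.choose (hex x) : Q) : Q ⧸ Subgroup.centralizer ({s} : Set Q))
  have hφ : Function.Injective φ := by
    intro x y hxy
    have hx := (Classical.choose_spec (hex x)).2
    have hy := (Classical.choose_spec (hex y)).2
    have hz : (Classical.choose (hex x))⁻¹ * Classical.choose (hex y)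
        ∈ Subgroup.centralizer ({s} : Set Q) := QuotientGroup.eq.1 hxy
    rw [Subgroup.mem_centralizer_singleton_iff] at hz
    apply Subtype.ext
    rw [hx, hy]
    set a := Classical.choose (hex x)
    set a' := Classical.choose (hex y)
    have h1 : (a⁻¹ * a') * s * (a⁻¹ * a')⁻¹ = s := mul_inv_eq_of_eq_mul hz
    have h2 : ⁅a', s⁆ = a * ((a⁻¹ * a') * s * (a⁻¹ * a')⁻¹) * a⁻¹ * s⁻¹ := by
      simp only [commutatorElement_def]; group
    rw [h2, h1, commutatorElement_def]
  exact Nat.card_le_card_of_injective φ hφ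

variable {G : Type*} [Group G]

/-- The chain inequality: `|G'| ≤ |M'| · |G : C_G(t)|` when `G = M ⟨t⟩` with `M` normal. -/
theorem vl_chain [Finite G] (M : Subgroup G) [hMn : M.Normal] (t : G)
    (hgen : ∀ g : G, ∃ m ∈ M, ∃ i : ℕ, g = m * t ^ i) :
    Nat.card (commutator G)
      ≤ Nat.card (⁅M, M⁆ : Subgroup G) * (Subgroup.centralizer ({t} : Set G)).index := by
  set N : Subgroup G := ⁅M, M⁆ with hN
  let f : G →* G ⧸ N := QuotientGroup.mk' N
  have hf : Function.Surjective f := QuotientGroup.mk'_surjective N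
  have hmap : (commutator G).map f = commutator (G ⧸ N) := by
    rw [_root_.commutator_def, _root_.commutator_def, Subgroup.map_commutator,
      Subgroup.map_top_of_surjective f hf]
  have hNle : N ≤ commutator G := Subgroup.commutator_mono le_top le_top
  have h1 : Nat.card (commutator G) = Nat.card (commutator (G ⧸ N)) * Nat.card N := by
    have hs := f.subgroupMap_surjective (commutator G)
    have e := QuotientGroup.quotientKerEquivOfSurjective _ hs
    have hk : (f.subgroupMap (commutator G)).ker = N.subgroupOf (commutator G) := by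
      rw [Subgroup.ker_subgroupMap, QuotientGroup.ker_mk']
    have e1 : Nat.card ↥((commutator G).map f) = Nat.card ↥(commutator (G ⧸ N)) := by rw [hmap]
    have e2 : Nat.card ↥(f.subgroupMap (commutator G)).ker = Nat.card N := by
      rw [hk]
      exact Nat.card_congr (Subgroup.subgroupOfEquivOfLe hNle).toEquiv
    rw [Subgroup.card_eq_card_quotient_mul_card_subgroup (f.subgroupMap (commutator G)).ker,
      Nat.card_congr e.toEquiv, e1, e2]
  have : (M.map f).Normal := hMn.map f hf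
  have hA : ∀ a ∈ M.map f, ∀ b ∈ M.map f, a * b = b * a := by
    rintro _ ⟨m, hm, rfl⟩ _ ⟨n, hn, rfl⟩
    rw [← map_mul, ← map_mul]
    apply QuotientGroup.eq.2
    have : (m * n)⁻¹ * (n * m) = ⁅n⁻¹, m⁻¹⁆ := by
      simp only [commutatorElement_def]; group
    rw [this]
    exact Subgroup.commutator_mem_commutator (M.inv_mem hn) (M.inv_mem hm)
  have hgenQ : ∀ q : G ⧸ N, ∃ a ∈ M.map f, ∃ i : ℕ, q = a * (f t) ^ i := by
    intro q
    obtain ⟨g, rfl⟩ := hf q
    obtain ⟨m, hm, i, rfl⟩ := hgen g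
    exact ⟨f m, Subgroup.mem_map_of_mem f hm, i, by simp⟩
  have h2 := vl_chain_abelian (M.map f) hA (f t) hgenQ
  have h3 : (Subgroup.centralizer ({f t} : Set (G ⧸ N))).index
      ≤ (Subgroup.centralizer ({t} : Set G)).index := by
    have hle : (Subgroup.centralizer ({t} : Set G)).map f
        ≤ Subgroup.centralizer ({f t} : Set (G ⧸ N)) := by
      have := Subgroup.map_centralizer_le_centralizer_image ({t} : Set G) f
      simpa using this
    exact Nat.le_of_dvd (Nat.pos_of_ne_zero Subgroup.index_ne_zero_of_finite)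
      (dvd_trans (Subgroup.index_dvd_of_le hle) (Subgroup.index_map_dvd _ hf))
  rw [h1, mul_comm]
  exact Nat.mul_le_mul_left _ (h2.trans h3)

theorem vl_card_commutator_subgroup (M : Subgroup G) :
    Nat.card (commutator ↥M) = Nat.card (⁅M, M⁆ : Subgroup G) := by
  rw [← Subgroup.map_subtype_commutator M]
  exact (Subgroup.card_map_of_injective M.subtype_injective).symm

theorem vl_centralizer_subgroup (M : Subgroup G) (x : ↥M) :
    Subgroup.centralizer ({x} : Set ↥M)
      = (Subgroup.centralizer ({(x : G)} : Set G)).subgroupOf M := by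
  ext y
  rw [Subgroup.mem_centralizer_singleton_iff, Subgroup.mem_subgroupOf,
    Subgroup.mem_centralizer_singleton_iff]
  constructor
  · intro h
    have := congrArg Subtype.val h
    simpa using this
  · intro h
    exact Subtype.ext (by simpa using h)

end chain

section caseB

variable {G : Type*} [Group G] {p : ℕ} [Fact p.Prime]

/-- If `ker χ₀` has a smaller commutator subgroup than `G`, there is an index-`p` subgroup `ker χ`
through `t` containing the centralizers of all its elements outside `ker χ₀`. -/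
theorem vl_caseB [Finite G] (hG : IsPGroup p G) (χ₀ : G →* VLC p) (t : G) (ht : χ₀ t ≠ 1)
    (h : ⁅χ₀.ker, χ₀.ker⁆ ≠ commutator G) :
    ∃ χ : G →* VLC p, χ ≠ 1 ∧ χ t = 1 ∧
      ∀ x, χ x = 1 → χ₀ x ≠ 1 → Subgroup.centralizer ({x} : Set G) ≤ χ.ker := by
  obtain ⟨β, hβ, hβ1, hv⟩ := vl_exists_form hG χ₀.ker h
  have hv' : ∀ m n, χ₀ m = 1 → χ₀ n = 1 → β m n = 1 := fun m n hm hn =>
    hv m (MonoidHom.mem_ker.2 hm) n (MonoidHom.mem_ker.2 hn)
  have htt : β t t = 1 := vl_form_self hβ t
  refine ⟨β.flip t, vl_form_flip_ne_one hβ hβ1 χ₀ t ht hv', by simpa [MonoidHom.flip_apply] using htt,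
    ?_⟩
  intro x hx hx0 c hc
  rw [Subgroup.mem_centralizer_singleton_iff] at hc
  rw [MonoidHom.mem_ker, MonoidHom.flip_apply]
  rw [MonoidHom.flip_apply] at hx
  obtain ⟨m, i, hm, rfl, hxi⟩ := vl_decomp χ₀ t ht x
  obtain ⟨n, j, hn, rfl, -⟩ := vl_decomp χ₀ t ht c
  have hmt : β m t = 1 := by
    simpa [map_mul, map_pow, MonoidHom.mul_apply, MonoidHom.pow_apply, htt] using hx
  have hcx : β (n * t ^ j) (m * t ^ i) = 1 := vl_form_comm hβ hc
  rw [vl_form_expand hβ, hv' n m hn hm, hmt] at hcx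
  have hnt : β n t = 1 := by
    have h1 : (β n t) ^ i = 1 := by simpa using hcx
    rw [hxi] at hx0
    exact vl_eq_one_of_pow h1 hx0
  simp [map_mul, map_pow, MonoidHom.mul_apply, MonoidHom.pow_apply, htt, hnt]

end caseB

end Cfsg.Agent.Helper2
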