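import Cfsg.Agent.Helper2.VL3

set_option autoImplicit false

/-!
# Vaughan-Lee's breadth theorem

If all elements outside an index-`p` subgroup `ker χ₀` of a finite `p`-group have at most `p ^ b`
conjugates, the commutator subgroup has order at most `p ^ (b (b + 1) / 2)`.
-/

namespace Cfsg.Agent.Helper2

open Subgroup
open scoped commutatorElement

universe u

theorem vl_card_lt_of_ne_top {G : Type*} [Group G] [Finite G] (M : Subgroup G) (hM : M ≠ ⊤) :
    Nat.card M < Nat.card G := by
  rcases lt_or_eq_of_le (Subgroup.card_le_card_group M) with h | h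
  · exact h
  · exact absurd (Subgroup.eq_top_of_card_eq M h) hM

theorem vl_exists_ne_one {G : Type*} [Group G] {p : ℕ} (χ : G →* VLC p) (hχ : χ ≠ 1) :
    ∃ g, χ g ≠ 1 := by
  by_contra hcon
  push Not at hcon
  apply hχ
  ext g
  simpa using hcon g

theorem vl_index_ker {G : Type*} [Group G] {p : ℕ} [Fact p.Prime] (χ : G →* VLC p) (hχ : χ ≠ 1) :
    χ.ker.index = p := by
  rw [Subgroup.index_ker]
  have : Fact (Nat.card (VLC p)).Prime := ⟨by rw [vl_card_C]; exact Fact.out⟩
  rcases Subgroup.eq_bot_or_eq_top_of_prime_card χ.range with h | h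
  · exfalso
    obtain ⟨g, hg⟩ := vl_exists_ne_one χ hχ
    apply hg
    have : χ g ∈ χ.range := ⟨g, rfl⟩
    rw [h] at this
    exact Subgroup.mem_bot.1 this
  · rw [h, Subgroup.card_top, vl_card_C]

theorem vl_arith (b : ℕ) : (b + 1) * (b + 1 + 1) / 2 = b * (b + 1) / 2 + (b + 1) := by
  have : (b + 1) * (b + 1 + 1) = b * (b + 1) + 2 * (b + 1) := by ring
  rw [this, Nat.add_mul_div_left _ _ (by norm_num : 0 < 2)]

/-- Vaughan-Lee's theorem, in a form suitable for induction. -/
theorem vl_main (p : ℕ) [Fact p.Prime] : ∀ (n : ℕ) (G : Type u) [Group G] [Finite G],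
    Nat.card G = n → IsPGroup p G → ∀ χ₀ : G →* VLC p, χ₀ ≠ 1 → ∀ b : ℕ,
    (∀ x, χ₀ x ≠ 1 → (Subgroup.centralizer ({x} : Set G)).index ≤ p ^ b) →
    Nat.card (commutator G) ≤ p ^ (b * (b + 1) / 2) := by
  intro n
  induction n using Nat.strong_induction_on with
  | _ n ih =>
  intro G _ _ hn hG χ₀ hχ₀ b hb
  have hp := (Fact.out : p.Prime)
  obtain ⟨t, ht⟩ := vl_exists_ne_one χ₀ hχ₀
  by_cases hab : commutator G = ⊥
  · rw [hab, Subgroup.card_bot]
    exact Nat.one_le_pow _ _ hp.pos
  by_cases h0 : ⁅χ₀.ker, χ₀.ker⁆ = commutator G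
  · -- another index-`p` subgroup with the same commutator subgroup
    obtain ⟨χ, hne, hχt, hχ⟩ := vl_lemmaC hG χ₀ t ht h0 hab
    have hχt' : χ t ≠ 1 := by rw [hχt]; exact ht
    have hMtop : χ.ker ≠ ⊤ := by
      intro h
      have : t ∈ χ.ker := by rw [h]; exact Subgroup.mem_top t
      exact hχt' (MonoidHom.mem_ker.1 this)
    have hlt : Nat.card χ.ker < n := hn ▸ vl_card_lt_of_ne_top _ hMtop
    have hres : χ₀.comp χ.ker.subtype ≠ 1 := by
      obtain ⟨g, hg⟩ : ∃ g, χ g ≠ χ₀ g := by
        by_contra hcon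
        push Not at hcon
        exact hne (MonoidHom.ext hcon)
      obtain ⟨m, i, hm, rfl, hgi⟩ := vl_decomp χ t hχt' g
      intro h1
      apply hg
      have h2 : χ₀ m = 1 := by
        have := congrArg (fun ψ : ↥χ.ker →* VLC p => ψ ⟨m, MonoidHom.mem_ker.2 hm⟩) h1
        simpa using this
      rw [hgi, map_mul, map_pow, h2, one_mul, hχt]
    have hb' : ∀ x : ↥χ.ker, (χ₀.comp χ.ker.subtype) x ≠ 1 →
        (Subgroup.centralizer ({x} : Set ↥χ.ker)).index ≤ p ^ b := by
      intro x hx
      rw [vl_centralizer_subgroup]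
      have h1 : (Subgroup.centralizer ({(x : G)} : Set G)).relIndex χ.ker
          ≤ (Subgroup.centralizer ({(x : G)} : Set G)).index := by
        rw [← Subgroup.relIndex_top_right]
        apply Subgroup.relIndex_le_of_le_right le_top
        rw [Subgroup.relIndex_top_right]
        exact Subgroup.index_ne_zero_of_finite
      exact h1.trans (hb x (by simpa using hx))
    have := ih _ hlt ↥χ.ker rfl (hG.to_subgroup _) _ hres b hb'
    rwa [vl_card_commutator_subgroup, hχ] at this
  · -- an index-`p` subgroup containing the centralizers of its elements outside `ker χ₀`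
    obtain ⟨χ, hχ1, hχt, hval⟩ := vl_caseB hG χ₀ t ht h0
    have hindex : χ.ker.index = p := vl_index_ker χ hχ1
    have hMtop : χ.ker ≠ ⊤ := by
      intro h
      rw [h, Subgroup.index_top] at hindex
      exact hp.one_lt.ne hindex
    have hlt : Nat.card χ.ker < n := hn ▸ vl_card_lt_of_ne_top _ hMtop
    have hres : χ₀.comp χ.ker.subtype ≠ 1 := by
      intro h1
      apply ht
      have := congrArg (fun ψ : ↥χ.ker →* VLC p => ψ ⟨t, MonoidHom.mem_ker.2 hχt⟩) h1
      simpa using this
    have hrel : ∀ x : G, χ x = 1 → χ₀ x ≠ 1 →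
        (Subgroup.centralizer ({x} : Set G)).relIndex χ.ker * p ≤ p ^ b := by
      intro x hx hx0
      have h1 := Subgroup.relIndex_mul_index (hval x hx hx0)
      rw [hindex] at h1
      rw [h1]
      exact hb x hx0
    have hrelpos : ∀ x : G, (Subgroup.centralizer ({x} : Set G)).relIndex χ.ker ≠ 0 := by
      intro x
      have h1 : (Subgroup.centralizer ({x} : Set G)).relIndex χ.ker
          ≤ (Subgroup.centralizer ({x} : Set G)).relIndex ⊤ := by
        apply Subgroup.relIndex_le_of_le_right le_top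
        rw [Subgroup.relIndex_top_right]
        exact Subgroup.index_ne_zero_of_finite
      intro h0'
      have := Subgroup.relIndex_eq_zero_of_le_right (le_top : χ.ker ≤ ⊤) h0'
      rw [Subgroup.relIndex_top_right] at this
      exact Subgroup.index_ne_zero_of_finite this
    obtain ⟨b', rfl⟩ : ∃ b', b = b' + 1 := by
      rcases Nat.eq_zero_or_eq_succ_pred b with h | h
      · exfalso
        have h1 := hrel t hχt ht
        rw [h, pow_zero] at h1
        have h2 := Nat.pos_of_ne_zero (hrelpos t)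
        have h3 := hp.two_le
        nlinarith
      · exact ⟨_, h⟩
    have hb' : ∀ x : ↥χ.ker, (χ₀.comp χ.ker.subtype) x ≠ 1 →
        (Subgroup.centralizer ({x} : Set ↥χ.ker)).index ≤ p ^ b' := by
      intro x hx
      rw [vl_centralizer_subgroup]
      have h1 := hrel (x : G) (MonoidHom.mem_ker.1 x.2) (by simpa using hx)
      rw [pow_succ] at h1
      exact Nat.le_of_mul_le_mul_right h1 hp.pos
    have hM := ih _ hlt ↥χ.ker rfl (hG.to_subgroup _) _ hres b' hb'
    rw [vl_card_commutator_subgroup] at hM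
    -- an element outside both subgroups
    obtain ⟨t', ht'1, ht'0⟩ : ∃ t', χ t' ≠ 1 ∧ χ₀ t' ≠ 1 := by
      obtain ⟨g, hg⟩ := vl_exists_ne_one χ hχ1
      by_cases hg0 : χ₀ g = 1
      · refine ⟨g * t, ?_, ?_⟩
        · rw [map_mul, hχt, mul_one]; exact hg
        · rw [map_mul, hg0, one_mul]; exact ht
      · exact ⟨g, hg, hg0⟩
    have hgen : ∀ g : G, ∃ m ∈ χ.ker, ∃ i : ℕ, g = m * t' ^ i := by
      intro g
      obtain ⟨m, i, hm, hg, -⟩ := vl_decomp χ t' ht'1 g
      exact ⟨m, MonoidHom.mem_ker.2 hm, i, hg⟩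
    have hch := vl_chain χ.ker t' hgen
    calc Nat.card (commutator G)
        ≤ Nat.card (⁅χ.ker, χ.ker⁆ : Subgroup G)
            * (Subgroup.centralizer ({t'} : Set G)).index := hch
      _ ≤ p ^ (b' * (b' + 1) / 2) * p ^ (b' + 1) := Nat.mul_le_mul hM (hb t' ht'0)
      _ = p ^ ((b' + 1) * (b' + 1 + 1) / 2) := by rw [← pow_add, vl_arith]

end Cfsg.Agent.Helper2
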