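import Mathlib
import Cfsg.Prelude.Def_Transfer
import Cfsg.Prelude.Def_PLocal
import Cfsg.Agent.Helper2.PGroup
import Cfsg.Agent.Helper47.Coprime
import Cfsg.Agent.Helper51.OmegaRepl
import Cfsg.Agent.Helper32.PPrime
import Cfsg.Agent.Helper19.ThompsonJ

/-!
# Tools for the `ZJ`-theorem for the elementary abelian Thompson subgroup (helper2)

* `zje_omega_lemma`: for odd `p`, a `p'`-element normalizing a `p`-subgroup `E` and centralizing
  its elements of order dividing `p` centralizes `E`.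
* `zje_le_of_sylow_inf_le`: a normal subgroup `C` lies in `N` as soon as `N` contains `P ⊓ C` for a
  Sylow `p`-subgroup `P` and all the `p'`-elements of `C`.
* transport of `Z(J(X))` along injective homomorphisms, and small facts on quadratic action and
  elementary abelian subgroups.
-/

set_option autoImplicit false

namespace Cfsg.Agent.Helper2

open Cfsg
open scoped commutatorElement

/-- If `x` commutes with `c = e⁻¹ (x e x⁻¹)` then `x ^ k` conjugates `e` to `e c ^ k`. -/
theorem zje_twist_pow {G : Type*} [Group G] (x e : G)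
    (hc : x * (e⁻¹ * (x * e * x⁻¹)) * x⁻¹ = e⁻¹ * (x * e * x⁻¹)) (k : ℕ) :
    x ^ k * e * (x ^ k)⁻¹ = e * (e⁻¹ * (x * e * x⁻¹)) ^ k := by
  induction k with
  | zero => simp
  | succ k ih =>
    have hck : x * (e⁻¹ * (x * e * x⁻¹)) ^ k * x⁻¹ = (e⁻¹ * (x * e * x⁻¹)) ^ k := by
      rw [← conj_pow, hc]
    calc x ^ (k + 1) * e * (x ^ (k + 1))⁻¹ = x * (x ^ k * e * (x ^ k)⁻¹) * x⁻¹ := by
          rw [pow_succ']; group
      _ = x * (e * (e⁻¹ * (x * e * x⁻¹)) ^ k) * x⁻¹ := by rw [ih]
      _ = (x * e * x⁻¹) * (x * (e⁻¹ * (x * e * x⁻¹)) ^ k * x⁻¹) := by group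
      _ = (x * e * x⁻¹) * (e⁻¹ * (x * e * x⁻¹)) ^ k := by rw [hck]
      _ = e * ((e⁻¹ * (x * e * x⁻¹)) * (e⁻¹ * (x * e * x⁻¹)) ^ k) := by
          rw [← mul_assoc e, mul_inv_cancel_left]
      _ = e * (e⁻¹ * (x * e * x⁻¹)) ^ (k + 1) := by rw [← pow_succ']

/-- A `p'`-element `x` commuting with the `p`-element `e⁻¹ (x e x⁻¹)` commutes with `e`. -/
theorem zje_twist_eq_one {G : Type*} [Group G] {p : ℕ} (x e : G)
    (hxo : (orderOf x).Coprime p) (m : ℕ) (hcp : (e⁻¹ * (x * e * x⁻¹)) ^ p ^ m = 1)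
    (hc : x * (e⁻¹ * (x * e * x⁻¹)) * x⁻¹ = e⁻¹ * (x * e * x⁻¹)) : x * e * x⁻¹ = e := by
  have h1 := zje_twist_pow x e hc (orderOf x)
  rw [pow_orderOf_eq_one] at h1
  have h2 : (e⁻¹ * (x * e * x⁻¹)) ^ orderOf x = 1 := by
    have h3 : e = e * (e⁻¹ * (x * e * x⁻¹)) ^ orderOf x := by simpa using h1
    exact mul_eq_left.mp h3.symm
  have h4 : orderOf (e⁻¹ * (x * e * x⁻¹)) = 1 :=
    Nat.eq_one_of_dvd_coprimes (Nat.Coprime.pow_right m hxo) (orderOf_dvd_of_pow_eq_one h2)
      (orderOf_dvd_of_pow_eq_one hcp)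
  have h5 : e⁻¹ * (x * e * x⁻¹) = 1 := orderOf_eq_one_iff.mp h4
  exact (inv_mul_eq_one.mp h5).symm

/-- For odd `p`: a `p'`-element normalizing a `p`-subgroup `E` and centralizing the elements of
order dividing `p` of `E` centralizes `E`. -/
theorem zje_omega_lemma {G : Type*} [Group G] [Finite G] {p : ℕ} [Fact p.Prime] (hp : p ≠ 2)
    (x : G) (hxo : (orderOf x).Coprime p) :
    ∀ (n : ℕ) (E : Subgroup G), Nat.card E ≤ n → IsPGroup p E →
      x ∈ Subgroup.normalizer (E : Set G) → (∀ d ∈ E, d ^ p = 1 → x * d * x⁻¹ = d) →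
      ∀ d ∈ E, x * d * x⁻¹ = d := by
  intro n
  induction n with
  | zero =>
    intro E hcard
    have := Nat.card_pos (α := E)
    omega
  | succ n ih =>
    intro E hcard hE hxE hx
    by_cases hEbot : E = ⊥
    · intro d hd
      rw [hEbot, Subgroup.mem_bot] at hd
      rw [hd]; group
    have hxconj : ∀ e ∈ E, x * e * x⁻¹ ∈ E := fun e he =>
      (Subgroup.mem_normalizer_iff.mp hxE e).mp he
    have hE' : IsPGroup p (↥E) := hE
    obtain ⟨F, hF⟩ : ∃ F : Subgroup G, F = (frattini ↥E).map E.subtype := ⟨_, rfl⟩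
    have hFE : F ≤ E := by rw [hF]; exact Subgroup.map_subtype_le _
    have hFne : F ≠ E := by
      intro h
      have hnt : Nontrivial ↥E := (Subgroup.nontrivial_iff_ne_bot E).mpr hEbot
      have htop : frattini ↥E = ⊤ := by
        rw [eq_top_iff]
        intro y _
        have hy : (y : G) ∈ F := by rw [h]; exact y.2
        rw [hF] at hy
        obtain ⟨z, hz, hzy⟩ := hy
        have : z = y := Subtype.ext hzy
        rw [← this]; exact hz
      obtain ⟨M, hM⟩ : ∃ M : Subgroup ↥E, IsCoatom M := by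
        rcases eq_top_or_exists_le_coatom (⊥ : Subgroup ↥E) with h1 | ⟨M, hM, -⟩
        · exact absurd h1 bot_ne_top
        · exact ⟨M, hM⟩
      have h1 : frattini ↥E ≤ M := frattini_le_coatom hM
      rw [htop] at h1
      exact hM.1 (eq_top_iff.mpr h1)
    have hFcard : Nat.card F ≤ n := by
      have : Nat.card F < Nat.card E := by
        by_contra hge
        push Not at hge
        exact hFne (Subgroup.eq_of_le_of_card_ge hFE hge)
      omega
    have hxF : x ∈ Subgroup.normalizer (F : Set G) := by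
      rw [hF]
      exact Helper47.normalizer_le_normalizer_map_of_characteristic E (frattini ↥E) hxE
    have hFcent : ∀ f ∈ F, x * f * x⁻¹ = f :=
      ih F hFcard (hE.to_le hFE) hxF (fun d hd => hx d (hFE hd))
    have hpowF : ∀ e ∈ E, e ^ p ∈ F := by
      intro e he
      rw [hF]
      exact ⟨⟨e, he⟩ ^ p, Helper2.pow_mem_frattini_of_isPGroup hE' ⟨e, he⟩, rfl⟩
    have hcommF : ∀ a ∈ E, ∀ b ∈ E, a * b * a⁻¹ * b⁻¹ ∈ F := by
      intro a ha b hb
      rw [hF]
      refine ⟨⁅(⟨a, ha⟩ : E), ⟨b, hb⟩⁆, Helper2.commutator_le_frattini_of_isPGroup hE'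
        (Subgroup.commutator_mem_commutator (Subgroup.mem_top _) (Subgroup.mem_top _)), rfl⟩
    have hFnormal : ∀ e ∈ E, ∀ f ∈ F, e * f * e⁻¹ ∈ F := by
      intro e he f hf
      rw [hF] at hf ⊢
      obtain ⟨f', hf', rfl⟩ := hf
      have hn : (frattini ↥E).Normal := inferInstance
      exact ⟨⟨e, he⟩ * f' * ⟨e, he⟩⁻¹, hn.conj_mem f' hf' ⟨e, he⟩, rfl⟩
    -- the subgroup generated by the twisted elements
    obtain ⟨E₁, hE₁⟩ : ∃ E₁ : Subgroup G,
        E₁ = Subgroup.closure {c | ∃ e ∈ E, c = e⁻¹ * (x * e * x⁻¹)} := ⟨_, rfl⟩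
    have hE₁E : E₁ ≤ E := by
      rw [hE₁, Subgroup.closure_le]
      rintro _ ⟨e, he, rfl⟩
      exact E.mul_mem (E.inv_mem he) (hxconj e he)
    have hxE₁ : x ∈ Subgroup.normalizer (E₁ : Set G) := by
      apply Subgroup.mem_normalizer_fintype
      intro c hc
      have hle : E₁ ≤ E₁.comap (MulAut.conj x).toMonoidHom := by
        nth_rewrite 1 [hE₁]
        rw [Subgroup.closure_le]
        rintro _ ⟨e, he, rfl⟩
        rw [SetLike.mem_coe, Subgroup.mem_comap, hE₁]
        apply Subgroup.subset_closure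
        refine ⟨x * e * x⁻¹, hxconj e he, ?_⟩
        simp only [MulEquiv.coe_toMonoidHom, MulAut.conj_apply]
        group
      have := hle hc
      rw [Subgroup.mem_comap] at this
      simpa [MulAut.conj_apply] using this
    have key : ∀ e ∈ E, x * (e⁻¹ * (x * e * x⁻¹)) * x⁻¹ = e⁻¹ * (x * e * x⁻¹) := by
      by_cases hE₁ne : E₁ = E
      · -- `E = [E, x]`: then `Φ(E)` is central and `E` has class at most two
        have hcF : ∀ e ∈ E, ∀ f ∈ F,
            (e⁻¹ * (x * e * x⁻¹)) * f = f * (e⁻¹ * (x * e * x⁻¹)) := by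
          intro e he f hf
          have h1 := hFcent f hf
          have h2 := hFcent (e * f * e⁻¹) (hFnormal e he f hf)
          have h3 : x⁻¹ * f * x = f := by
            calc x⁻¹ * f * x = x⁻¹ * (x * f * x⁻¹) * x := by rw [h1]
              _ = f := by group
          calc (e⁻¹ * (x * e * x⁻¹)) * f
              = e⁻¹ * (x * (e * (x⁻¹ * f * x) * e⁻¹) * x⁻¹) * (x * e * x⁻¹) := by group
            _ = e⁻¹ * (x * (e * f * e⁻¹) * x⁻¹) * (x * e * x⁻¹) := by rw [h3]
            _ = e⁻¹ * (e * f * e⁻¹) * (x * e * x⁻¹) := by rw [h2]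
            _ = f * (e⁻¹ * (x * e * x⁻¹)) := by group
        have hFcentral : ∀ a ∈ E, ∀ f ∈ F, a * f = f * a := by
          intro a ha f hf
          have hle : E₁ ≤ Subgroup.centralizer {f} := by
            rw [hE₁, Subgroup.closure_le]
            rintro _ ⟨e, he, rfl⟩
            rw [SetLike.mem_coe, Subgroup.mem_centralizer_iff]
            intro g hg
            rw [Set.mem_singleton_iff] at hg
            rw [hg]
            exact (hcF e he f hf).symm
          rw [← hE₁ne] at ha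
          exact (Subgroup.mem_centralizer_iff.mp (hle ha) f rfl).symm
        intro e he
        have he' : x * e * x⁻¹ ∈ E := hxconj e he
        have haE : e⁻¹ ∈ E := E.inv_mem he
        have hcF' : (x * e * x⁻¹) * e⁻¹ * (x * e * x⁻¹)⁻¹ * e⁻¹⁻¹ ∈ F :=
          hcommF _ he' _ haE
        have h1 : (x * e * x⁻¹) * e⁻¹ =
            ((x * e * x⁻¹) * e⁻¹ * (x * e * x⁻¹)⁻¹ * e⁻¹⁻¹) * (e⁻¹ * (x * e * x⁻¹)) := by group
        have h2 := (hFcentral _ haE _ hcF').symm
        have h3 := (hFcentral _ he' _ hcF').symm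
        obtain ⟨h4, h5⟩ := Helper51.mul_pow_of_commutator_central _ _ _ h1 h2 h3 p
        have hbp : (x * e * x⁻¹) ^ p = e ^ p := by
          rw [conj_pow]; exact hFcent _ (hpowF e he)
        have hap : e⁻¹ ^ p * (x * e * x⁻¹) ^ p = 1 := by
          rw [hbp, inv_pow, inv_mul_cancel]
        have hcp : ((x * e * x⁻¹) * e⁻¹ * (x * e * x⁻¹)⁻¹ * e⁻¹⁻¹) ^ p = 1 := by
          have h6 : (x * e * x⁻¹) ^ p * e⁻¹ = e⁻¹ * (x * e * x⁻¹) ^ p :=
            (hFcentral _ haE _ (hpowF _ he')).symm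
          rw [h6] at h5
          exact mul_eq_right.mp h5.symm
        have hdvd : p ∣ ∑ i ∈ Finset.range p, i := by
          have h7 := Finset.sum_range_id_mul_two p
          have h8 : p ∣ (∑ i ∈ Finset.range p, i) * 2 := by
            rw [h7]; exact dvd_mul_right _ _
          have hpp := (Fact.out : p.Prime)
          rcases (Nat.Prime.dvd_mul hpp).mp h8 with h | h
          · exact h
          · exfalso
            exact hp ((Nat.prime_dvd_prime_iff_eq hpp Nat.prime_two).mp h)
        obtain ⟨k, hk⟩ := hdvd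
        have hcpow : (e⁻¹ * (x * e * x⁻¹)) ^ p = 1 := by
          rw [h4, hap, hk, pow_mul, hcp, one_pow, one_mul]
        exact hx _ (E.mul_mem haE he') hcpow
      · intro e he
        have hE₁card : Nat.card E₁ ≤ n := by
          have : Nat.card E₁ < Nat.card E := by
            by_contra hge
            push Not at hge
            exact hE₁ne (Subgroup.eq_of_le_of_card_ge hE₁E hge)
          omega
        refine ih E₁ hE₁card (hE.to_le hE₁E) hxE₁ (fun d hd => hx d (hE₁E hd)) _ ?_
        rw [hE₁]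
        exact Subgroup.subset_closure ⟨e, he, rfl⟩
    intro d hd
    obtain ⟨m, hm⟩ := hE ⟨d⁻¹ * (x * d * x⁻¹), E.mul_mem (E.inv_mem hd) (hxconj d hd)⟩
    have hm' : (d⁻¹ * (x * d * x⁻¹)) ^ p ^ m = 1 := by simpa using congrArg Subtype.val hm
    exact zje_twist_eq_one x d hxo m hm' (key d hd)

/-- A normal subgroup `C` lies in `N` as soon as `N` contains `P ⊓ C` for a Sylow `p`-subgroup `P`
and all the `p'`-elements of `C`. -/
theorem zje_le_of_sylow_inf_le {G : Type*} [Group G] [Finite G] {p : ℕ} [Fact p.Prime]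
    (P : Sylow p G) (C N : Subgroup G) [C.Normal] (hP : (P : Subgroup G) ⊓ C ≤ N)
    (hN : ∀ x ∈ C, (orderOf x).Coprime p → x ∈ N) : C ≤ N := by
  have hpp : p.Prime := Fact.out
  have hidx : (N ⊓ C).relIndex C = 1 := by
    by_contra hne
    obtain ⟨q, hq, hqd⟩ := Nat.exists_prime_and_dvd hne
    have : Fact q.Prime := ⟨hq⟩
    by_cases hqp : q = p
    · rw [hqp] at hqd
      have h1 : (P : Subgroup G) ⊓ C ≤ N ⊓ C := le_inf hP inf_le_right
      exact Helper32.not_dvd_relIndex_sylow_inf_normal P C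
        (hqd.trans (Subgroup.relIndex_dvd_of_le_left C h1))
    · let Q : Sylow q G := default
      have h1 : (Q : Subgroup G) ⊓ C ≤ N ⊓ C := by
        intro y hy
        refine ⟨hN y hy.2 ?_, hy.2⟩
        obtain ⟨k, hk⟩ := Q.2 ⟨y, hy.1⟩
        have hk' : y ^ q ^ k = 1 := by simpa using congrArg Subtype.val hk
        exact Nat.Coprime.coprime_dvd_left (orderOf_dvd_of_pow_eq_one hk')
          (Nat.Coprime.pow_left k ((Nat.coprime_primes hq hpp).mpr hqp))
      exact Helper32.not_dvd_relIndex_sylow_inf_normal Q C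
        (hqd.trans (Subgroup.relIndex_dvd_of_le_left C h1))
  exact (Subgroup.relIndex_eq_one.mp hidx).trans inf_le_left

/-- The centre of a subgroup is transported by injective homomorphisms. -/
theorem zje_center_map {G G' : Type*} [Group G] [Group G'] (f : G →* G')
    (hf : Function.Injective f) (J : Subgroup G) :
    (J ⊓ Subgroup.centralizer (J : Set G)).map f =
      J.map f ⊓ Subgroup.centralizer ((J.map f : Subgroup G') : Set G') := by
  ext y
  constructor
  · rintro ⟨z, hz, rfl⟩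
    rw [SetLike.mem_coe, Subgroup.mem_inf] at hz
    refine Subgroup.mem_inf.mpr ⟨Subgroup.mem_map_of_mem f hz.1, ?_⟩
    rw [Subgroup.mem_centralizer_iff]
    rintro _ ⟨j, hj, rfl⟩
    rw [← map_mul, ← map_mul, Subgroup.mem_centralizer_iff.mp hz.2 j hj]
  · intro hy
    rw [Subgroup.mem_inf] at hy
    obtain ⟨⟨z, hzJ, rfl⟩, hc⟩ := hy
    refine ⟨z, Subgroup.mem_inf.mpr ⟨hzJ, ?_⟩, rfl⟩
    rw [Subgroup.mem_centralizer_iff]
    intro j hj
    apply hf
    rw [map_mul, map_mul]
    exact Subgroup.mem_centralizer_iff.mp hc (f j) (Subgroup.mem_map_of_mem f hj)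

/-- `Z(J(X))` in terms of the internal Thompson subgroup `JJ`. -/
theorem zje_centerThompsonOf_eq {G : Type*} [Group G] (p : ℕ) (X : Subgroup G) :
    Cfsg.centerThompsonOf p X =
      Helper19.JJ p X ⊓ Subgroup.centralizer (Helper19.JJ p X : Set G) := by
  unfold Cfsg.centerThompsonOf
  rw [Helper19.thompsonSubgroupOf_eq_JJ]

/-- Transport of `Z(J(X))` along a homomorphism injective on the whole group. -/
theorem zje_centerThompsonOf_map {G G' : Type*} [Group G] [Group G'] (p : ℕ) (f : G →* G')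
    (hf : Function.Injective f) (X : Subgroup G) :
    Cfsg.centerThompsonOf p (X.map f) = (Cfsg.centerThompsonOf p X).map f := by
  rw [zje_centerThompsonOf_eq, zje_centerThompsonOf_eq, zje_center_map f hf,
    Helper19.JJ_map f hf.injOn]

/-- A subgroup normalizing the abelian subgroup `A` is acted on quadratically by `A`. -/
theorem zje_quad_of_normalizes {G : Type*} [Group G] (B A : Subgroup G)
    (hBA : B ≤ Subgroup.normalizer (A : Set G)) (hA : ∀ a ∈ A, ∀ b ∈ A, a * b = b * a) :
    ⁅⁅B, A⁆, A⁆ = ⊥ := by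
  have h1 : ⁅B, A⁆ ≤ A := by
    rw [Subgroup.commutator_le]
    intro b hb z hz
    have := ((Subgroup.mem_normalizer_iff.mp (hBA hb)) z).mp hz
    rw [commutatorElement_def]
    exact A.mul_mem this (A.inv_mem hz)
  have h2 : ⁅A, A⁆ = ⊥ := by
    rw [eq_bot_iff, Subgroup.commutator_le]
    intro x hx y hy
    rw [Subgroup.mem_bot, commutatorElement_eq_one_iff_mul_comm]
    exact hA x hx y hy
  rw [eq_bot_iff, ← h2]
  exact Subgroup.commutator_mono h1 le_rfl

/-- The join of two commuting abelian subgroups is abelian. -/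
theorem zje_comm_sup {G : Type*} [Group G] (A B : Subgroup G)
    (hA : ∀ a ∈ A, ∀ b ∈ A, a * b = b * a) (hB : ∀ a ∈ B, ∀ b ∈ B, a * b = b * a)
    (hAB : ∀ a ∈ A, ∀ b ∈ B, a * b = b * a) :
    ∀ x ∈ A ⊔ B, ∀ y ∈ A ⊔ B, x * y = y * x := by
  have h1 : A ⊔ B ≤ Subgroup.centralizer (A : Set G) ⊓ Subgroup.centralizer (B : Set G) := by
    apply sup_le
    · intro a ha
      refine Subgroup.mem_inf.mpr ⟨?_, ?_⟩
      · rw [Subgroup.mem_centralizer_iff]
        intro a' ha'
        exact hA a' ha' a ha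
      · rw [Subgroup.mem_centralizer_iff]
        intro b hb
        exact (hAB a ha b hb).symm
    · intro b hb
      refine Subgroup.mem_inf.mpr ⟨?_, ?_⟩
      · rw [Subgroup.mem_centralizer_iff]
        intro a ha
        exact hAB a ha b hb
      · rw [Subgroup.mem_centralizer_iff]
        intro b' hb'
        exact hB b' hb' b hb
  intro x hx y hy
  have hy' := Subgroup.mem_inf.mp (h1 hy)
  have h2 : A ⊔ B ≤ Subgroup.centralizer {y} := by
    apply sup_le
    · intro a ha
      rw [Subgroup.mem_centralizer_iff]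
      intro g hg
      rw [Set.mem_singleton_iff] at hg
      rw [hg]
      exact (Subgroup.mem_centralizer_iff.mp hy'.1 a ha).symm
    · intro b hb
      rw [Subgroup.mem_centralizer_iff]
      intro g hg
      rw [Set.mem_singleton_iff] at hg
      rw [hg]
      exact (Subgroup.mem_centralizer_iff.mp hy'.2 b hb).symm
  exact (Subgroup.mem_centralizer_iff.mp (h2 hx) y rfl).symm

/-- The join of two commuting elementary abelian subgroups is elementary abelian. -/
theorem zje_EA_sup {G : Type*} [Group G] {p : ℕ} (A B : Subgroup G) (hA : Helper19.EA p A)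
    (hB : Helper19.EA p B) (hAB : ∀ a ∈ A, ∀ b ∈ B, a * b = b * a) : Helper19.EA p (A ⊔ B) := by
  have hcomm := zje_comm_sup A B hA.1 hB.1 hAB
  refine ⟨hcomm, ?_⟩
  let T : Subgroup G :=
    { carrier := {y | y ∈ A ⊔ B ∧ y ^ p = 1}
      one_mem' := ⟨Subgroup.one_mem _, one_pow p⟩
      mul_mem' := by
        rintro y z ⟨hy, hyp⟩ ⟨hz, hzp⟩
        refine ⟨Subgroup.mul_mem _ hy hz, ?_⟩
        have hc : Commute y z := hcomm y hy z hz
        rw [hc.mul_pow, hyp, hzp, one_mul]
      inv_mem' := by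
        rintro y ⟨hy, hyp⟩
        exact ⟨Subgroup.inv_mem _ hy, by rw [inv_pow, hyp, inv_one]⟩ }
  have hle : A ⊔ B ≤ T :=
    sup_le (fun a ha => ⟨(le_sup_left : A ≤ A ⊔ B) ha, hA.2 a ha⟩)
      (fun b hb => ⟨(le_sup_right : B ≤ A ⊔ B) hb, hB.2 b hb⟩)
  intro a ha
  exact (hle ha).2

end Cfsg.Agent.Helper2
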